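import Mathlib
import Cfsg.Prelude.Def_LieExceptional
import Cfsg.Agent.H8.Zass
import Cfsg.Agent.H8.Zass2

set_option autoImplicit false

namespace Cfsg.Agent.H8

open Cfsg MulAction

variable {G Ω : Type*} [Group G] [MulAction G Ω]

/-- one inclusion between two regular normal subgroups -/
theorem regular_normal_le [FaithfulSMul G Ω] (h2 : IsMultiplyPretransitive G Ω 2)
    (h3 : ∀ g : G, ∀ a b c : Ω, a ≠ b → b ≠ c → a ≠ c → g • a = a → g • b = b → g • c = c → g = 1)
    (M₁ M₂ : Subgroup G) [hM₁ : M₁.Normal] [hM₂ : M₂.Normal]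
    (ht₁ : ∀ a b : Ω, ∃ m ∈ M₁, m • a = b) (hs₁ : ∀ m ∈ M₁, ∀ a : Ω, m • a = a → m = 1)
    (ht₂ : ∀ a b : Ω, ∃ m ∈ M₂, m • a = b) : M₁ ≤ M₂ := by
  intro m₁ hm₁
  by_cases hm₁1 : m₁ = 1
  · rw [hm₁1]; exact M₂.one_mem
  obtain ⟨a, ha⟩ := exists_moved (Ω := Ω) hm₁1
  by_cases hI : M₁ ⊓ M₂ = ⊥
  · exfalso
    have hcomm : ∀ u ∈ M₁, ∀ v ∈ M₂, u * v = v * u := fun u hu v hv =>
      Subgroup.commute_of_normal_of_disjoint M₁ M₂ hM₁ hM₂ (disjoint_iff.2 hI) u v hu hv
    -- a general contradiction: an element `u ≠ 1` of `M₁` and a point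
    have main : ∀ u ∈ M₁, u ≠ 1 → ∀ a : Ω, ∃ x : G, x ≠ 1 ∧ x • a = a ∧
        (∀ w ∈ M₁, w * u = u * w → x * w = w * x) := by
      intro u hu hu1 a
      obtain ⟨v, hv, hva⟩ := ht₂ a (u • a)
      refine ⟨u⁻¹ * v, ?_, ?_, ?_⟩
      · intro e
        have huv : u = v := by
          have := congrArg (u * ·) e
          simpa using this.symm
        have : u ∈ M₁ ⊓ M₂ := ⟨hu, huv ▸ hv⟩
        rw [hI] at this
        exact hu1 this
      · rw [mul_smul, hva, inv_smul_smul]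
      · intro w hw hwu
        have e1 : v * w = w * v := (hcomm w hw v hv).symm
        have e2 : u⁻¹ * w = w * u⁻¹ := by
          have := congrArg (fun z => u⁻¹ * z * u⁻¹) hwu
          simpa [mul_assoc] using this
        rw [mul_assoc, e1, ← mul_assoc, e2, mul_assoc]
    by_cases hex : ∃ u ∈ M₁, u * u ≠ 1
    · obtain ⟨u, hu, huu⟩ := hex
      have hu1 : u ≠ 1 := by
        intro e; apply huu; rw [e, one_mul]
      obtain ⟨x, hx1, hxa, hxc⟩ := main u hu hu1 a
      have hxu : x * u = u * x := hxc u hu rfl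
      have hb : x • (u • a) = u • a := by rw [← mul_smul, hxu, mul_smul, hxa]
      have hc : x • (u • u • a) = u • u • a := by
        rw [← mul_smul, hxu, mul_smul, hb]
      have n1 : a ≠ u • a := fun e => hu1 (hs₁ u hu a e.symm)
      have n2 : u • a ≠ u • u • a := fun e => n1 (MulAction.injective u e)
      have n3 : a ≠ u • u • a := by
        intro e
        apply huu
        apply hs₁ (u * u) (M₁.mul_mem hu hu) a
        rw [mul_smul]; exact e.symm
      exact hx1 (h3 x a (u • a) (u • u • a) n1 n2 n3 hxa hb hc)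
    · push Not at hex
      have hab : ∀ u ∈ M₁, ∀ w ∈ M₁, w * u = u * w := by
        intro u hu w hw
        have e1 := hex u hu
        have e2 := hex w hw
        have e3 := hex (w * u) (M₁.mul_mem hw hu)
        have : w * u = (w * w) * (u * w) * (u * u) := by
          rw [e1, e2, one_mul, mul_one]
          have := congrArg (fun z => w⁻¹ * z * u⁻¹) e3
          simp only [mul_assoc, inv_mul_cancel_left, mul_inv_cancel, mul_one] at this
          have h4 : u * w = w⁻¹ * u⁻¹ := by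
            have h5 := congrArg (fun z => w⁻¹ * z) e3
            simp only [mul_assoc, inv_mul_cancel_left, mul_one] at h5
            have h6 := congrArg (fun z => z * u⁻¹) h5
            simp only [mul_assoc, mul_inv_cancel, mul_one] at h6
            have h7 : u * (w * (u * u⁻¹)) = u * w := by simp
            rw [← h7]
            simpa [mul_assoc] using h6
          have h8 : w⁻¹ = w := inv_eq_of_mul_eq_one_left e2
          have h9 : u⁻¹ = u := inv_eq_of_mul_eq_one_left e1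
          rw [h4, h8, h9]
        rw [this, e1, e2, one_mul, mul_one]
      obtain ⟨x, hx1, hxa, hxc⟩ := main m₁ hm₁ hm₁1 a
      apply hx1
      apply FaithfulSMul.eq_of_smul_eq_smul (α := Ω)
      intro y
      obtain ⟨w, hw, rfl⟩ := ht₁ a y
      rw [one_smul, ← mul_smul, hxc w hw (hab m₁ hm₁ w hw), mul_smul, hxa]
  · haveI : (M₁ ⊓ M₂).Normal := inferInstance
    obtain ⟨x, hx, hxa⟩ := normal_transitive h2 (M₁ ⊓ M₂) hI a (m₁ • a)
    have : x⁻¹ * m₁ = 1 := by
      apply hs₁ _ (M₁.mul_mem (M₁.inv_mem hx.1) hm₁) a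
      rw [mul_smul, ← hxa, inv_smul_smul]
    have hxm : m₁ = x := by
      have := congrArg (x * ·) this
      simpa using this
    rw [hxm]; exact hx.2

theorem regular_normal_unique [FaithfulSMul G Ω] (h2 : IsMultiplyPretransitive G Ω 2)
    (h3 : ∀ g : G, ∀ a b c : Ω, a ≠ b → b ≠ c → a ≠ c → g • a = a → g • b = b → g • c = c → g = 1)
    (M₁ M₂ : Subgroup G) [hM₁ : M₁.Normal] [hM₂ : M₂.Normal]
    (ht₁ : ∀ a b : Ω, ∃ m ∈ M₁, m • a = b) (hs₁ : ∀ m ∈ M₁, ∀ a : Ω, m • a = a → m = 1)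
    (ht₂ : ∀ a b : Ω, ∃ m ∈ M₂, m • a = b) (hs₂ : ∀ m ∈ M₂, ∀ a : Ω, m • a = a → m = 1) :
    M₁ = M₂ :=
  le_antisymm (regular_normal_le h2 h3 M₁ M₂ ht₁ hs₁ ht₂) (regular_normal_le h2 h3 M₂ M₁ ht₂ hs₂ ht₁)

/-- a non-trivial normal subgroup of a Zassenhaus group is a Zassenhaus group -/
theorem zassenhaus_normal [Finite Ω] (hZ : IsZassenhausGroup G Ω) (N : Subgroup G) [hN : N.Normal]
    (hne : N ≠ ⊥) : IsZassenhausGroup N Ω := by
  obtain ⟨hf, h2, h3, h4, h5⟩ := hZ
  haveI := hf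
  obtain ⟨n₀, hn₀, hn₀1, a₀, b₀, hab₀, ha₀, hb₀⟩ := exists_two_fixed h2 h5 N hne
  have h2N : IsMultiplyPretransitive N Ω 2 :=
    normal_two_pretransitive h2 h3 N hne hn₀ hn₀1 hab₀ ha₀ hb₀
  have hfN : FaithfulSMul N Ω :=
    ⟨fun {n n'} h => Subtype.ext (hf.eq_of_smul_eq_smul h)⟩
  have h3N : ∀ g : N, ∀ a b c : Ω, a ≠ b → b ≠ c → a ≠ c → g • a = a → g • b = b → g • c = c →
      g = 1 := fun g a b c hab hbc hac ha hb hc => Subtype.ext (h3 g a b c hab hbc hac ha hb hc)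
  refine ⟨hfN, h2N, h3N, ⟨⟨n₀, hn₀⟩, fun h => hn₀1 (congrArg Subtype.val h), a₀, b₀, hab₀,
    ha₀, hb₀⟩, ?_⟩
  intro M hM hMt
  by_contra hcon
  push Not at hcon
  have htM : ∀ a b : Ω, ∃ m ∈ M, m • a = b := fun a b => by
    obtain ⟨m, hm⟩ := hMt.exists_smul_eq a b
    exact ⟨m, m.2, hm⟩
  have hsM : ∀ m ∈ M, ∀ a : Ω, m • a = a → m = 1 := by
    intro m hm a ha
    have : (⟨m, hm⟩ : M) ∈ stabilizer M a := ha
    rw [hcon a] at this
    exact congrArg Subtype.val (Subgroup.mem_bot.1 this)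
  -- conjugates of `M` by elements of `G` coincide with `M`
  have hconj : ∀ g : G, M.map (MulAut.conjNormal g : N ≃* N).toMonoidHom = M := by
    intro g
    haveI : (M.map (MulAut.conjNormal g : N ≃* N).toMonoidHom).Normal :=
      hM.map _ (MulAut.conjNormal g : N ≃* N).surjective
    apply regular_normal_unique h2N h3N _ M _ _ htM hsM
    · intro a b
      obtain ⟨m, hm, e⟩ := htM (g⁻¹ • a) (g⁻¹ • b)
      refine ⟨(MulAut.conjNormal g : N ≃* N) m, Subgroup.mem_map.2 ⟨m, hm, rfl⟩, ?_⟩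
      show ((MulAut.conjNormal g m : N) : G) • a = b
      rw [MulAut.conjNormal_apply, mul_smul, mul_smul]
      have e' : (m : G) • g⁻¹ • a = g⁻¹ • b := e
      rw [e', smul_inv_smul]
    · rintro _ ⟨m, hm, rfl⟩ a ha
      have ha' : ((MulAut.conjNormal g m : N) : G) • a = a := ha
      rw [MulAut.conjNormal_apply, mul_smul, mul_smul] at ha'
      have e : (m : G) • g⁻¹ • a = g⁻¹ • a := by
        have := congrArg (g⁻¹ • ·) ha'
        simpa using this
      have hm1 := hsM m hm (g⁻¹ • a) e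
      rw [hm1]
      simp
  let M' : Subgroup G := M.map N.subtype
  have hM'n : M'.Normal := by
    constructor
    rintro _ ⟨m, hm, rfl⟩ g
    have h1 : (MulAut.conjNormal g : N ≃* N) m ∈ M := by
      rw [← hconj g]
      exact Subgroup.mem_map.2 ⟨m, hm, rfl⟩
    refine Subgroup.mem_map.2 ⟨(MulAut.conjNormal g : N ≃* N) m, h1, ?_⟩
    simp [MulAut.conjNormal_apply]
  have hM't : IsPretransitive M' Ω := by
    constructor
    intro a b
    obtain ⟨m, hm, e⟩ := htM a b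
    exact ⟨⟨(m : G), Subgroup.mem_map.2 ⟨m, hm, rfl⟩⟩, e⟩
  obtain ⟨a, ha⟩ := h5 M' hM'n hM't
  obtain ⟨k, hk, hk1⟩ := exists_ne_one_of_ne_bot _ ha
  obtain ⟨m, hm, e⟩ := Subgroup.mem_map.1 k.2
  apply hk1
  apply Subtype.ext
  have hk' : (k : G) • a = a := hk
  rw [← e] at hk'
  have := hsM m hm a hk'
  rw [← e, this]
  rfl

end Cfsg.Agent.H8
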