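import Mathlib
import Cfsg.Agent.H8.SzMax

set_option autoImplicit false

namespace Cfsg.Agent.H8

open Cfsg Matrix MulAction
open scoped commutatorElement

section

variable {F : Type*} [Field F] [Fintype F] {m : ℕ}

/-- a subgroup containing the torus and one unipotent element off the centre contains the
unipotent subgroup -/
theorem szU_le_of_torus (hm : 1 ≤ m) (hF : Fintype.card F = 2 ^ (2 * m + 1))
    (L : Subgroup (Sz F m)) (hH : ∀ k : Fˣ, szHG hF k ∈ L) {x y : F} (hx : x ≠ 0)
    (hxy : (szUM hF x y : Sz F m) ∈ L) : szU (m := m) hF ≤ L := by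
  have hchar := sz_charP hF
  have h1 : ∀ a : F, ∃ b : F, (szUM hF a b : Sz F m) ∈ L := by
    intro a
    by_cases ha : a = 0
    · refine ⟨0, ?_⟩
      rw [ha, szUM_zero]; exact L.one_mem
    · let k : Fˣ := Units.mk0 (a / x) (div_ne_zero ha hx)
      refine ⟨(k : F) * szT m (k : F) * y, ?_⟩
      have e : (szUM hF a ((k : F) * szT m (k : F) * y) : Sz F m) =
          szHG hF k * szUM hF x y * (szHG hF k)⁻¹ := by
        apply Subtype.ext
        show szM m a _ = szH m k * szM m x y * (szH m k)⁻¹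
        rw [szH_szM hF, mul_inv_cancel_right]
        have : (k : F) * x = a := by
          show a / x * x = a
          field_simp
        rw [this]
      rw [e]; exact L.mul_mem (L.mul_mem (hH k) hxy) (L.inv_mem (hH k))
  have h2 : ∀ c : F, (szUM hF 0 c : Sz F m) ∈ L := by
    intro c
    obtain ⟨t, ht0, ht1⟩ := sz_exists_ne_zero_one hm hF
    have hv : szT m t + t ≠ 0 := by
      intro h
      have : szT m t = t := by
        rw [← CharTwo.add_eq_zero]; exact h
      rcases szT_fixed hF this with h7 | h7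
      · exact ht0 h7
      · exact ht1 h7
    obtain ⟨d, hd⟩ := sz_norm_surj hF (c / (szT m t + t))
    obtain ⟨b1, hb1⟩ := h1 d
    obtain ⟨b2, hb2⟩ := h1 (d * t)
    have hc : ⁅szUM (m := m) hF d b1, szUM hF (d * t) b2⁆ = szUM hF 0 c := by
      rw [szUM_comm]
      congr 1
      rw [szT_mul]
      have : c = (d * szT m d) * (szT m t + t) := by rw [hd]; field_simp
      rw [this]
      generalize szT m t = A
      generalize szT m d = B
      grind
    have e : (szUM hF 0 c : Sz F m) =
        (szUM hF d b1 : Sz F m) * (szUM hF (d * t) b2 : Sz F m) * (szUM hF d b1 : Sz F m)⁻¹ *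
          (szUM hF (d * t) b2 : Sz F m)⁻¹ := by
      rw [← hc, commutatorElement_def]; rfl
    rw [e]
    exact L.mul_mem (L.mul_mem (L.mul_mem hb1 hb2) (L.inv_mem hb1)) (L.inv_mem hb2)
  intro g hg
  obtain ⟨a, b, hab⟩ := szUM_surj hF ⟨g, hg⟩
  have hg' : g = (szUM hF a b : Sz F m) := congrArg Subtype.val hab
  rw [hg']
  obtain ⟨b', hb'⟩ := h1 a
  have e : szUM (m := m) hF a b = szUM hF 0 (b + b') * szUM hF a b' := by
    rw [szUM_zero_mul]
    congr 1
    grind
  rw [e]
  exact L.mul_mem (h2 _) hb'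

/-- the Suzuki group is generated by two elements -/
theorem sz_two_generated (hm : 1 ≤ m) (hF : Fintype.card F = 2 ^ (2 * m + 1)) :
    ∃ a b : Sz F m, Subgroup.closure ({a, b} : Set (Sz F m)) = ⊤ := by
  have hchar := sz_charP hF
  obtain ⟨κ, hκ⟩ := IsCyclic.exists_generator (α := Fˣ)
  refine ⟨szHG hF κ, (szUM hF 1 0 : Sz F m) * szWG hF, ?_⟩
  set L := Subgroup.closure ({szHG hF κ, (szUM hF 1 0 : Sz F m) * szWG hF} : Set (Sz F m))
    with hL
  have ha : szHG hF κ ∈ L := Subgroup.subset_closure (by simp)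
  have hb : (szUM hF 1 0 : Sz F m) * szWG hF ∈ L := Subgroup.subset_closure (by simp)
  have hH : ∀ k : Fˣ, szHG hF k ∈ L := by
    intro k
    obtain ⟨n, rfl⟩ := Subgroup.mem_zpowers_iff.1 (hκ k)
    rw [map_zpow]; exact L.zpow_mem ha n
  have hkey : szHG hF κ * ((szUM hF 1 0 : Sz F m) * szWG hF) * szHG hF κ *
      ((szUM hF 1 0 : Sz F m) * szWG hF)⁻¹ ∈ L :=
    L.mul_mem (L.mul_mem (L.mul_mem ha hb) ha) (L.inv_mem hb)
  have e : szHG hF κ * ((szUM hF 1 0 : Sz F m) * szWG hF) * szHG hF κ *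
      ((szUM hF 1 0 : Sz F m) * szWG hF)⁻¹ =
        (szUM hF ((κ : F) + 1) (1 + szT m (κ : F)) : Sz F m) := by
    apply Subtype.ext
    show szH m κ * (szM m 1 0 * szW F) * szH m κ * (szM m 1 0 * szW F)⁻¹ =
      szM m ((κ : F) + 1) (1 + szT m (κ : F))
    have i1 : (szM m (1 : F) 0)⁻¹ = szM m 1 1 := by
      have := szM_mul_inv (m := m) hF (1 : F) 0
      rw [szT_one] at this
      simp only [mul_one, zero_add] at this
      exact inv_eq_of_mul_eq_one_right this
    have i2 : szH m κ * szM m (1 : F) 0 = szM m (κ : F) 0 * szH m κ := by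
      rw [szH_szM hF]; simp
    have i3 : szW F * szH m κ * szW F = szH m κ⁻¹ := by
      rw [szW_szH, mul_assoc, szW_mul_self, mul_one]
    have i4 : szM m (κ : F) 0 * szM m (1 : F) 1 = szM m ((κ : F) + 1) (1 + szT m (κ : F)) := by
      rw [szM_mul hF]; simp
    calc szH m κ * (szM m 1 0 * szW F) * szH m κ * (szM m 1 0 * szW F)⁻¹
        = (szH m κ * szM m 1 0) * (szW F * szH m κ * szW F) * (szM m 1 0)⁻¹ := by
          rw [_root_.mul_inv_rev, szW_inv]; group
      _ = szM m (κ : F) 0 * (szH m κ * szH m κ⁻¹) * szM m 1 1 := by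
          rw [i1, i2, i3]; group
      _ = szM m ((κ : F) + 1) (1 + szT m (κ : F)) := by
          rw [← map_mul, mul_inv_cancel, map_one, mul_one, i4]
  rw [e] at hkey
  have hκ1 : (κ : F) + 1 ≠ 0 := by
    intro h
    have h1 : (κ : F) = 1 := by
      have := CharTwo.add_eq_zero.1 h
      exact this
    have h2 : κ = 1 := Units.ext h1
    obtain ⟨t, ht0, ht1⟩ := sz_exists_ne_zero_one hm hF
    have h3 := hκ (Units.mk0 t ht0)
    rw [h2, Subgroup.zpowers_one_eq_bot, Subgroup.mem_bot] at h3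
    exact ht1 (congrArg Units.val h3)
  have hU := szU_le_of_torus hm hF L hH hκ1 hkey
  refine sz_top_of_szU_le hm hF L hU hb ?_
  show (szM m (1 : F) 0 * szW F) • szPt F m none ≠ szPt F m none
  rw [mul_smul, szW_smul_none, szM_smul_zero hF]
  intro h
  exact absurd (szPt_injective F m h) (by simp)

end

end Cfsg.Agent.H8
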