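import Mathlib
import Cfsg.Agent.H48.EpDefs2
import Cfsg.Agent.H3.TiCycSet

/-!
# S5974 team project (helper48): piece EP-EXIST (helper8)

`StExist4` from helper49's `StExOdd` and `StExEven`.
-/

set_option autoImplicit false
open scoped MatrixGroups
open scoped Matrix

namespace Cfsg.Agent.H8.Ep

open Cfsg.Agent.H45 Cfsg.Agent.H42.Spd Cfsg.Agent.H42.Ti Cfsg.Agent.H48.Ep Module

universe u

/-- EP-EXIST. -/
theorem exist (hO : Cfsg.Agent.H49.Pt.StExOdd.{u}) (hE : Cfsg.Agent.H49.Pt.StExEven.{u}) :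
    StExist4.{u} := by
  intro F _ _ p _ _ r hr hr2 hrp d A hd hA hcA hadm
  have hrF : (r : F) ≠ 0 := by
    intro h0
    have h1 := (CharP.cast_eq_zero_iff F p r).mp h0
    exact hrp ((Nat.prime_dvd_prime_iff_eq Fact.out hr).mp h1).symm
  rcases Nat.even_or_odd (ii F r) with hev | hodd
  · have hcc : cc F r = ii F r := by
      unfold cc
      exact if_pos hev
    rw [hcc] at hcA hadm ⊢
    obtain ⟨Φs, hΦ⟩ := (Cfsg.Agent.H3.Ti.cycSet F r hr hrF).1
    obtain ⟨h, hh⟩ := hev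
    have hdiv : ii F r / 2 = h := by omega
    have hmul : ii F r * A = 2 * (h * A) := by
      rw [hh]
      ring
    have h1 : Odd A → ii F r / 2 * A + 1 ≤ d := by
      intro hAo
      rw [hdiv]
      have h3 : ii F r * A ≠ 2 * d := by
        intro h4
        rcases hadm h4 with h5 | h5
        · exact (Nat.not_odd_iff_even.mpr ⟨h, hh⟩) h5
        · exact (Nat.not_even_iff_odd.mpr hAo) h5
      omega
    have h2 : Even A → ii F r / 2 * A ≤ d := by
      intro _
      rw [hdiv]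
      omega
    obtain ⟨x, hx1, hx2, hx3, hx4, -⟩ := hE F p d r hd hr hr2 hrp ⟨h, hh⟩ Φs hΦ A hA h1 h2
    exact ⟨x, hx1, hx2, hx3, hx4⟩
  · have hcc : cc F r = 2 * ii F r := by
      unfold cc
      exact if_neg (Nat.not_even_iff_odd.mpr hodd)
    rw [hcc] at hcA ⊢
    have h1 : ii F r * A ≤ d := by
      have h3 : 2 * ii F r * A = 2 * (ii F r * A) := by ring
      omega
    obtain ⟨x, hx1, hx2, hx3, hx4⟩ := hO F p d r hd hr hr2 hrp hodd A hA h1
    exact ⟨x, hx1, hx2, hx3, hx4⟩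

example (hO : Cfsg.Agent.H49.Pt.StExOdd.{u}) (hE : Cfsg.Agent.H49.Pt.StExEven.{u}) :
    Cfsg.Agent.H48.Ep.StExist4.{u} := exist hO hE

end Cfsg.Agent.H8.Ep
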