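import Mathlib
import Cfsg.Agent.H99.I2Defs

/-!
# I2 sub-project (helper99; S5974 / S5990): piece I2-PERP (helper8)

The orthogonal complement of an invariant nondegenerate `Y` inside an invariant nondegenerate `X`.
-/

set_option autoImplicit false

namespace Cfsg.Agent.H8.I2

open Cfsg.Agent.H45 Cfsg.Agent.H48.Ep Cfsg.Agent.H99.I2 Module

universe u v

/-- Riesz representation inside a nondegenerate subspace (no finiteness of the field). -/
theorem perp_riesz {F : Type u} [Field F] {V : Type v} [AddCommGroup V] [Module F V]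
    [FiniteDimensional F V] (B : V →ₗ[F] V →ₗ[F] F) (Y : Submodule F V)
    (hY : Y ⊓ perp B Y = ⊥) (x : V) : ∃ y ∈ Y, ∀ u ∈ Y, B u y = B u x := by
  let φ : ↥Y →ₗ[F] Module.Dual F ↥Y := (B.compl₁₂ Y.subtype Y.subtype).flip
  have hφ : ∀ (y u : ↥Y), φ y u = B (u : V) (y : V) := fun y u => rfl
  have hinj : Function.Injective φ := by
    rw [← LinearMap.ker_eq_bot, LinearMap.ker_eq_bot']
    intro y hy
    have hmem : (y : V) ∈ Y ⊓ perp B Y := by
      refine ⟨y.2, ?_⟩
      rw [SetLike.mem_coe, mem_perp]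
      intro u hu
      have h1 := congrArg (fun f : Module.Dual F ↥Y => f ⟨u, hu⟩) hy
      exact h1
    rw [hY] at hmem
    exact Subtype.ext ((Submodule.mem_bot F).mp hmem)
  have hsurj : Function.Surjective φ :=
    (LinearMap.injective_iff_surjective_of_finrank_eq_finrank
      (Subspace.dual_finrank_eq).symm).mp hinj
  let ψ : Module.Dual F ↥Y := (B.flip x).comp Y.subtype
  obtain ⟨y, hy⟩ := hsurj ψ
  refine ⟨y, y.2, fun u hu => ?_⟩
  have h1 := congrArg (fun f : Module.Dual F ↥Y => f ⟨u, hu⟩) hy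
  exact h1

/-- I2-PERP. -/
theorem perpI : Cfsg.Agent.H99.I2.StI2Perp.{u, v} := by
  intro F _ V _ _ _ Q T hC X Y hX hY hYX
  have hBpol : ∀ x y, QuadraticMap.polarBilin Q x y = QuadraticMap.polar ⇑Q x y :=
    fun _ _ => rfl
  have hTT : ∀ v, T (T v) = v := by
    intro v
    have h1 := congrArg (fun f : Module.End F V => f v) hC.sq
    exact h1
  have hisom : ∀ x y, QuadraticMap.polar ⇑Q (T x) (T y) = QuadraticMap.polar ⇑Q x y := by
    intro x y
    rw [QuadraticMap.polar, QuadraticMap.polar, ← map_add, hC.isom, hC.isom, hC.isom]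
  have hXinv : ∀ v ∈ X, T v ∈ X := fun v hv => hX.1 hv
  have hYinv : ∀ v ∈ Y, T v ∈ Y := fun v hv => hY.1 hv
  have hXnd : X ⊓ perp (QuadraticMap.polarBilin Q) X = ⊥ := hX.2
  have hYnd : Y ⊓ perp (QuadraticMap.polarBilin Q) Y = ⊥ := hY.2
  obtain ⟨Z, hZdef⟩ : ∃ Z : Submodule F V, Z = X ⊓ perp (QuadraticMap.polarBilin Q) Y :=
    ⟨_, rfl⟩
  rw [← hZdef]
  have hZmem : ∀ z, z ∈ Z ↔ z ∈ X ∧ ∀ u ∈ Y, QuadraticMap.polar ⇑Q u z = 0 := by
    intro z
    rw [hZdef, Submodule.mem_inf, mem_perp]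
    rfl
  have hZinv : ∀ z ∈ Z, T z ∈ Z := by
    intro z hz
    rw [hZmem] at hz ⊢
    refine ⟨hXinv z hz.1, ?_⟩
    intro u hu
    rw [← hTT u, hisom]
    exact hz.2 (T u) (hYinv u hu)
  have hsup : Y ⊔ Z = X := by
    apply le_antisymm
    · refine sup_le hYX ?_
      intro z hz
      exact ((hZmem z).mp hz).1
    · intro x hx
      obtain ⟨y, hyY, hy⟩ := perp_riesz (QuadraticMap.polarBilin Q) Y hYnd x
      refine Submodule.mem_sup.mpr ⟨y, hyY, x - y, ?_, by abel⟩
      rw [hZmem]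
      refine ⟨X.sub_mem hx (hYX hyY), ?_⟩
      intro u hu
      have h1 := hy u hu
      rw [hBpol, hBpol] at h1
      rw [QuadraticMap.polar_sub_right, h1, sub_self]
  have hinf : Y ⊓ Z = ⊥ := by
    rw [eq_bot_iff]
    intro v hv
    have h1 : v ∈ Y ⊓ perp (QuadraticMap.polarBilin Q) Y := by
      refine ⟨hv.1, ?_⟩
      rw [SetLike.mem_coe, mem_perp]
      exact ((hZmem v).mp hv.2).2
    rw [hYnd] at h1
    exact h1
  have hfin : Module.finrank F ↥Z + Module.finrank F ↥Y = Module.finrank F ↥X := by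
    have h1 := Submodule.finrank_sup_add_finrank_inf_eq Y Z
    rw [hsup, hinf, finrank_bot] at h1
    omega
  have hZnd : Z ⊓ perp (QuadraticMap.polarBilin Q) Z = ⊥ := by
    rw [eq_bot_iff]
    intro z hz
    have hz1 := (hZmem z).mp hz.1
    have hz2 : ∀ u ∈ Z, QuadraticMap.polar ⇑Q u z = 0 := (mem_perp _ _ _).mp hz.2
    have h1 : z ∈ X ⊓ perp (QuadraticMap.polarBilin Q) X := by
      refine ⟨hz1.1, ?_⟩
      rw [SetLike.mem_coe, mem_perp]
      intro x hx
      rw [← hsup] at hx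
      obtain ⟨y, hy, z', hz', rfl⟩ := Submodule.mem_sup.mp hx
      rw [hBpol, QuadraticMap.polar_add_left, hz1.2 y hy, hz2 z' hz', add_zero]
    rw [hXnd] at h1
    exact h1
  refine ⟨⟨fun z hz => hZinv z hz, hZnd⟩, hfin, hsup, ?_, ?_⟩
  · intro x hx y hy
    exact ((hZmem y).mp hy).2 x hx
  · unfold rk
    have hmap : X.map (T - 1) = Y.map (T - 1) ⊔ Z.map (T - 1) := by
      rw [← Submodule.map_sup, hsup]
    have hYN : Y.map (T - 1) ≤ Y := by
      rintro _ ⟨y, hy, rfl⟩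
      rw [LinearMap.sub_apply, Module.End.one_apply]
      exact Y.sub_mem (hYinv y hy) hy
    have hZN : Z.map (T - 1) ≤ Z := by
      rintro _ ⟨z, hz, rfl⟩
      rw [LinearMap.sub_apply, Module.End.one_apply]
      exact Z.sub_mem (hZinv z hz) hz
    have hinf' : Y.map (T - 1) ⊓ Z.map (T - 1) = ⊥ := by
      rw [eq_bot_iff]
      intro v hv
      have h1 : v ∈ Y ⊓ Z := ⟨hYN hv.1, hZN hv.2⟩
      rw [hinf] at h1
      exact h1
    have h1 := Submodule.finrank_sup_add_finrank_inf_eq (Y.map (T - 1)) (Z.map (T - 1))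
    rw [← hmap, hinf', finrank_bot, add_zero] at h1
    exact h1

example : Cfsg.Agent.H99.I2.StI2Perp.{u, v} := perpI

end Cfsg.Agent.H8.I2
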