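import Mathlib
import Cfsg.Agent.H77.TmDefs2
import Cfsg.Agent.H60.OtTrick
import Cfsg.Agent.H86.OtSplit

/-!
# S5987 team project (helper77): piece QTRICK (helper8)

The form trick for quadratic forms in all characteristics: on `U = range (T - 1)` there is an
invariant nondegenerate alternating form with the same invariant totally singular subspaces.
Odd characteristic: `A x y = B x ((T - T ^ (r - 1)) y)`, `B` the polar form (as in helper60's
`OtTrick`); characteristic `2`: `A = B`.
-/

set_option autoImplicit false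

namespace Cfsg.Agent.H8.Tm

open Cfsg.Agent.H45 Cfsg.Agent.H42.Spd Cfsg.Agent.H42.Ti Cfsg.Agent.H14.Ot Cfsg.Agent.H60.Ot
  Cfsg.Agent.H77.Tm Module Polynomial

universe u v

theorem qTrick_surj_on {F : Type u} [Field F] {W : Type v} [AddCommGroup W] [Module F W]
    [FiniteDimensional F W] (f : Module.End F W) (hinj : ∀ x, f x = 0 → x = 0)
    (W' : Submodule F W) (hW' : ∀ v ∈ W', f v ∈ W') (v : W) (hv : v ∈ W') :
    ∃ v' ∈ W', f v' = v := by
  let hr' : ↥W' →ₗ[F] ↥W' := f.restrict hW'
  have hrinj : Function.Injective hr' := by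
    rw [← LinearMap.ker_eq_bot, LinearMap.ker_eq_bot']
    intro z hz
    have hz' : f (z : W) = 0 := congrArg Subtype.val hz
    exact Subtype.ext (hinj _ hz')
  obtain ⟨v', hv'⟩ := (LinearMap.injective_iff_surjective.mp hrinj) ⟨v, hv⟩
  exact ⟨v', v'.2, congrArg Subtype.val hv'⟩

/-- TM-QTRICK. -/
theorem qTrick : Cfsg.Agent.H77.Tm.StQTrick.{u, v} := by
  intro F _ _ V _ _ _ r Q T hO
  obtain ⟨hKU, hKUtop, -⟩ := Cfsg.Agent.H86.Ot.oSplit F V r T hO.cast_ne hO.pow
  have hr1 : 1 ≤ r := hO.prime.one_lt.le
  have hodd : Odd r := hO.prime.odd_of_ne_two hO.ne_two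
  obtain ⟨B, hBdef⟩ : ∃ B : V →ₗ[F] V →ₗ[F] F, B = QuadraticMap.polarBilin Q := ⟨_, rfl⟩
  have hBpol : ∀ x y, B x y = QuadraticMap.polar ⇑Q x y := by
    intro x y
    rw [hBdef]
    rfl
  have hBsymm : ∀ x y, B x y = B y x := by
    intro x y
    rw [hBpol, hBpol, QuadraticMap.polar_comm]
  have hBisom : ∀ x y, B (T x) (T y) = B x y := by
    intro x y
    rw [hBpol, hBpol, QuadraticMap.polar, QuadraticMap.polar, ← map_add, hO.isom, hO.isom,
      hO.isom]
  have hBnd : ∀ x, (∀ y, B x y = 0) → x = 0 := by
    intro x hx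
    exact hO.nondeg x (fun y => by rw [← hBpol]; exact hx y)
  have hUinv : ∀ x ∈ LinearMap.range (T - 1), T x ∈ LinearMap.range (T - 1) := by
    rintro x ⟨y, rfl⟩
    refine ⟨T y, ?_⟩
    simp only [LinearMap.sub_apply, Module.End.one_apply, map_sub]
  let T' : Module.End F ↥(LinearMap.range (T - 1)) := T.restrict hUinv
  let ι : ↥(LinearMap.range (T - 1)) →ₗ[F] V := (LinearMap.range (T - 1)).subtype
  have hιT : ∀ x : ↥(LinearMap.range (T - 1)), ι (T' x) = T (ι x) := fun x => rfl
  have hιTpow : ∀ (k : ℕ) (x : ↥(LinearMap.range (T - 1))), ι ((T' ^ k) x) = (T ^ k) (ι x) := by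
    intro k
    induction k with
    | zero => intro x; simp
    | succ k ih =>
      intro x
      rw [pow_succ', pow_succ', Module.End.mul_apply, Module.End.mul_apply, hιT, ih]
  have hιinj : Function.Injective ι := (LinearMap.range (T - 1)).injective_subtype
  have hT'pow : T' ^ r = 1 := by
    apply LinearMap.ext
    intro x
    apply hιinj
    rw [hιTpow, hO.pow]
    rfl
  let B' : ↥(LinearMap.range (T - 1)) →ₗ[F] ↥(LinearMap.range (T - 1)) →ₗ[F] F := B.compl₁₂ ι ι
  have hB' : ∀ x y, B' x y = B (ι x) (ι y) := fun x y => rfl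
  have hB'symm : ∀ x y, B' x y = B' y x := fun x y => hBsymm _ _
  have hB'isom : ∀ x y, B' (T' x) (T' y) = B' x y := fun x y => hBisom _ _
  have hUK : ∀ x : ↥(LinearMap.range (T - 1)), ∀ k ∈ LinearMap.ker (T - 1), B (ι x) k = 0 := by
    rintro ⟨_, ⟨y, rfl⟩⟩ k hk
    have hk' : T k = k := by
      rw [LinearMap.mem_ker, LinearMap.sub_apply, Module.End.one_apply] at hk
      exact sub_eq_zero.mp hk
    show B ((T - 1) y) k = 0
    rw [LinearMap.sub_apply, Module.End.one_apply, map_sub, LinearMap.sub_apply]
    nth_rewrite 1 [← hk']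
    rw [hBisom, sub_self]
  have hUK' : ∀ x : ↥(LinearMap.range (T - 1)), ∀ c ∈ LinearMap.ker (T - 1),
      QuadraticMap.polar ⇑Q (ι x) c = 0 := by
    intro x c hc
    rw [← hBpol]
    exact hUK x c hc
  have hB'nd : ∀ x : ↥(LinearMap.range (T - 1)), (∀ y, B' x y = 0) → x = 0 := by
    intro x hx
    apply hιinj
    rw [map_zero]
    apply hBnd
    intro v
    have hv : v ∈ LinearMap.ker (T - 1) ⊔ LinearMap.range (T - 1) := by
      rw [hKUtop]
      trivial
    obtain ⟨k, hk, u, hu, rfl⟩ := Submodule.mem_sup.mp hv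
    rw [map_add, hUK x k hk, zero_add]
    exact hx ⟨u, hu⟩
  have hker' : LinearMap.ker (T' - 1) = ⊥ := by
    rw [eq_bot_iff]
    intro x hx
    rw [LinearMap.mem_ker, LinearMap.sub_apply, Module.End.one_apply] at hx
    have hx' : T (ι x) = ι x := by
      rw [← hιT]
      exact congrArg ι (sub_eq_zero.mp hx)
    have hmem : ι x ∈ LinearMap.ker (T - 1) ⊓ LinearMap.range (T - 1) := by
      refine ⟨?_, x.2⟩
      rw [SetLike.mem_coe, LinearMap.mem_ker, LinearMap.sub_apply, Module.End.one_apply, hx',
        sub_self]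
    rw [hKU] at hmem
    rw [Submodule.mem_bot]
    apply hιinj
    rw [map_zero]
    exact (Submodule.mem_bot F).mp hmem
  have hss : T'.IsSemisimple := by
    have : CharP F (ringChar F) := ringChar.charP F
    refine isSemisimple_of_pow_eq_one (ringChar F) T' r ?_ hT'pow
    intro hdvd
    exact hO.cast_ne ((ringChar.spec F r).mpr hdvd)
  have hTSTI : ∀ W' : Submodule F ↥(LinearMap.range (T - 1)), TS Q (W'.map ι) → TI B' W' := by
    intro W' hTS u hu v hv
    rw [hB', hBpol, QuadraticMap.polar, ← map_add,
      hTS _ (Submodule.mem_map_of_mem (W'.add_mem hu hv)), hTS _ (Submodule.mem_map_of_mem hu),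
      hTS _ (Submodule.mem_map_of_mem hv)]
    simp
  by_cases h2 : (2 : F) = 0
  · -- characteristic `2`: the polar form itself
    have hneg : ∀ v : V, -v = v := by
      intro v
      rw [neg_eq_iff_add_eq_zero, ← two_smul F v, h2, zero_smul]
    have hinj1 : ∀ x, (T' - 1) x = 0 → x = 0 := by
      intro x hx
      have : x ∈ LinearMap.ker (T' - 1) := hx
      rw [hker'] at this
      exact (Submodule.mem_bot F).mp this
    refine ⟨↥(LinearMap.range (T - 1)), inferInstance, inferInstance, inferInstance, B', T', ι,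
      ?_, hιinj, hιT, Submodule.range_subtype _, hker', hUK', ?_, ?_⟩
    · refine ⟨hO.prime, hO.ne_two, hO.cast_ne, ⟨?_, hB'nd, ?_, hB'isom, hss⟩, hT'pow⟩
      · intro x y
        rw [RingHom.id_apply, hB'symm y x]
        have h3 : B' x y + B' x y = 0 := by rw [← two_mul, h2, zero_mul]
        linear_combination h3
      · intro _ x
        rw [hB', hBpol, QuadraticMap.polar_self, two_nsmul, ← two_mul, h2, zero_mul]
    · intro W' hW'
      constructor
      · intro hTI u hu
        obtain ⟨w, hw, rfl⟩ := hu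
        obtain ⟨w', hw', hw'eq⟩ := qTrick_surj_on (T' - 1) hinj1 W'
          (fun v hv => by
            rw [LinearMap.sub_apply, Module.End.one_apply]
            exact W'.sub_mem (hW' hv) hv) w hw
        have h1 : ι w = T (ι w') + ι w' := by
          rw [← hw'eq, LinearMap.sub_apply, Module.End.one_apply, map_sub, hιT, sub_eq_add_neg,
            hneg]
        have h3 := hTI (T' w') (hW' hw') w' hw'
        rw [hB', hBpol, hιT] at h3
        rw [h1, QuadraticMap.map_add (⇑Q) (T (ι w')) (ι w'), h3, hO.isom, add_zero, ← two_mul, h2,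
          zero_mul]
      · exact hTSTI W'
    · intro W' _ x
      have e : ∀ w, B' w x = QuadraticMap.polar ⇑Q (ι w) (ι x) := fun w => hBpol _ _
      constructor
      · intro h w hw
        rw [← e]
        exact h w hw
      · intro h w hw
        rw [e]
        exact h w hw
  · -- odd characteristic: helper60's form
    let h' : Module.End F ↥(LinearMap.range (T - 1)) := T' - T' ^ (r - 1)
    let A : ↥(LinearMap.range (T - 1)) →ₗ[F] ↥(LinearMap.range (T - 1)) →ₗ[F] F := B'.compl₂ h'
    have hA : ∀ x y, A x y = B' x (h' y) := fun x y => rfl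
    have hherm : ∀ x y, A y x = - A x y :=
      fun x y => trick_herm B' T' r hr1 hB'symm hB'isom hT'pow x y
    have hinj : ∀ x, h' x = 0 → x = 0 := fun x hx => trick_inj T' r hodd hT'pow hker' x hx
    have hcomm : ∀ y, h' (T' y) = T' (h' y) := by
      intro y
      have hc : h' * T' = T' * h' := by
        show (T' - T' ^ (r - 1)) * T' = T' * (T' - T' ^ (r - 1))
        rw [sub_mul, mul_sub, ← pow_succ, ← pow_succ']
      exact congrArg (fun f : Module.End F ↥(LinearMap.range (T - 1)) => f y) hc
    have hW'h : ∀ W' : Submodule F ↥(LinearMap.range (T - 1)), W' ∈ T'.invtSubmodule →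
        ∀ v ∈ W', h' v ∈ W' := by
      intro W' hW'
      have hW'T : ∀ v ∈ W', T' v ∈ W' := fun v hv => hW' hv
      have hW'pow : ∀ (k : ℕ), ∀ v ∈ W', (T' ^ k) v ∈ W' := by
        intro k
        induction k with
        | zero => intro v hv; simpa using hv
        | succ k ih =>
          intro v hv
          rw [pow_succ', Module.End.mul_apply]
          exact hW'T _ (ih v hv)
      intro v hv
      show (T' - T' ^ (r - 1)) v ∈ W'
      rw [LinearMap.sub_apply]
      exact W'.sub_mem (hW'T v hv) (hW'pow _ v hv)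
    refine ⟨↥(LinearMap.range (T - 1)), inferInstance, inferInstance, inferInstance, A, T', ι,
      ?_, hιinj, hιT, Submodule.range_subtype _, hker', hUK', ?_, ?_⟩
    · refine ⟨hO.prime, hO.ne_two, hO.cast_ne, ⟨?_, ?_, ?_, ?_, hss⟩, hT'pow⟩
      · intro x y
        rw [RingHom.id_apply, hherm x y]
        ring
      · intro x hx
        apply hinj
        apply hB'nd
        intro y
        rw [hB'symm]
        have h1 := hherm x y
        rw [hx y, neg_zero] at h1
        exact h1
      · intro _ x
        have h1 := hherm x x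
        have h3 : (2 : F) * A x x = 0 := by linear_combination h1
        exact (mul_eq_zero.mp h3).resolve_left h2
      · intro x y
        rw [hA, hcomm, hB'isom]
        rfl
    · intro W' hW'
      constructor
      · intro hTI a ha
        obtain ⟨u, hu, rfl⟩ := ha
        obtain ⟨v', hv', hv'eq⟩ := qTrick_surj_on h' hinj W' (hW'h W' hW') u hu
        have h1 := hTI u hu v' hv'
        rw [hA, hv'eq, hB', hBpol, QuadraticMap.polar_self, two_nsmul, ← two_mul] at h1
        exact (mul_eq_zero.mp h1).resolve_left h2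
      · intro hTS u hu v hv
        rw [hA]
        exact hTSTI W' hTS u hu _ (hW'h W' hW' v hv)
    · intro W' hW' x
      have e : ∀ w, B' w x = QuadraticMap.polar ⇑Q (ι w) (ι x) := fun w => hBpol _ _
      have e2 : ∀ w, A w x = - B' (h' w) x := by
        intro w
        rw [hherm x w, hA, hB'symm]
      constructor
      · intro h w hw
        obtain ⟨w', hw', rfl⟩ := qTrick_surj_on h' hinj W' (hW'h W' hW') w hw
        have h1 := h w' hw'
        rw [e2, neg_eq_zero] at h1
        rw [← e]
        exact h1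
      · intro h w hw
        rw [e2, e, h _ (hW'h W' hW' w hw), neg_zero]

example : Cfsg.Agent.H77.Tm.StQTrick.{u, v} := qTrick

end Cfsg.Agent.H8.Tm
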