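import Mathlib
import Cfsg.Agent.H61.TmExDefs

/-!
# S5987-EXEVEN sub-tree (helper61): piece TMX-ALL (helper8)

Fixed-point-free quadratic models with arbitrary multiplicities (induction on the total
multiplicity, port of helper14's `TiModAll`).
-/

set_option autoImplicit false
open scoped MatrixGroups
open scoped Matrix

namespace Cfsg.Agent.H8.Tm

open Cfsg.Agent.H45 Cfsg.Agent.H42.Spd Cfsg.Agent.H42.Ti Cfsg.Agent.H77.Tq Cfsg.Agent.H77.Tm
  Cfsg.Agent.H61.Tm Module Polynomial

universe u

/-- `ModelQ` only depends on the values of `a` on `Φs`. -/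
theorem modelQ_congr {F : Type u} [Field F] {r n c n' c' : ℕ} {Φs : Finset F[X]}
    {a a' : F[X] → ℕ} (hn : n = n') (hc : c = c') (ha : ∀ φ ∈ Φs, a φ = a' φ)
    (h : ModelQ F r n c Φs a) : ModelQ F r n' c' Φs a' := by
  obtain ⟨V, i1, i2, i3, Q, g, hg, hfin, hker, hφ⟩ := h
  exact ⟨V, i1, i2, i3, Q, g, hg, hn ▸ hfin, hc ▸ hker, fun φ hφm => (ha φ hφm) ▸ hφ φ hφm⟩

/-- TMX-ALL. -/
theorem modAll (hB : StBlockEx.{u}) (hS : StModSum.{u}) : StModAll.{u} := by
  intro F _ _ p _ _ r hr hr2 hrp hev a b hab Φs hΦ mult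
  classical
  have hrF : (r : F) ≠ 0 := by
    intro h0
    have h1 := (CharP.cast_eq_zero_iff F p r).mp h0
    exact hrp ((Nat.prime_dvd_prime_iff_eq Fact.out hr).mp h1).symm
  have key : ∀ (N : ℕ) (mult : F[X] → ℕ), ∑ φ ∈ Φs, mult φ = N →
      ModelQ F r (ii F r * N) 0 Φs (fun φ => ii F r * mult φ) := by
    intro N
    induction N with
    | zero =>
      intro mult hsum
      have h0 : ∀ φ ∈ Φs, mult φ = 0 := Finset.sum_eq_zero_iff.mp hsum
      refine ⟨PUnit.{u + 1}, inferInstance, inferInstance, inferInstance, 0, 1,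
        ⟨hr, hr2, hrF, ?_, ?_, one_pow r⟩, ?_, ?_, ?_⟩
      · intro x _
        exact Subsingleton.elim _ _
      · intro x
        rfl
      · rw [mul_zero]
        exact Module.finrank_zero_of_subsingleton
      · exact Module.finrank_zero_of_subsingleton
      · intro φ hφ
        show _ = ii F r * mult φ
        rw [h0 φ hφ, mul_zero]
        exact Module.finrank_zero_of_subsingleton
    | succ N ih =>
      intro mult hsum
      have hex : ∃ φ₀ ∈ Φs, mult φ₀ ≠ 0 := by
        by_contra hcon
        push Not at hcon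
        have : ∑ φ ∈ Φs, mult φ = 0 := Finset.sum_eq_zero hcon
        omega
      obtain ⟨φ₀, hφ₀, hm₀⟩ := hex
      have hsum' : ∑ φ ∈ Φs, Function.update mult φ₀ (mult φ₀ - 1) φ = N := by
        have h1 := Finset.sum_update_of_mem hφ₀ mult (mult φ₀ - 1)
        have h2 : ∑ φ ∈ Φs, mult φ = mult φ₀ + ∑ φ ∈ Φs \ {φ₀}, mult φ := by
          rw [← Finset.sum_singleton mult φ₀, ← Finset.sum_union (by simp)]
          congr 1
          ext x
          simp only [Finset.mem_union, Finset.mem_singleton, Finset.mem_sdiff]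
          constructor
          · intro hx
            by_cases hxe : x = φ₀
            · exact Or.inl hxe
            · exact Or.inr ⟨hx, hxe⟩
          · rintro (rfl | ⟨hx, -⟩)
            · exact hφ₀
            · exact hx
        rw [h1]
        omega
      have h1 := ih _ hsum'
      have h2 := hB F p r hr hr2 hrp hev a b hab Φs hΦ φ₀ hφ₀
      have h3 := hS F r Φs _ _ _ _ _ _ h1 h2
      refine modelQ_congr (by ring) rfl ?_ h3
      intro φ hφ
      by_cases hφe : φ = φ₀
      · subst hφe
        simp only [Function.update_self, if_true]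
        have : mult φ = (mult φ - 1) + 1 := by omega
        conv_rhs => rw [this]
        ring
      · simp only [Function.update_of_ne hφe, if_neg hφe, add_zero]
  exact key _ mult rfl

example (hB : Cfsg.Agent.H61.Tm.StBlockEx.{u}) (hS : Cfsg.Agent.H61.Tm.StModSum.{u}) :
    Cfsg.Agent.H61.Tm.StModAll.{u} := modAll hB hS

end Cfsg.Agent.H8.Tm
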