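import Mathlib
import Cfsg.Agent.H48.SPCDefs

/-!
Entry formulas for forms `A` with `Nᵀ * A = -(A * N)` (`N` the nilpotent Jordan matrix),
shared by the S2676 pieces SPC-LBMUL and SPC-LBINV.
-/

set_option autoImplicit false

namespace Cfsg.Agent.H8.SPC

open Finset Cfsg.Agent.H61 Cfsg.Agent.H48.SPC

universe u

variable {F : Type u} [Field F] {t : ℕ} {d : Fin t → ℕ}

theorem tr_pow_mul_apply (A : Matrix (JI d) (JI d) F) (j : ℕ) (x y : JI d) :
    ((jordanNil d F).transpose ^ j * A) x y =
      if h : x.2.val + j < d x.1 then A ⟨x.1, ⟨x.2.val + j, h⟩⟩ y else 0 := by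
  have h1 : (jordanNil d F).transpose ^ j * A =
      (A.transpose * jordanNil d F ^ j).transpose := by
    rw [Matrix.transpose_mul, Matrix.transpose_pow, Matrix.transpose_transpose]
  rw [h1, Matrix.transpose_apply, mul_jordanNil_pow_apply]
  split_ifs <;> rfl

theorem skew_pow (A : Matrix (JI d) (JI d) F)
    (hA : (jordanNil d F).transpose * A = -(A * jordanNil d F)) (j : ℕ) :
    (jordanNil d F).transpose ^ j * A = (-1 : F) ^ j • (A * jordanNil d F ^ j) := by
  induction j with
  | zero => simp
  | succ j ih =>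
    rw [pow_succ, mul_assoc, hA, Matrix.mul_neg, ← mul_assoc, ih, pow_succ (jordanNil d F),
      ← mul_assoc, pow_succ, Matrix.smul_mul, mul_smul]
    simp

/-- Move the row index to the top of its block. -/
theorem skew_apply_left (hd : ∀ k, 1 ≤ d k) (A : Matrix (JI d) (JI d) F)
    (hA : (jordanNil d F).transpose * A = -(A * jordanNil d F)) (x y : JI d) :
    A x y = (-1 : F) ^ x.2.val *
      (if h : y.2.val + x.2.val < d y.1 then
        A (jtop hd x.1) ⟨y.1, ⟨y.2.val + x.2.val, h⟩⟩ else 0) := by
  have h1 := tr_pow_mul_apply A x.2.val (jtop hd x.1) y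
  rw [skew_pow A hA, Matrix.smul_apply, smul_eq_mul, mul_jordanNil_pow_apply] at h1
  rw [h1, dif_pos (by simp)]
  congr 1
  rw [JI_ext_iff]
  simp

/-- Move the column index to the top of its block. -/
theorem skew_apply_right (hd : ∀ k, 1 ≤ d k) (A : Matrix (JI d) (JI d) F)
    (hA : (jordanNil d F).transpose * A = -(A * jordanNil d F)) (x y : JI d) :
    A x y = (-1 : F) ^ y.2.val *
      (if h : x.2.val + y.2.val < d x.1 then
        A ⟨x.1, ⟨x.2.val + y.2.val, h⟩⟩ (jtop hd y.1) else 0) := by
  have h0 : A * jordanNil d F ^ y.2.val =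
      (-1 : F) ^ y.2.val • ((jordanNil d F).transpose ^ y.2.val * A) := by
    rw [skew_pow A hA, smul_smul, ← pow_add, ← two_mul, pow_mul]
    simp
  have h1 := mul_jordanNil_pow_apply A y.2.val x (jtop hd y.1)
  rw [h0, Matrix.smul_apply, smul_eq_mul, tr_pow_mul_apply] at h1
  rw [h1, dif_pos (by simp)]
  congr 1
  rw [JI_ext_iff]
  simp

/-- A form entry vanishes when the two positions add up beyond the row block. -/
theorem skew_apply_zero_right (hd : ∀ k, 1 ≤ d k) (A : Matrix (JI d) (JI d) F)
    (hA : (jordanNil d F).transpose * A = -(A * jordanNil d F)) (x y : JI d)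
    (h : d x.1 ≤ x.2.val + y.2.val) : A x y = 0 := by
  rw [skew_apply_right hd A hA x y, dif_neg (by omega), mul_zero]

/-- A form entry vanishes when the two positions add up beyond the column block. -/
theorem skew_apply_zero_left (hd : ∀ k, 1 ≤ d k) (A : Matrix (JI d) (JI d) F)
    (hA : (jordanNil d F).transpose * A = -(A * jordanNil d F)) (x y : JI d)
    (h : d y.1 ≤ y.2.val + x.2.val) : A x y = 0 := by
  rw [skew_apply_left hd A hA x y, dif_neg (by omega), mul_zero]

end Cfsg.Agent.H8.SPC
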