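import Mathlib
import Cfsg.Agent.H48.SPCDefs
import Cfsg.Agent.H8.SPCBase

/-!
S2676 piece SPC-LBMUL: leading blocks of `A * g` and `gᵀ * A` for a skew-invariant form `A`
and `g` in the commutant of the nilpotent Jordan matrix.
-/

set_option autoImplicit false

namespace Cfsg.Agent.H8.SPC

open Finset Cfsg.Agent.H61 Cfsg.Agent.H48.SPC

universe u

variable {F : Type u} [Field F] {t : ℕ} {d : Fin t → ℕ}

/-- Bottom position of block `k`. -/
def jbot (hd : ∀ k, 1 ≤ d k) (k : Fin t) : JI d := ⟨k, ⟨d k - 1, by have := hd k; omega⟩⟩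

@[simp] theorem jbot_fst (hd : ∀ k, 1 ≤ d k) (k : Fin t) : (jbot hd k).1 = k := rfl
@[simp] theorem jbot_snd (hd : ∀ k, 1 ≤ d k) (k : Fin t) : (jbot hd k).2.val = d k - 1 := rfl

theorem leadBlock_apply' (hd : ∀ k, 1 ≤ d k) (A : Matrix (JI d) (JI d) F) (i : ℕ)
    (k l : {k : Fin t // d k = i}) :
    leadBlock hd A i k l = A (jbot hd k.1) (jtop hd l.1) := rfl

theorem diagBlock_apply' (hd : ∀ k, 1 ≤ d k) (g : Matrix (JI d) (JI d) F) (i : ℕ)
    (k l : {k : Fin t // d k = i}) :
    diagBlock hd g i k l = g (jtop hd k.1) (jtop hd l.1) := rfl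

theorem lbmul_right (hd : ∀ k, 1 ≤ d k) (A g : Matrix (JI d) (JI d) F)
    (hA : (jordanNil d F).transpose * A = -(A * jordanNil d F))
    (hg : g * jordanNil d F = jordanNil d F * g) (i : ℕ) :
    leadBlock hd (A * g) i = leadBlock hd A i * diagBlock hd g i := by
  ext k l
  rw [leadBlock_apply', Matrix.mul_apply, Matrix.mul_apply]
  symm
  apply Fintype.sum_of_injective (fun l' : {k : Fin t // d k = i} => jtop hd l'.1)
  · intro a b hab
    apply Subtype.ext
    have := congrArg Sigma.fst hab
    simpa using this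
  · intro y hy
    have hk := k.2
    have hl := l.2
    have hi : 1 ≤ i := hk ▸ hd k.1
    by_cases hy0 : y.2.val = 0
    · have hne : d y.1 ≠ i := by
        intro h
        apply hy
        refine ⟨⟨y.1, h⟩, ?_⟩
        rw [JI_ext_iff]
        simp [hy0]
      rcases lt_or_gt_of_ne hne with h | h
      · rw [skew_apply_zero_left hd A hA _ _ (by simp only [jbot_snd, jbot_fst]; omega), zero_mul]
      · have hy' : y = jtop hd y.1 := by
          rw [JI_ext_iff]
          simp [hy0]
        rw [hy', comm_apply_zero hd g hg _ _ (by simp only [jtop_snd, jtop_fst]; omega), mul_zero]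
    · rw [skew_apply_zero_right hd A hA _ _ (by simp only [jbot_snd, jbot_fst]; omega), zero_mul]
  · intro l'
    rfl

theorem lbmul_left (hd : ∀ k, 1 ≤ d k) (A g : Matrix (JI d) (JI d) F)
    (hA : (jordanNil d F).transpose * A = -(A * jordanNil d F))
    (hg : g * jordanNil d F = jordanNil d F * g) (i : ℕ) :
    leadBlock hd (g.transpose * A) i = (diagBlock hd g i).transpose * leadBlock hd A i := by
  ext k l
  rw [leadBlock_apply', Matrix.mul_apply, Matrix.mul_apply]
  symm
  have hk := k.2
  have hl := l.2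
  have hi : 1 ≤ i := hk ▸ hd k.1
  apply Fintype.sum_of_injective (fun k' : {k : Fin t // d k = i} => jbot hd k'.1)
  · intro a b hab
    apply Subtype.ext
    have := congrArg Sigma.fst hab
    simpa using this
  · intro y hy
    rw [Matrix.transpose_apply, comm_apply_eq hd g hg y (jbot hd k.1)]
    have hyd := y.2.2
    by_cases h1 : (jbot hd k.1).2.val ≤ y.2.val
    · rw [if_pos h1]
      simp only [jbot_snd, jbot_fst] at h1 ⊢
      by_cases h2 : y.2.val + 1 < d y.1
      · rw [comm_apply_zero hd g hg _ _ (by simp only [jsub_snd, jsub_fst]; omega), zero_mul]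
      · have hne : d y.1 ≠ i := by
          intro h
          apply hy
          refine ⟨⟨y.1, h⟩, ?_⟩
          rw [JI_ext_iff]
          simp only [jbot_fst, jbot_snd, true_and]
          omega
        rw [skew_apply_zero_left hd A hA _ _ (by simp only [jtop_snd, jtop_fst]; omega), mul_zero]
    · rw [if_neg h1, zero_mul]
  · intro k'
    have hk' := k'.2
    rw [Matrix.transpose_apply, diagBlock_apply', leadBlock_apply', Matrix.transpose_apply,
      comm_apply_eq hd g hg (jbot hd k'.1) (jbot hd k.1),
      if_pos (by simp only [jbot_snd]; omega)]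
    congr 2
    rw [JI_ext_iff]
    simp only [jsub_fst, jsub_snd, jbot_fst, jbot_snd, jtop_fst, jtop_snd, true_and]
    omega

/-- SPC-LBMUL. -/
theorem lbmul : LBMulStmt.{u} := by
  intro F _ t d hd A g hA hg i
  exact ⟨lbmul_right hd A g hA hg i, lbmul_left hd A g hA hg i⟩

example : Cfsg.Agent.H48.SPC.LBMulStmt.{u} := lbmul

end Cfsg.Agent.H8.SPC
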