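import Mathlib
import Cfsg.Agent.H48.SPCDefs
import Cfsg.Agent.H8.SPCBase
import Cfsg.Agent.H8.SPCLBMul

/-!
S2676 piece SPC-LBINV: a skew-invariant form is nondegenerate iff all its leading blocks are.
-/

set_option autoImplicit false

namespace Cfsg.Agent.H8.SPC

open Finset Cfsg.Agent.H61 Cfsg.Agent.H48.SPC

universe u

variable {F : Type u} [Field F] {t : ℕ} {d : Fin t → ℕ}

/-- Reverse the position inside a block. -/
def jrev (x : JI d) : JI d := ⟨x.1, Fin.rev x.2⟩

@[simp] theorem jrev_fst (x : JI d) : (jrev x).1 = x.1 := rfl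

theorem jrev_snd (x : JI d) : (jrev x).2.val = d x.1 - (x.2.val + 1) := by
  simp [jrev, Fin.val_rev]

theorem jrev_jrev (x : JI d) : jrev (jrev x) = x := by
  rw [JI_ext_iff]
  refine ⟨rfl, ?_⟩
  rw [jrev_snd, jrev_snd]
  have := x.2.2
  simp only [jrev_fst]
  omega

/-- Block reversal as a permutation. -/
def jrevPerm : Equiv.Perm (JI d) := ⟨jrev, jrev, jrev_jrev, jrev_jrev⟩

/-- The element of the commutant attached to a skew-invariant form. -/
def formComm (A : Matrix (JI d) (JI d) F) : Matrix (JI d) (JI d) F :=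
  Matrix.of fun x y => (-1 : F) ^ (jrev x).2.val * A (jrev x) y

theorem formComm_apply (A : Matrix (JI d) (JI d) F) (x y : JI d) :
    formComm A x y = (-1 : F) ^ (jrev x).2.val * A (jrev x) y := rfl

theorem formComm_comm (A : Matrix (JI d) (JI d) F)
    (hA : (jordanNil d F).transpose * A = -(A * jordanNil d F)) :
    formComm A * jordanNil d F = jordanNil d F * formComm A := by
  ext x y
  rw [mul_jordanNil_apply, jordanNil_mul_apply]
  have h1 := congrFun (congrFun hA (jrev x)) y
  rw [Matrix.neg_apply, mul_jordanNil_apply] at h1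
  have h2 := tr_pow_mul_apply A 1 (jrev x) y
  rw [pow_one] at h2
  rw [h2] at h1
  have hx := x.2.2
  have hr := jrev_snd x
  by_cases hx1 : 1 ≤ x.2.val
  · rw [if_pos hx1]
    rw [dif_pos (by simp only [jrev_fst]; omega)] at h1
    have h3 : ∀ h, A (⟨(jrev x).1, ⟨(jrev x).2.val + 1, h⟩⟩ : JI d) y = A (jrev (jsub x 1)) y := by
      intro h
      congr 1
      rw [JI_ext_iff]
      refine ⟨rfl, ?_⟩
      show (jrev x).2.val + 1 = (jrev (jsub x 1)).2.val
      rw [jrev_snd (jsub x 1), hr]
      simp only [jsub_fst, jsub_snd]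
      omega
    rw [h3] at h1
    have h4 : (jrev (jsub x 1)).2.val = (jrev x).2.val + 1 := by
      rw [jrev_snd (jsub x 1), hr]
      simp only [jsub_fst, jsub_snd]
      omega
    rw [formComm_apply, h4, h1]
    by_cases hy : y.2.val + 1 < d y.1
    · rw [dif_pos hy, dif_pos hy, formComm_apply, pow_succ]
      ring
    · rw [dif_neg hy, dif_neg hy]
      simp
  · rw [if_neg hx1]
    rw [dif_neg (by simp only [jrev_fst]; omega)] at h1
    by_cases hy : y.2.val + 1 < d y.1
    · rw [dif_pos hy] at h1 ⊢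
      rw [formComm_apply]
      have : A (jrev x) ⟨y.1, ⟨y.2.val + 1, hy⟩⟩ = 0 := by
        have := h1
        rw [eq_comm, neg_eq_zero] at this
        exact this
      rw [this, mul_zero]
    · rw [dif_neg hy]

theorem formComm_det (A : Matrix (JI d) (JI d) F) : (formComm A).det ≠ 0 ↔ A.det ≠ 0 := by
  have h1 : formComm A =
      Matrix.of fun x y => (-1 : F) ^ (jrev x).2.val * (A.submatrix jrevPerm id) x y := rfl
  rw [h1, Matrix.det_mul_column, Matrix.det_permute]
  have h2 : (∏ x : JI d, (-1 : F) ^ (jrev x).2.val) ≠ 0 := by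
    rw [Finset.prod_ne_zero_iff]
    intro x _
    exact pow_ne_zero _ (neg_ne_zero.mpr one_ne_zero)
  have h3 : ((Equiv.Perm.sign (jrevPerm : Equiv.Perm (JI d)) : ℤˣ) : F) ≠ 0 := by
    rcases Int.units_eq_one_or (Equiv.Perm.sign (jrevPerm : Equiv.Perm (JI d))) with h | h
    · rw [h]
      simp
    · rw [h]
      simp
  constructor
  · intro h hA
    apply h
    rw [hA]
    simp
  · intro h
    exact mul_ne_zero h2 (mul_ne_zero h3 h)

theorem formComm_diagBlock (hd : ∀ k, 1 ≤ d k) (A : Matrix (JI d) (JI d) F) (i : ℕ) :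
    diagBlock hd (formComm A) i = (-1 : F) ^ (i - 1) • leadBlock hd A i := by
  ext k l
  rw [diagBlock_apply', formComm_apply, Matrix.smul_apply, smul_eq_mul, leadBlock_apply']
  have hk := k.2
  have h1 : jrev (jtop hd k.1) = jbot hd k.1 := by
    rw [JI_ext_iff]
    refine ⟨rfl, ?_⟩
    rw [jrev_snd]
    simp
  rw [h1, jbot_snd, hk]

/-- SPC-LBINV. -/
theorem lbinv : LBInvStmt.{u} := by
  intro F _ t d hd A hA
  rw [← formComm_det, comm_det_ne_zero_iff hd (formComm A) (formComm_comm A hA)]
  apply forall_congr'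
  intro i
  rw [formComm_diagBlock, Matrix.det_smul]
  constructor
  · intro h h0
    apply h
    rw [h0, mul_zero]
  · intro h
    exact mul_ne_zero (pow_ne_zero _ (pow_ne_zero _ (neg_ne_zero.mpr one_ne_zero))) h

example : Cfsg.Agent.H48.SPC.LBInvStmt.{u} := lbinv

end Cfsg.Agent.H8.SPC
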