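import Mathlib
import Cfsg.Agent.H61.TmExDefs

/-!
# S5987-EXEVEN sub-tree (helper61): piece TMX-TRANSG (helper8)

Transport of an isometry of odd order along an isometry onto the standard minus space.
-/

set_option autoImplicit false
open scoped MatrixGroups
open scoped Matrix

namespace Cfsg.Agent.H8.Tm

open Cfsg.Agent.H45 Cfsg.Agent.H42.Spd Cfsg.Agent.H42.Ti Cfsg.Agent.H77.Tq Cfsg.Agent.H77.Tm
  Cfsg.Agent.H61.Tm Module Polynomial

universe u

theorem transG_finrank_ker {F : Type u} [Field F] {V : Type u} [AddCommGroup V] [Module F V]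
    {W : Type u} [AddCommGroup W] [Module F W] (e : V ≃ₗ[F] W) (f : Module.End F V) :
    Module.finrank F ↥(LinearMap.ker (e.conjAlgEquiv F f))
      = Module.finrank F ↥(LinearMap.ker f) := by
  have h : LinearMap.ker (e.conjAlgEquiv F f) = (LinearMap.ker f).map (e : V →ₗ[F] W) := by
    ext w
    rw [LinearMap.mem_ker, LinearEquiv.conjAlgEquiv_apply, Submodule.mem_map]
    constructor
    · intro hw
      refine ⟨e.symm w, ?_, e.apply_symm_apply w⟩
      rw [LinearMap.mem_ker]
      have h1 : e (f (e.symm w)) = 0 := hw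
      exact e.map_eq_zero_iff.mp h1
    · rintro ⟨v, hv, rfl⟩
      show e (f (e.symm (e v))) = 0
      rw [e.symm_apply_apply, LinearMap.mem_ker.mp hv, map_zero]
  rw [h]
  exact LinearEquiv.finrank_map_eq e _

/-- TMX-TRANSG. -/
theorem transG (hOdd : StOddMemAll.{u}) : StTransG.{u} := by
  intro F _ _ k a b r V _ _ _ Q g e hab hk hC hQ
  classical
  obtain ⟨Ψ, hΨ⟩ : ∃ Ψ : Module.End F V ≃ₐ[F] Matrix (MI k) (MI k) F,
      Ψ = (e.conjAlgEquiv F).trans LinearMap.toMatrixAlgEquiv' := ⟨_, rfl⟩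
  have hr1 : 1 ≤ r := hC.prime.one_lt.le
  have hodd : Odd r := hC.prime.odd_of_ne_two hC.ne_two
  have hg1 : g * g ^ (r - 1) = 1 := by rw [← pow_succ', Nat.sub_add_cancel hr1, hC.pow]
  have hg2 : g ^ (r - 1) * g = 1 := by rw [← pow_succ, Nat.sub_add_cancel hr1, hC.pow]
  obtain ⟨u, hu⟩ : ∃ u : (Module.End F V)ˣ, (u : Module.End F V) = g :=
    ⟨⟨g, g ^ (r - 1), hg1, hg2⟩, rfl⟩
  obtain ⟨x, hxdef⟩ : ∃ x : GL (MI k) F,
      x = Units.map (Ψ : Module.End F V →* Matrix (MI k) (MI k) F) u := ⟨_, rfl⟩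
  have hx : (x : Matrix (MI k) (MI k) F) = Ψ g := by
    rw [hxdef, ← hu]
    rfl
  have hlin : Matrix.toLin' (x : Matrix (MI k) (MI k) F) = e.conjAlgEquiv F g := by
    rw [hx, hΨ]
    show Matrix.toLin' (LinearMap.toMatrix' (e.conjAlgEquiv F g)) = _
    rw [Matrix.toLin'_toMatrix']
  have hmv : ∀ w : MI k → F, (x : Matrix (MI k) (MI k) F) *ᵥ w = e (g (e.symm w)) := by
    intro w
    rw [← Matrix.toLin'_apply, hlin]
    rfl
  have hxr : x ^ r = 1 := by
    have hur : u ^ r = 1 := by
      apply Units.ext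
      rw [Units.val_pow_eq_pow_val, hu, hC.pow]
      rfl
    rw [hxdef, ← map_pow, hur, map_one]
  -- the quadratic form on the standard space
  obtain ⟨Q', hQ'⟩ : ∃ Q' : QuadraticForm F (MI k → F),
      Q' = Q.comp (e.symm : (MI k → F) →ₗ[F] V) := ⟨_, rfl⟩
  have hQ'app : ∀ w, Q' w = Q (e.symm w) := by
    intro w
    rw [hQ']
    rfl
  have hQ'coe : ⇑Q' = Cfsg.quadFormMinus k F a b := by
    funext w
    rw [hQ'app, ← hQ, e.apply_symm_apply]
  have hpol : ∀ x y, QuadraticMap.polar ⇑Q' x y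
      = QuadraticMap.polar ⇑Q (e.symm x) (e.symm y) := by
    intro x y
    rw [QuadraticMap.polar, QuadraticMap.polar, hQ'app, hQ'app, hQ'app, map_add]
  have hnd : (QuadraticMap.polarBilin Q').Nondegenerate := by
    constructor
    · intro x hx0
      have h1 : e.symm x = 0 := by
        apply hC.nondeg
        intro v
        have h2 := hx0 (e v)
        rw [QuadraticMap.polarBilin_apply_apply, hpol, e.symm_apply_apply] at h2
        exact h2
      exact e.symm.map_eq_zero_iff.mp h1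
    · intro y hy0
      have h1 : e.symm y = 0 := by
        apply hC.nondeg
        intro v
        have h2 := hy0 (e v)
        rw [QuadraticMap.polarBilin_apply_apply, hpol, e.symm_apply_apply,
          QuadraticMap.polar_comm] at h2
        exact h2
      exact e.symm.map_eq_zero_iff.mp h1
  have hiso : x ∈ Cfsg.isometryGroup F (Cfsg.quadFormMinus k F a b) := by
    rw [Cfsg.Agent.H49.mem_isometryGroup_iff]
    intro w
    rw [hmv, hQ, hC.isom, ← hQ, e.apply_symm_apply]
  have hcard : 5 ≤ Fintype.card (MI k) := by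
    simp only [Fintype.card_sum, Fintype.card_fin]
    omega
  refine ⟨x, ?_, hxr, hmv, ?_, ?_, ?_⟩
  · have h1 := hOdd F (MI k) Q' hnd hcard x r (by rw [hQ'coe]; exact hiso) hodd hxr
    rw [hQ'coe] at h1
    exact h1
  · unfold fixDim
    rw [hlin]
    have h1 : e.conjAlgEquiv F g - 1 = e.conjAlgEquiv F (g - 1) := by rw [map_sub, map_one]
    rw [h1]
    exact transG_finrank_ker e (g - 1)
  · intro φ
    rw [hlin, Polynomial.aeval_algHom_apply]
    exact transG_finrank_ker e _
  · intro z hz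
    apply Ψ.injective
    rw [← hx, hz, map_smul, map_one]

example (hOdd : Cfsg.Agent.H77.Tm.StOddMemAll.{u}) : Cfsg.Agent.H61.Tm.StTransG.{u} :=
  transG hOdd

end Cfsg.Agent.H8.Tm
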