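import Mathlib
import Cfsg.Agent.H79.HcDefs
import Cfsg.Agent.Lib.Helper96.ProjLift
import Cfsg.Agent.H4.Integral

/-!
# S4440-P18 (helper8): `StmtCE`

Central-extension data for an invariant irreducible character `θ` of a normal subgroup `K`
of a finite group `G`: the group of determinant-one lifts (helper96's `liftGroup K ⊤ σ`).
-/

set_option autoImplicit false
set_option linter.unusedSectionVars false
set_option linter.style.haveILetI false

namespace Cfsg.Agent.H8.Hc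

open Module Representation Cfsg Cfsg.Agent.H4 Cfsg.Agent.Lib.Helper96 Cfsg.Agent.H79.Hc

universe u

section CE

variable {G : Type u} [Group G] (K : Subgroup G) [hK : K.Normal]
  {W : Type} [AddCommGroup W] [Module ℂ W] [FiniteDimensional ℂ W]
  (σ : Representation ℂ K W)

/-- The projection of the lift group onto `G`. -/
def cePi : liftGroup K (⊤ : Subgroup G) σ →* G :=
  (⊤ : Subgroup G).subtype.comp (liftFst K ⊤ σ)

theorem cePi_apply (x : liftGroup K (⊤ : Subgroup G) σ) : cePi K σ x = ((x.1.1 : (⊤ : Subgroup G)) : G) :=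
  rfl

/-- Existence of lifts for an invariant irreducible representation. -/
theorem ce_exists_lift [Finite K] [σ.IsIrreducible]
    (hinv : ∀ (g : G) (n : K), σ.character ⟨g * n * g⁻¹, hK.conj_mem n n.2 g⟩ = σ.character n)
    (t : (⊤ : Subgroup G)) : ∃ P : W ≃ₗ[ℂ] W, (t, P) ∈ liftGroup K (⊤ : Subgroup G) σ := by
  let σt : Representation ℂ K W := σ.comp (cjHom K ⊤ t)
  have hch : σ.character = σt.character := by
    funext n
    have h1 : σt.character n = σ.character (cjN K ⊤ t n) := rfl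
    rw [h1]
    exact (hinv (t : G) n).symm
  obtain ⟨φ⟩ := equiv_of_character_eq σ σt hch
  have hd : 0 < finrank ℂ W := finrank_pos_of_irreducible σ
  set P₀ : W ≃ₗ[ℂ] W := φ.toLinearEquiv with hP₀
  have hint : ∀ n : K, (P₀ : W →ₗ[ℂ] W) ∘ₗ σ n = σ (cjN K ⊤ t n) ∘ₗ (P₀ : W →ₗ[ℂ] W) :=
    fun n => φ.isIntertwining' n
  have hδ : LinearMap.det (P₀ : W →ₗ[ℂ] W) ≠ 0 := (LinearEquiv.isUnit_det' P₀).ne_zero
  obtain ⟨ζ, hζ⟩ := IsAlgClosed.exists_pow_nat_eq (LinearMap.det (P₀ : W →ₗ[ℂ] W))⁻¹ hd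
  have hζ0 : ζ ≠ 0 := by
    rintro rfl
    rw [zero_pow hd.ne'] at hζ
    exact (inv_ne_zero hδ) hζ.symm
  let P : W ≃ₗ[ℂ] W := (LinearEquiv.smulOfNeZero ℂ W ζ hζ0).trans P₀
  have hPc : (P : W →ₗ[ℂ] W) = ζ • (P₀ : W →ₗ[ℂ] W) := by
    ext w
    simp [P]
  refine ⟨P, (mem_liftGroup K ⊤ σ).mpr ⟨?_, fun n => ?_⟩⟩
  · show LinearMap.det (P : W →ₗ[ℂ] W) = 1
    rw [hPc, LinearMap.det_smul, hζ, inv_mul_cancel₀ hδ]
  · show (P : W →ₗ[ℂ] W) ∘ₗ σ n = σ (cjN K ⊤ t n) ∘ₗ (P : W →ₗ[ℂ] W)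
    rw [hPc, LinearMap.smul_comp, hint n, LinearMap.comp_smul]

theorem cePi_surjective [Finite K] [σ.IsIrreducible]
    (hinv : ∀ (g : G) (n : K), σ.character ⟨g * n * g⁻¹, hK.conj_mem n n.2 g⟩ = σ.character n) :
    Function.Surjective (cePi K σ) := by
  intro g
  obtain ⟨P, hP⟩ := ce_exists_lift K σ hinv ⟨g, Subgroup.mem_top g⟩
  exact ⟨⟨(⟨g, Subgroup.mem_top g⟩, P), hP⟩, rfl⟩

theorem sigma_mul_apply (a b : K) (w : W) : σ a (σ b w) = σ (a * b) w := by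
  rw [map_mul]
  rfl

/-- Elements of the lift group lying over `K` are scalar multiples of `σ`. -/
theorem ce_scal [σ.IsIrreducible] (x : liftGroup K (⊤ : Subgroup G) σ) (hx : cePi K σ x ∈ K) :
    ∃ c : ℂ, (x.1.2 : W →ₗ[ℂ] W) = c • σ ⟨cePi K σ x, hx⟩ := by
  obtain ⟨⟨t, P⟩, hxm⟩ := x
  change (t : G) ∈ K at hx
  let n₀ : K := ⟨t, hx⟩
  have h2 := ((mem_liftGroup K ⊤ σ).mp hxm).2
  have h5 := sigma_mul_apply K σ
  have hcj : ∀ n : K, cjN K ⊤ t n = n₀ * n * n₀⁻¹ := fun n => Subtype.ext rfl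
  have hQ : ∀ n : K, (σ n₀⁻¹ ∘ₗ (P : W →ₗ[ℂ] W)) ∘ₗ σ n = σ n ∘ₗ (σ n₀⁻¹ ∘ₗ (P : W →ₗ[ℂ] W)) := by
    intro n
    ext w
    have h3 : P (σ n w) = σ (cjN K ⊤ t n) (P w) := congrArg (fun f : W →ₗ[ℂ] W => f w) (h2 n)
    show σ n₀⁻¹ (P (σ n w)) = σ n (σ n₀⁻¹ (P w))
    rw [h3, hcj, h5, h5]
    congr 2
    group
  obtain ⟨c, hc⟩ := schur_scalar σ _ hQ
  refine ⟨c, ?_⟩
  ext w
  have h3 : σ n₀⁻¹ (P w) = c • w := congrArg (fun f : W →ₗ[ℂ] W => f w) hc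
  have h4 : σ n₀ (σ n₀⁻¹ (P w)) = P w := by
    rw [h5, mul_inv_cancel, map_one]
    rfl
  show P w = c • σ n₀ w
  rw [← h4, h3, map_smul]

theorem ce_scal_unique [σ.IsIrreducible] (k : K) (c d : ℂ) (h : c • σ k = d • σ k) : c = d := by
  have hd : 0 < finrank ℂ W := finrank_pos_of_irreducible σ
  haveI : Nontrivial W := Module.nontrivial_of_finrank_pos (R := ℂ) hd
  obtain ⟨w, hw⟩ := exists_ne (0 : W)
  have h1 : c • σ k w = d • σ k w := congrArg (fun f : W →ₗ[ℂ] W => f w) h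
  have h2 : σ k w ≠ 0 := by
    intro h0
    apply hw
    have h3 : σ k⁻¹ (σ k w) = w := by
      rw [sigma_mul_apply, inv_mul_cancel, map_one]
      rfl
    rw [← h3, h0, map_zero]
  have h3 : (c - d) • σ k w = 0 := by rw [sub_smul, h1, sub_self]
  rcases smul_eq_zero.mp h3 with h4 | h4
  · exact sub_eq_zero.mp h4
  · exact absurd h4 h2

open Classical in
/-- The scalar by which an element over `K` differs from `σ`. -/
noncomputable def ceNu (x : liftGroup K (⊤ : Subgroup G) σ) : ℂ :=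
  if h : ∃ c : ℂ, ∃ hx : cePi K σ x ∈ K, (x.1.2 : W →ₗ[ℂ] W) = c • σ ⟨cePi K σ x, hx⟩ then
    Classical.choose h else 0

theorem ceNu_spec [σ.IsIrreducible] (x : liftGroup K (⊤ : Subgroup G) σ) (hx : cePi K σ x ∈ K) :
    (x.1.2 : W →ₗ[ℂ] W) = ceNu K σ x • σ ⟨cePi K σ x, hx⟩ := by
  have h : ∃ c : ℂ, ∃ hx : cePi K σ x ∈ K, (x.1.2 : W →ₗ[ℂ] W) = c • σ ⟨cePi K σ x, hx⟩ := by
    obtain ⟨c, hc⟩ := ce_scal K σ x hx
    exact ⟨c, hx, hc⟩
  unfold ceNu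
  rw [dif_pos h]
  obtain ⟨_, h2⟩ := Classical.choose_spec h
  exact h2

theorem ceNu_eq [σ.IsIrreducible] (x : liftGroup K (⊤ : Subgroup G) σ) (hx : cePi K σ x ∈ K)
    (c : ℂ) (h : (x.1.2 : W →ₗ[ℂ] W) = c • σ ⟨cePi K σ x, hx⟩) : ceNu K σ x = c := by
  have h1 := ceNu_spec K σ x hx
  rw [h] at h1
  exact (ce_scal_unique K σ _ _ _ h1).symm

theorem ceNu_ne [σ.IsIrreducible] (x : liftGroup K (⊤ : Subgroup G) σ) (hx : cePi K σ x ∈ K) :
    ceNu K σ x ≠ 0 := by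
  intro h0
  have hd : 0 < finrank ℂ W := finrank_pos_of_irreducible σ
  haveI : Nontrivial W := Module.nontrivial_of_finrank_pos (R := ℂ) hd
  obtain ⟨w, hw⟩ := exists_ne (0 : W)
  have h1 := ceNu_spec K σ x hx
  rw [h0, zero_smul] at h1
  have h2 : x.1.2 w = 0 := congrArg (fun f : W →ₗ[ℂ] W => f w) h1
  apply hw
  have h4 : x.1.2 w = x.1.2 0 := by rw [h2, map_zero]
  exact x.1.2.injective h4

theorem liftRepW_eq (x : liftGroup K (⊤ : Subgroup G) σ) :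
    liftRepW K ⊤ σ x = (x.1.2 : W →ₗ[ℂ] W) := rfl

/-- Every element of `K` has a lift. -/
theorem ce_lift_K [Finite K] [σ.IsIrreducible]
    (hinv : ∀ (g : G) (n : K), σ.character ⟨g * n * g⁻¹, hK.conj_mem n n.2 g⟩ = σ.character n)
    (k : K) : ∃ x : liftGroup K (⊤ : Subgroup G) σ, ∃ hx : cePi K σ x ∈ K,
      (⟨cePi K σ x, hx⟩ : K) = k := by
  obtain ⟨x, hx⟩ := cePi_surjective K σ hinv (k : G)
  exact ⟨x, hx ▸ k.2, Subtype.ext hx⟩

/-- A subspace invariant under the lifts of `K` is trivial. -/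
theorem ce_invariant [Finite K] [σ.IsIrreducible]
    (hinv : ∀ (g : G) (n : K), σ.character ⟨g * n * g⁻¹, hK.conj_mem n n.2 g⟩ = σ.character n)
    (U : Submodule ℂ W)
    (hU : ∀ x : liftGroup K (⊤ : Subgroup G) σ, cePi K σ x ∈ K → ∀ v ∈ U, x.1.2 v ∈ U) :
    U = ⊥ ∨ U = ⊤ := by
  apply ((isIrreducible_iff σ).mp inferInstance).2 U
  intro k v hv
  obtain ⟨x, hx, hxk⟩ := ce_lift_K K σ hinv k
  have h1 := ceNu_spec K σ x hx
  have h2 : x.1.2 v = ceNu K σ x • σ k v := by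
    rw [← hxk]
    exact congrArg (fun f : W →ₗ[ℂ] W => f v) h1
  have h3 := hU x hx v hv
  rw [h2] at h3
  have h4 := U.smul_mem (ceNu K σ x)⁻¹ h3
  rwa [smul_smul, inv_mul_cancel₀ (ceNu_ne K σ x hx), one_smul] at h4

theorem ce_irr [Finite K] [σ.IsIrreducible]
    (hinv : ∀ (g : G) (n : K), σ.character ⟨g * n * g⁻¹, hK.conj_mem n n.2 g⟩ = σ.character n) :
    (liftRepW K (⊤ : Subgroup G) σ).IsIrreducible := by
  rw [isIrreducible_iff]
  have hd : 0 < finrank ℂ W := finrank_pos_of_irreducible σ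
  exact ⟨Module.nontrivial_of_finrank_pos (R := ℂ) hd,
    fun U hU => ce_invariant K σ hinv U (fun x _ v hv => hU x v hv)⟩

/-- The restriction of the lift representation to the preimage of `K`. -/
def ceResRep : Representation ℂ (K.comap (cePi K σ)) W :=
  (liftRepW K (⊤ : Subgroup G) σ).comp (K.comap (cePi K σ)).subtype

theorem ce_res_irr [Finite K] [σ.IsIrreducible]
    (hinv : ∀ (g : G) (n : K), σ.character ⟨g * n * g⁻¹, hK.conj_mem n n.2 g⟩ = σ.character n) :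
    (ceResRep K σ).IsIrreducible := by
  rw [isIrreducible_iff]
  have hd : 0 < finrank ℂ W := finrank_pos_of_irreducible σ
  exact ⟨Module.nontrivial_of_finrank_pos (R := ℂ) hd,
    fun U hU => ce_invariant K σ hinv U (fun x hx v hv => hU ⟨x, hx⟩ v hv)⟩

theorem ce_res [σ.IsIrreducible] (x : liftGroup K (⊤ : Subgroup G) σ) (hx : cePi K σ x ∈ K) :
    (liftRepW K (⊤ : Subgroup G) σ).character x =
      ceNu K σ x * σ.character ⟨cePi K σ x, hx⟩ := by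
  unfold Representation.character
  rw [liftRepW_eq, ceNu_spec K σ x hx, map_smul, smul_eq_mul]

theorem ceNu_mul [σ.IsIrreducible] (x y : liftGroup K (⊤ : Subgroup G) σ)
    (hx : cePi K σ x ∈ K) (hy : cePi K σ y ∈ K) :
    ceNu K σ (x * y) = ceNu K σ x * ceNu K σ y := by
  have hxy : cePi K σ (x * y) ∈ K := by
    rw [map_mul]
    exact K.mul_mem hx hy
  apply ceNu_eq K σ (x * y) hxy
  have h1 : (((x * y).1.2 : W ≃ₗ[ℂ] W) : W →ₗ[ℂ] W) =
      (x.1.2 : W →ₗ[ℂ] W) ∘ₗ (y.1.2 : W →ₗ[ℂ] W) := rfl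
  rw [h1, ceNu_spec K σ x hx, ceNu_spec K σ y hy, LinearMap.smul_comp, LinearMap.comp_smul,
    smul_smul]
  have h2 : (⟨cePi K σ (x * y), hxy⟩ : K) = ⟨cePi K σ x, hx⟩ * ⟨cePi K σ y, hy⟩ :=
    Subtype.ext (map_mul _ _ _)
  rw [h2, map_mul]
  rfl

theorem ceNu_conj [σ.IsIrreducible] (x y : liftGroup K (⊤ : Subgroup G) σ)
    (hx : cePi K σ x ∈ K) : ceNu K σ (y * x * y⁻¹) = ceNu K σ x := by
  have hxy : cePi K σ (y * x * y⁻¹) ∈ K := by
    rw [map_mul, map_mul, map_inv]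
    exact hK.conj_mem _ hx _
  apply ceNu_eq K σ (y * x * y⁻¹) hxy
  ext w
  show y.1.2 (x.1.2 ((y.1.2)⁻¹ w)) = ceNu K σ x • σ ⟨cePi K σ (y * x * y⁻¹), hxy⟩ w
  have hP : x.1.2 ((y.1.2)⁻¹ w) = ceNu K σ x • σ ⟨cePi K σ x, hx⟩ ((y.1.2)⁻¹ w) :=
    congrArg (fun f : W →ₗ[ℂ] W => f ((y.1.2)⁻¹ w)) (ceNu_spec K σ x hx)
  have hQ : y.1.2 (σ ⟨cePi K σ x, hx⟩ ((y.1.2)⁻¹ w)) =
      σ (cjN K ⊤ y.1.1 ⟨cePi K σ x, hx⟩) (y.1.2 ((y.1.2)⁻¹ w)) :=
    congrArg (fun f : W →ₗ[ℂ] W => f ((y.1.2)⁻¹ w))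
      (((mem_liftGroup K ⊤ σ).mp y.2).2 ⟨cePi K σ x, hx⟩)
  have h3 : y.1.2 ((y.1.2)⁻¹ w) = w := LinearEquiv.apply_symm_apply y.1.2 w
  rw [hP, map_smul, hQ, h3]
  have h4 : cjN K ⊤ y.1.1 ⟨cePi K σ x, hx⟩ = ⟨cePi K σ (y * x * y⁻¹), hxy⟩ := by
    apply Subtype.ext
    show ((y.1.1 : (⊤ : Subgroup G)) : G) * cePi K σ x * ((y.1.1 : (⊤ : Subgroup G)) : G)⁻¹ =
      cePi K σ (y * x * y⁻¹)
    rw [map_mul, map_mul, map_inv]
    rfl
  rw [h4]

/-- Elements of the kernel act by a scalar, a root of unity of order dividing the degree. -/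
theorem ce_ker_scal [σ.IsIrreducible] (z : liftGroup K (⊤ : Subgroup G) σ)
    (hz : cePi K σ z = 1) : ∃ c : ℂ, c ^ finrank ℂ W = 1 ∧ ∀ w : W, z.1.2 w = c • w := by
  have hzK : cePi K σ z ∈ K := hz ▸ K.one_mem
  have h1 := ceNu_spec K σ z hzK
  have h2 : (⟨cePi K σ z, hzK⟩ : K) = 1 := Subtype.ext hz
  rw [h2, map_one] at h1
  refine ⟨ceNu K σ z, ?_, fun w => congrArg (fun f : W →ₗ[ℂ] W => f w) h1⟩
  have h3 := ((mem_liftGroup K ⊤ σ).mp z.2).1
  rw [h1, LinearMap.det_smul] at h3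
  have h4 : LinearMap.det (1 : Module.End ℂ W) = 1 := LinearMap.det_id
  rw [h4, mul_one] at h3
  exact h3

theorem ce_central [σ.IsIrreducible] (z : liftGroup K (⊤ : Subgroup G) σ)
    (hz : cePi K σ z = 1) : z ∈ Subgroup.center (liftGroup K (⊤ : Subgroup G) σ) := by
  obtain ⟨c, -, hc⟩ := ce_ker_scal K σ z hz
  rw [Subgroup.mem_center_iff]
  intro g
  have hz1 : z.1.1 = 1 := Subtype.ext hz
  apply Subtype.ext
  apply Prod.ext
  · show g.1.1 * z.1.1 = z.1.1 * g.1.1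
    rw [hz1, mul_one, one_mul]
  · apply LinearEquiv.ext
    intro w
    show g.1.2 (z.1.2 w) = z.1.2 (g.1.2 w)
    rw [hc, hc, map_smul]

theorem ce_pow_apply (P : W ≃ₗ[ℂ] W) (c : ℂ) (hP : ∀ w : W, P w = c • w) (m : ℕ) (w : W) :
    (P ^ m) w = c ^ m • w := by
  induction m generalizing w with
  | zero => simp
  | succ m ih =>
    rw [pow_succ]
    show (P ^ m) (P w) = c ^ (m + 1) • w
    rw [ih, hP, smul_smul, pow_succ]

theorem ce_ker_exp [Finite K] [σ.IsIrreducible] (z : liftGroup K (⊤ : Subgroup G) σ)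
    (hz : cePi K σ z = 1) : z ^ Nat.card K = 1 := by
  obtain ⟨c, hc1, hc⟩ := ce_ker_scal K σ z hz
  have hz1 : z.1.1 = 1 := Subtype.ext hz
  obtain ⟨d, hd⟩ := finrank_dvd_card σ
  have hcK : c ^ Nat.card K = 1 := by rw [hd, pow_mul, hc1, one_pow]
  apply Subtype.ext
  apply Prod.ext
  · show z.1.1 ^ Nat.card K = 1
    rw [hz1, one_pow]
  · apply LinearEquiv.ext
    intro w
    show (z.1.2 ^ Nat.card K) w = w
    rw [ce_pow_apply z.1.2 c hc, hcK, one_smul]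

end CE

/-- S4440-P18. -/
theorem stmtCE : StmtCE.{u} := by
  intro G _ _ K hK θ hinv
  obtain ⟨n, σ, hσ, hχ⟩ := θ.2
  haveI := hσ
  have hinv' : ∀ (g : G) (n : K),
      σ.character ⟨g * n * g⁻¹, hK.conj_mem n n.2 g⟩ = σ.character n := by
    intro g n
    rw [hχ]
    exact hinv g n
  haveI : Finite (liftGroup K (⊤ : Subgroup G) σ) := finite_liftGroup K ⊤ σ
  refine ⟨liftGroup K (⊤ : Subgroup G) σ, inferInstance, inferInstance, cePi K σ,
    (liftRepW K (⊤ : Subgroup G) σ).character, ceNu K σ, ?_⟩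
  refine
    { surj := cePi_surjective K σ hinv'
      central := fun z hz => ce_central K σ z (MonoidHom.mem_ker.mp hz)
      ker_exp := fun z hz => ce_ker_exp K σ z (MonoidHom.mem_ker.mp hz)
      irr := ⟨n, liftRepW K (⊤ : Subgroup G) σ, ce_irr K σ hinv', rfl⟩
      res := fun x hx => by rw [ce_res K σ x hx, hχ]
      res_irr := ⟨n, ceResRep K σ, ce_res_irr K σ hinv', rfl⟩
      nu_mul := fun x y hx hy => ceNu_mul K σ x y hx hy
      nu_ne := fun x hx => ceNu_ne K σ x hx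
      nu_conj := fun x y hx => ceNu_conj K σ x y hx }

example : StmtCE.{u} := stmtCE

end Cfsg.Agent.H8.Hc
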