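import Mathlib
import Cfsg.Agent.H79.HcDefs
import Cfsg.Agent.H31.SZ

/-!
# S4440-P2 (helper8): `StmtRegDet p`

A class function vanishing at `p`-singular elements, all of whose averages over cosets of a
normal `p`-subgroup vanish, is zero.
-/

set_option autoImplicit false
set_option linter.style.haveILetI false

namespace Cfsg.Agent.H8.Hc

open Cfsg Cfsg.Agent.H79.Hc

universe u

/-- Powers of `g * y` with `y` in a normal subgroup `V` are powers of `g` times elements of `V`. -/
theorem pow_mul_mem {G : Type u} [Group G] (V : Subgroup G) [hV : V.Normal] (g y : G)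
    (hy : y ∈ V) (n : ℕ) : ∃ v ∈ V, (g * y) ^ n = g ^ n * v := by
  induction n with
  | zero => exact ⟨1, V.one_mem, by simp⟩
  | succ n ih =>
    obtain ⟨v, hv, hvn⟩ := ih
    refine ⟨(g⁻¹ * v * g⁻¹⁻¹) * y, V.mul_mem (hV.conj_mem v hv g⁻¹) hy, ?_⟩
    rw [pow_succ, hvn, pow_succ]
    group

/-- If `g` and `g * y` are `p`-regular, `y` in a normal `p`-subgroup `V`, then the order of
`g * y` divides that of `g`. -/
theorem orderOf_mul_dvd {G : Type u} [Group G] (p : ℕ) [hp : Fact p.Prime]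
    (V : Subgroup G) [hV : V.Normal] (hVp : IsPGroup p V) (g y : G) (hy : y ∈ V)
    (hgy : ¬ p ∣ orderOf (g * y)) : orderOf (g * y) ∣ orderOf g := by
  obtain ⟨v, hv, hvn⟩ := pow_mul_mem V g y hy (orderOf g)
  rw [pow_orderOf_eq_one, one_mul] at hvn
  obtain ⟨k, hk⟩ := hVp ⟨v, hv⟩
  have hk' : ((g * y) ^ orderOf g) ^ p ^ k = 1 := by
    rw [hvn]
    have := congrArg Subtype.val hk
    simpa using this
  have h1 : orderOf ((g * y) ^ orderOf g) ∣ p ^ k := orderOf_dvd_of_pow_eq_one hk'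
  have h2 : orderOf ((g * y) ^ orderOf g) ∣ orderOf (g * y) := orderOf_pow_dvd _
  have hcop : Nat.Coprime (p ^ k) (orderOf (g * y)) :=
    Nat.Coprime.pow_left k ((Nat.Prime.coprime_iff_not_dvd hp.out).mpr hgy)
  have h3 : orderOf ((g * y) ^ orderOf g) = 1 := Nat.eq_one_of_dvd_coprimes hcop h1 h2
  rw [orderOf_eq_one_iff] at h3
  exact orderOf_dvd_of_pow_eq_one h3

/-- Two `p`-regular elements in the same coset of a normal `p`-subgroup `V` are conjugate by
an element of `V`. -/
theorem conj_of_regular {G : Type u} [Group G] [Finite G] (p : ℕ) [hp : Fact p.Prime]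
    (V : Subgroup G) [hV : V.Normal] (hVp : IsPGroup p V) (g y : G) (hy : y ∈ V)
    (hg : ¬ p ∣ orderOf g) (hgy : ¬ p ∣ orderOf (g * y)) :
    ∃ v ∈ V, g * y = v * g * v⁻¹ := by
  have hord : orderOf (g * y) = orderOf g := by
    apply Nat.dvd_antisymm (orderOf_mul_dvd p V hVp g y hy hgy)
    have h := orderOf_mul_dvd p V hVp (g * y) y⁻¹ (V.inv_mem hy)
      (by rw [mul_inv_cancel_right]; exact hg)
    rw [mul_inv_cancel_right] at h
    exact h
  have hsol : Group.IsSolvable V := by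
    have hnil : Group.IsNilpotent V := hVp.isNilpotent
    infer_instance
  have hcop : (Nat.card V).Coprime (Nat.card (Subgroup.zpowers g)) := by
    obtain ⟨k, hk⟩ := hVp.exists_card_eq
    rw [hk, Nat.card_zpowers]
    exact Nat.Coprime.pow_left k ((Nat.Prime.coprime_iff_not_dvd hp.out).mpr hg)
  have hcop' : (Nat.card V).Coprime (Nat.card (Subgroup.zpowers (g * y))) := by
    rw [Nat.card_zpowers, hord, ← Nat.card_zpowers]
    exact hcop
  have hcard : Nat.card (Subgroup.zpowers (g * y)) = Nat.card (Subgroup.zpowers g) := by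
    rw [Nat.card_zpowers, Nat.card_zpowers, hord]
  have hle : Subgroup.zpowers (g * y) ≤ V ⊔ Subgroup.zpowers g := by
    rw [Subgroup.zpowers_le]
    exact Subgroup.mul_mem _ ((le_sup_right : Subgroup.zpowers g ≤ V ⊔ Subgroup.zpowers g)
      (Subgroup.mem_zpowers g)) ((le_sup_left : V ≤ V ⊔ Subgroup.zpowers g) hy)
  obtain ⟨x, hx, hxe⟩ := Cfsg.Agent.H31.sz_conj V (Subgroup.zpowers g) (Subgroup.zpowers (g * y))
    hsol hcop hcard hle
  refine ⟨x, hx, ?_⟩
  have hw : x * g * x⁻¹ ∈ Subgroup.zpowers (g * y) := by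
    rw [hxe]
    exact ⟨g, Subgroup.mem_zpowers g, by simp [MulAut.conj_apply]⟩
  have h1 : x * g * x⁻¹ * (g * y)⁻¹ ∈ Subgroup.zpowers (g * y) :=
    Subgroup.mul_mem _ hw (Subgroup.inv_mem _ (Subgroup.mem_zpowers _))
  have h2 : x * g * x⁻¹ * (g * y)⁻¹ ∈ V := by
    have h3 : x * g * x⁻¹ * (g * y)⁻¹ = x * (g * (x⁻¹ * y⁻¹) * g⁻¹) := by group
    rw [h3]
    exact V.mul_mem hx (hV.conj_mem _ (V.mul_mem (V.inv_mem hx) (V.inv_mem hy)) g)
  have h4 := Cfsg.Agent.H31.eq_one_of_mem_of_coprime V (Subgroup.zpowers (g * y)) hcop' _ h2 h1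
  exact (mul_inv_eq_one.mp h4).symm

/-- S4440-P2. -/
theorem stmtRegDet (p : ℕ) [hp : Fact p.Prime] : StmtRegDet.{u} p := by
  classical
  intro G _ _ V hV hVp f hf hsing havg g
  by_cases hg : p ∣ orderOf g
  · exact hsing g hg
  haveI : Fintype G := Fintype.ofFinite G
  have h0 := havg g
  have hcongr : ∑ᶠ y ∈ (V : Set G), f (g * y) =
      ∑ᶠ y ∈ (V : Set G), (if ¬ p ∣ orderOf (g * y) then f g else 0) := by
    apply finsum_mem_congr rfl
    intro y hy
    by_cases hgy : p ∣ orderOf (g * y)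
    · rw [if_neg (not_not.mpr hgy)]
      exact hsing _ hgy
    · rw [if_pos hgy]
      obtain ⟨v, hv, hve⟩ := conj_of_regular p V hVp g y hy hg hgy
      rw [hve]
      exact hf g v
  rw [hcongr, finsum_mem_eq_finite_toFinset_sum _ (Set.toFinite _), Finset.sum_ite,
    Finset.sum_const, Finset.sum_const_zero, add_zero, nsmul_eq_mul] at h0
  rcases mul_eq_zero.mp h0 with h | h
  · exfalso
    have hmem : (1 : G) ∈ Finset.filter (fun y => ¬ p ∣ orderOf (g * y))
        (Set.toFinite (V : Set G)).toFinset := by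
      rw [Finset.mem_filter]
      refine ⟨?_, by rw [mul_one]; exact hg⟩
      rw [Set.Finite.mem_toFinset]
      exact V.one_mem
    have hne : (Finset.filter (fun y => ¬ p ∣ orderOf (g * y))
        (Set.toFinite (V : Set G)).toFinset).card ≠ 0 := Finset.card_ne_zero_of_mem hmem
    exact hne (by exact_mod_cast h)
  · exact h

example (p : ℕ) [Fact p.Prime] : StmtRegDet.{u} p := stmtRegDet p

end Cfsg.Agent.H8.Hc
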