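import Mathlib
import Cfsg.Agent.H33.C3.Defs

/-!
# S2071 team project (helper33): piece C3-M24CENT (helper8)

The centraliser of the doubling map `beta` in the stabiliser of `none` and `some 0` in `M24` is
`⟨beta⟩`.  A permutation `σ` commuting with `beta` and fixing the two points is determined by
`a = σ (some 1)` and `b = σ (some (-1))`; the `23 × 23` candidates are coded as packed
permutations and tested on the twelve basis words of the code.
-/

set_option autoImplicit false
set_option maxRecDepth 100000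

namespace Cfsg.Agent.H8.C3

open Cfsg Cfsg.Agent.H9 Cfsg.Agent.H93 Cfsg.Agent.H33 Cfsg.Agent.H33.C3

/-- the squares modulo 23 (zero included), on indices -/
def sqN (i : ℕ) : Bool :=
  Nat.beq i 0 || (Nat.beq i 1 || (Nat.beq i 2 || (Nat.beq i 3 || (Nat.beq i 4 || (Nat.beq i 6 ||
    (Nat.beq i 8 || (Nat.beq i 9 || (Nat.beq i 12 || (Nat.beq i 13 || (Nat.beq i 16 ||
      Nat.beq i 18))))))))))

/-- the index of the image of the point of index `i` under the candidate `(a, b)` -/
def candIdx (a b i : ℕ) : ℕ :=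
  if Nat.beq i 23 = true then 23
  else if sqN i = true then Nat.mod (Nat.mul i a) 23 else Nat.mod (Nat.mul i (Nat.sub 23 b)) 23

/-- packed code of the candidate `(a, b)` -/
def mkPAux (a b : ℕ) : ℕ → ℕ
  | 0 => 0
  | i + 1 => Nat.lor (Nat.shiftLeft (candIdx a b i) (Nat.mul 5 i)) (mkPAux a b i)

/-- packed code of the candidate `(a, b)` -/
def mkP (a b : ℕ) : ℕ := mkPAux a b 24

/-- the good candidates: `a` a nonzero square and `b = -a` -/
def goodN (a b : ℕ) : Bool := sqN a && (!(Nat.beq a 0) && Nat.beq (Nat.add a b) 23)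

theorem lk_mkP_chk : allB (fun a => allB (fun b => allB (fun i =>
    Nat.beq (lk (mkP a b) i) (candIdx a b i)) 24) 23) 23 = true := by decide +kernel

theorem lk_mkP {a b i : ℕ} (ha : a < 23) (hb : b < 23) (hi : i < 24) :
    lk (mkP a b) i = candIdx a b i :=
  Nat.eq_of_beq_eq_true ((allB_iff _ _).mp ((allB_iff _ _).mp ((allB_iff _ _).mp lk_mkP_chk a ha)
    b hb) i hi)

theorem cent_chk : allB (fun a => allB (fun b => !(chkM24 (mkP a b)) || goodN a b) 23) 23
    = true := by decide +kernel

theorem good_of_chk {a b : ℕ} (ha : a < 23) (hb : b < 23) (h : chkM24 (mkP a b) = true) :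
    goodN a b = true := by
  have h1 := (allB_iff _ _).mp ((allB_iff _ _).mp cent_chk a ha) b hb
  rw [h] at h1
  simpa using h1

theorem cand_sq : ∀ a b : ZMod 23, ∀ k < 11,
    ((2 : ZMod 23) ^ k * a).val = candIdx a.val b.val ((2 : ZMod 23) ^ k).val := by
  decide +kernel

theorem cand_nsq : ∀ a b : ZMod 23, ∀ k < 11,
    ((2 : ZMod 23) ^ k * b).val = candIdx a.val b.val (-(2 : ZMod 23) ^ k).val := by
  decide +kernel

theorem cand_zero : ∀ a b : ZMod 23, candIdx a.val b.val 0 = 0 := by decide +kernel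

theorem cand_none : ∀ a b : ZMod 23, candIdx a.val b.val 23 = 23 := by decide +kernel

theorem dlog23 : ∀ y : ZMod 23, y = 0 ∨ (∃ k < 11, y = 2 ^ k) ∨ (∃ k < 11, y = -2 ^ k) := by
  decide +kernel

theorem good_fin : ∀ a b : ZMod 23, goodN a.val b.val = true →
    ∃ n < 11, a = 2 ^ n ∧ b = -a := by
  decide +kernel

theorem beta_pow_apply (n : ℕ) :
    (∀ y : ZMod 23, (beta ^ n) (some y) = some (2 ^ n * y)) ∧ (beta ^ n) none = none := by
  induction n with
  | zero =>
    refine ⟨fun y => ?_, rfl⟩
    rw [pow_zero, pow_zero, one_mul]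
    rfl
  | succ n ih =>
    refine ⟨fun y => ?_, ?_⟩
    · rw [pow_succ', Equiv.Perm.mul_apply, ih.1 y, pow_succ', mul_assoc]
      rfl
    · rw [pow_succ', Equiv.Perm.mul_apply, ih.2]
      rfl

/-- the image of a mask under a represented permutation is a 24-bit mask -/
theorem imgN_lt {P : ℕ} {g : Equiv.Perm GolayPt} (h : Rep P g) (n : ℕ) : imgN P n < 2 ^ 24 := by
  apply Nat.lt_pow_two_of_testBit
  intro j hj
  by_contra hcon
  have h1 : (imgN P n).testBit j = true := by
    cases hb : (imgN P n).testBit j with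
    | true => rfl
    | false => exact absurd hb hcon
  rw [imgN_eq, testBit_imgAux] at h1
  obtain ⟨i, hi, -, hlk⟩ := h1
  have h2 := h (gPt i)
  rw [gIdx_gPt hi, hlk] at h2
  have h3 := gIdx_lt (g (gPt i))
  omega

/-- piece C3-M24CENT -/
theorem m24Cent : StM24Cent := by
  intro σ hσ hn h0 hc
  have hcomm : ∀ x, σ (beta x) = beta (σ x) := by
    intro x
    have h1 := congrArg (fun f : Equiv.Perm GolayPt => f x) hc
    exact h1
  have hbeta : ∀ y : ZMod 23, beta (some y) = some (2 * y) := fun y => rfl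
  have hsome : ∀ y : ZMod 23, ∃ z : ZMod 23, σ (some y) = some z := by
    intro y
    cases h : σ (some y) with
    | none =>
      exfalso
      rw [← hn] at h
      exact Option.some_ne_none y (σ.injective h)
    | some z => exact ⟨z, rfl⟩
  obtain ⟨a, ha⟩ := hsome 1
  obtain ⟨b, hb⟩ := hsome (-1)
  have hpa : ∀ k : ℕ, σ (some (2 ^ k)) = some (2 ^ k * a) := by
    intro k
    induction k with
    | zero => rw [pow_zero, one_mul]; exact ha
    | succ k ih => rw [pow_succ', ← hbeta, hcomm, ih, hbeta, mul_assoc]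
  have hpb : ∀ k : ℕ, σ (some (-2 ^ k)) = some (2 ^ k * b) := by
    intro k
    induction k with
    | zero => rw [pow_zero, one_mul]; exact hb
    | succ k ih =>
      have h1 : -(2 : ZMod 23) ^ (k + 1) = 2 * (-2 ^ k) := by ring
      rw [h1, ← hbeta, hcomm, ih, hbeta, pow_succ', mul_assoc]
  have hR : Rep (mkP a.val b.val) σ := by
    intro pt
    rw [lk_mkP (ZMod.val_lt a) (ZMod.val_lt b) (gIdx_lt pt)]
    cases pt with
    | none =>
      rw [hn]
      exact (cand_none a b).symm
    | some y =>
      rcases dlog23 y with rfl | ⟨k, hk, rfl⟩ | ⟨k, hk, rfl⟩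
      · rw [h0]
        exact (cand_zero a b).symm
      · rw [hpa k]
        exact cand_sq a b k hk
      · rw [hpb k]
        exact cand_nsq a b k hk
  have hchk : chkM24 (mkP a.val b.val) = true := by
    unfold chkM24
    rw [List.all_eq_true]
    intro w hw
    have h1 : fs w ∈ supports (golayCode : Set (GolayPt → ZMod 2)) :=
      ⟨dec w, basis_mem w hw, support₂_dec w⟩
    have h2 := smul_mem_supports hσ h1
    rw [smul_fs hR] at h2
    exact (fs_mem_supports_iff (imgN_lt hR w)).mp h2
  have hgood := good_of_chk (ZMod.val_lt a) (ZMod.val_lt b) hchk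
  obtain ⟨n, -, han, hbn⟩ := good_fin a b hgood
  have hσeq : σ = beta ^ n := by
    apply Equiv.ext
    intro pt
    cases pt with
    | none => rw [hn, (beta_pow_apply n).2]
    | some y =>
      rw [(beta_pow_apply n).1 y]
      rcases dlog23 y with rfl | ⟨k, hk, rfl⟩ | ⟨k, hk, rfl⟩
      · rw [h0, mul_zero]
      · rw [hpa k, han, mul_comm]
      · rw [hpb k, hbn, han]
        congr 1
        ring
  rw [hσeq]
  exact Subgroup.npow_mem_zpowers beta n

example : Cfsg.Agent.H33.C3.StM24Cent := m24Cent

end Cfsg.Agent.H8.C3
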