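import Cfsg.Agent.H93.ConwayDefs
import Cfsg.Agent.H93.Leech

set_option autoImplicit false
set_option linter.unusedVariables false

/-! S0406 piece C-SUB: `StmtSub`, with the small arithmetic helpers shared with C-SUP. -/

namespace Cfsg.Agent.H8.Conway

open Cfsg Cfsg.Agent.H93 Cfsg.Agent.H93.Conway

theorem sgn_cases (z : Fin 24 → ℤ) (i : Fin 24) : sgn z i = 1 ∨ sgn z i = -1 := by
  unfold sgn
  split_ifs
  · exact Or.inl rfl
  · exact Or.inr rfl

theorem zp_val {z : Fin 24 → ℤ} (hz : IsT3 z) :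
    ∃ i0, sgn z i0 * z i0 = -3 ∧ ∀ i, i ≠ i0 → sgn z i * z i = 1 := by
  obtain ⟨i0, h0, h1⟩ := hz
  refine ⟨i0, ?_, fun i hi => ?_⟩
  · unfold sgn
    rcases h0 with h | h <;> rw [h] <;> norm_num
  · unfold sgn
    rcases h1 i hi with h | h <;> rw [h] <;> norm_num

theorem zp_mod4 {z : Fin 24 → ℤ} (hz : IsT3 z) (i : Fin 24) : (sgn z i * z i) % 4 = 1 := by
  obtain ⟨i0, h0, h1⟩ := zp_val hz
  by_cases hi : i = i0
  · rw [hi, h0]
    norm_num
  · rw [h1 i hi]
    norm_num

theorem z_odd {z : Fin 24 → ℤ} (hz : IsT3 z) (i : Fin 24) : z i % 2 = 1 := by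
  obtain ⟨i0, h0, h1⟩ := hz
  by_cases hi : i = i0
  · rw [hi]
    rcases h0 with h | h <;> rw [h] <;> norm_num
  · rcases h1 i hi with h | h <;> rw [h] <;> norm_num

theorem zp_sum {z : Fin 24 → ℤ} (hz : IsT3 z) : ∑ i, sgn z i * z i = 20 := by
  obtain ⟨i0, h0, h1⟩ := zp_val hz
  have h : ∀ i, sgn z i * z i = 1 - (Pi.single i0 4 : Fin 24 → ℤ) i := by
    intro i
    by_cases hi : i = i0
    · rw [hi, h0, Pi.single_eq_same]
      norm_num
    · rw [h1 i hi, Pi.single_eq_of_ne hi]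
      norm_num
  rw [Finset.sum_congr rfl (fun i _ => h i), Finset.sum_sub_distrib, Finset.sum_pi_single']
  simp

theorem cast2_eq {a b : ℤ} (h : (2 : ℤ) ∣ a - b) : ((a : ℤ) : ZMod 2) = ((b : ℤ) : ZMod 2) := by
  rw [ZMod.intCast_eq_intCast_iff_dvd_sub]
  push_cast
  omega

theorem cast2_dvd {a b : ℤ} (h : ((a : ℤ) : ZMod 2) = ((b : ℤ) : ZMod 2)) : (2 : ℤ) ∣ a - b := by
  rw [ZMod.intCast_eq_intCast_iff_dvd_sub] at h
  push_cast at h
  omega

theorem mul_mod8 {a t : ℤ} (ha : (2 : ℤ) ∣ a) (ht : t % 4 = 1) : (8 : ℤ) ∣ a * t - a := by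
  obtain ⟨b, rfl⟩ := ha
  have h1 : t = 4 * (t / 4) + 1 := by omega
  rw [h1]
  exact ⟨b * (t / 4), by ring⟩

theorem mul_mod8' {v t : ℤ} (hv : (4 : ℤ) ∣ v) (ht : t % 2 = 1) : (8 : ℤ) ∣ v * t - v := by
  obtain ⟨b, rfl⟩ := hv
  have h1 : t = 2 * (t / 2) + 1 := by omega
  rw [h1]
  exact ⟨b * (t / 2), by ring⟩

/-- `∑ x_i z_i ≡ ∑ y` when `y` is even -/
theorem dot_even {z : Fin 24 → ℤ} (hz3 : IsT3 z) (e : Fin 24 ≃ GolayPt) (y : GolayPt → ℤ)
    (hyev : ∀ p, (2 : ℤ) ∣ y p) :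
    (8 : ℤ) ∣ ∑ i, (sgn z i * y (e i)) * z i - ∑ p, y p := by
  rw [← Equiv.sum_comp e y, ← Finset.sum_sub_distrib]
  apply Finset.dvd_sum
  intro i _
  have h : sgn z i * y (e i) * z i - y (e i) = y (e i) * (sgn z i * z i) - y (e i) := by ring
  rw [h]
  exact mul_mod8 (hyev _) (zp_mod4 hz3 i)

/-- `∑ (x_i - z_i) z_i ≡ ∑ y - 20` when `y` is odd -/
theorem dot_odd {z : Fin 24 → ℤ} (hz3 : IsT3 z) (e : Fin 24 ≃ GolayPt) (y : GolayPt → ℤ)
    (hyodd : ∀ p, y p % 2 = 1) :
    (8 : ℤ) ∣ ∑ i, (sgn z i * y (e i) - z i) * z i - (∑ p, y p - 20) := by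
  rw [← Equiv.sum_comp e y, ← zp_sum hz3, ← Finset.sum_sub_distrib, ← Finset.sum_sub_distrib]
  apply Finset.dvd_sum
  intro i _
  have h : (sgn z i * y (e i) - z i) * z i - (y (e i) - sgn z i * z i) =
      (y (e i) - sgn z i * z i) * (sgn z i * z i) - (y (e i) - sgn z i * z i) := by
    rcases sgn_cases z i with h | h <;> rw [h] <;> ring
  rw [h]
  refine mul_mod8 ?_ (zp_mod4 hz3 i)
  have h1 := zp_mod4 hz3 i
  have h2 := hyodd (e i)
  omega

theorem sub : StmtSub := by
  intro Λ hΛ C hC e he z hz hz3 y hx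
  apply mem_leechSet_of_isL
  have hzp4 := zp_mod4 hz3
  have hpar : ∀ p, (2 : ℤ) ∣ y p - y (e 0) := by
    intro p
    have h := hΛ.hpar _ hx (e.symm p) 0
    simp only [Equiv.apply_symm_apply] at h
    rcases sgn_cases z (e.symm p) with h1 | h1 <;> rcases sgn_cases z 0 with h2 | h2 <;>
      rw [h1, h2] at h <;> omega
  rcases Int.emod_two_eq_zero_or_one (y (e 0)) with hev | hodd
  · have hyev : ∀ p, (2 : ℤ) ∣ y p := fun p => by
      have := hpar p
      omega
    refine ⟨0, fun p => ?_, ?_, ?_⟩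
    · have := hyev p
      unfold Int.ModEq
      omega
    · have hd := hΛ.hdot _ hx z hz
      have h1 := dot_even hz3 e y hyev
      unfold Int.ModEq
      omega
    · rw [he]
      have hmem : (fun i => wd 0 y (e i)) ∈ codeOf Λ := by
        refine ⟨_, hx, fun i => ?_, fun i => ?_⟩
        · have := hyev (e i)
          rcases sgn_cases z i with h | h <;> rw [h] <;> omega
        · unfold wd
          apply cast2_eq
          have := hyev (e i)
          rcases sgn_cases z i with h | h <;> rw [h] <;> omega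
      rw [← hC] at hmem
      exact hmem
  · have hyodd : ∀ p, y p % 2 = 1 := fun p => by
      have := hpar p
      omega
    have hxz : (fun i => sgn z i * y (e i)) - z ∈ Λ := Λ.sub_mem hx hz
    refine ⟨1, fun p => ?_, ?_, ?_⟩
    · have := hyodd p
      unfold Int.ModEq
      omega
    · have hd := hΛ.hdot _ hxz z hz
      simp only [Pi.sub_apply] at hd
      have h1 := dot_odd hz3 e y hyodd
      unfold Int.ModEq
      omega
    · rw [he]
      have hmem : (fun i => wd 1 y (e i)) ∈ codeOf Λ := by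
        refine ⟨_, hxz, fun i => ?_, fun i => ?_⟩
        · have h1 := hyodd (e i)
          have h2 := hzp4 i
          simp only [Pi.sub_apply]
          rcases sgn_cases z i with h | h <;> rw [h] at h2 ⊢ <;> omega
        · unfold wd
          apply cast2_eq
          have h1 := hyodd (e i)
          have h2 := hzp4 i
          simp only [Pi.sub_apply]
          rcases sgn_cases z i with h | h <;> rw [h] at h2 ⊢ <;> omega
      rw [← hC] at hmem
      exact hmem

example : Cfsg.Agent.H93.Conway.StmtSub := sub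

end Cfsg.Agent.H8.Conway
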