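import Cfsg.Agent.H8.ConwaySub

set_option autoImplicit false
set_option linter.unusedVariables false

/-! S0406 piece C-SUP: `StmtSup`. -/

namespace Cfsg.Agent.H8.Conway

open Cfsg Cfsg.Agent.H93 Cfsg.Agent.H93.Conway

theorem sup : StmtSup := by
  intro hL4 Λ hΛ C hC e he z hz hz3 y hy
  obtain ⟨m, hm, hp, hs, hc⟩ := isL_norm (isL_of_mem_leechSet hy)
  have hzp4 := zp_mod4 hz3
  have hzodd := z_odd hz3
  rw [he, ← SetLike.mem_coe, hC] at hc
  obtain ⟨x', hx', hx'ev, hx'w⟩ := hc
  have hd1 := hΛ.hdot x' hx' z hz
  rcases hm with rfl | rfl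
  · have hyev : ∀ p, (2 : ℤ) ∣ y p := fun p => by
      have := hp p
      unfold Int.ModEq at this
      omega
    have hv4 : ∀ i, (4 : ℤ) ∣ ((fun i => sgn z i * y (e i)) - x') i := by
      intro i
      have h1 := hx'w i
      unfold wd at h1
      have h2 := cast2_dvd h1
      have h3 := hyev (e i)
      have h4 := hx'ev i
      simp only [Pi.sub_apply]
      rcases sgn_cases z i with h | h <;> rw [h] <;> omega
    have hv8 : (8 : ℤ) ∣ ∑ i, ((fun i => sgn z i * y (e i)) - x') i := by
      have e1 : (8 : ℤ) ∣ ∑ i, ((fun i => sgn z i * y (e i)) - x') i * z i -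
          ∑ i, ((fun i => sgn z i * y (e i)) - x') i := by
        rw [← Finset.sum_sub_distrib]
        apply Finset.dvd_sum
        intro i _
        exact mul_mod8' (hv4 i) (hzodd i)
      have e2 : ∑ i, ((fun i => sgn z i * y (e i)) - x') i * z i =
          ∑ i, (sgn z i * y (e i)) * z i - ∑ i, x' i * z i := by
        rw [← Finset.sum_sub_distrib]
        apply Finset.sum_congr rfl
        intro i _
        simp only [Pi.sub_apply]
        ring
      have e3 := dot_even hz3 e y hyev
      unfold Int.ModEq at hs
      omega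
    have hv := (hL4 Λ hΛ _ hv4).mp hv8
    have hfin := Λ.add_mem hv hx'
    rw [sub_add_cancel] at hfin
    exact hfin
  · have hyodd : ∀ p, y p % 2 = 1 := fun p => by
      have := hp p
      unfold Int.ModEq at this
      omega
    have hv4 : ∀ i, (4 : ℤ) ∣ ((fun i => sgn z i * y (e i)) - z - x') i := by
      intro i
      have h1 := hx'w i
      unfold wd at h1
      have h2 := cast2_dvd h1
      have h3 := hyodd (e i)
      have h4 := hx'ev i
      have h5 := hzp4 i
      simp only [Pi.sub_apply]
      rcases sgn_cases z i with h | h <;> rw [h] at h5 ⊢ <;> omega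
    have hv8 : (8 : ℤ) ∣ ∑ i, ((fun i => sgn z i * y (e i)) - z - x') i := by
      have e1 : (8 : ℤ) ∣ ∑ i, ((fun i => sgn z i * y (e i)) - z - x') i * z i -
          ∑ i, ((fun i => sgn z i * y (e i)) - z - x') i := by
        rw [← Finset.sum_sub_distrib]
        apply Finset.dvd_sum
        intro i _
        exact mul_mod8' (hv4 i) (hzodd i)
      have e2 : ∑ i, ((fun i => sgn z i * y (e i)) - z - x') i * z i =
          ∑ i, (sgn z i * y (e i) - z i) * z i - ∑ i, x' i * z i := by
        rw [← Finset.sum_sub_distrib]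
        apply Finset.sum_congr rfl
        intro i _
        simp only [Pi.sub_apply]
        ring
      have e3 := dot_odd hz3 e y hyodd
      unfold Int.ModEq at hs
      omega
    have hv := (hL4 Λ hΛ _ hv4).mp hv8
    have hfin := Λ.add_mem (Λ.add_mem hv hx') hz
    have heq : (fun i => sgn z i * y (e i)) - z - x' + x' + z = fun i => sgn z i * y (e i) := by
      abel
    rw [heq] at hfin
    exact hfin

example : Cfsg.Agent.H93.Conway.StmtSup := sup

end Cfsg.Agent.H8.Conway
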