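import Mathlib
import Cfsg.Agent.H81.CycDefs

/-!
S1502 piece DOT: from inner products of `0, ±1`-vectors with three-element supports to the
`Mate` / `NonMate` relations.
-/

set_option autoImplicit false

namespace Cfsg.Agent.H8.Cyc

open Cfsg.Agent.H81.Cyc

universe u

theorem sum3 {ι : Type u} [Fintype ι] (f : ι → ℤ) (t r z : ι) (htr : t ≠ r) (htz : t ≠ z)
    (hrz : r ≠ z) (h : ∀ s, f s ≠ 0 → s = t ∨ s = r ∨ s = z) :
    ∑ s, f s = f t + f r + f z := by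
  classical
  rw [← Finset.sum_subset (Finset.subset_univ ({t, r, z} : Finset ι))]
  · rw [Finset.sum_insert (by simp [htr, htz]), Finset.sum_insert (by simp [hrz]),
      Finset.sum_singleton]
    ring
  · intro s _ hs
    by_contra h0
    rcases h s h0 with rfl | rfl | rfl <;> simp at hs

theorem tri {a b : ℤ} (ha : a = 0 ∨ a = 1 ∨ a = -1) (ha0 : a ≠ 0)
    (hb : b = 0 ∨ b = 1 ∨ b = -1) :
    (b = 0 ∧ a * b = 0) ∨ (a = b ∧ a * b = 1) ∨ (a = -b ∧ a * b = -1) := by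
  rcases ha with rfl | rfl | rfl
  · exact absurd rfl ha0
  · rcases hb with rfl | rfl | rfl <;> simp
  · rcases hb with rfl | rfl | rfl <;> simp

theorem supp_sub {ι : Type u} (w : ι → ℤ) (hsw : Supp3 w) (t r z : ι) (htr : t ≠ r)
    (htz : t ≠ z) (hrz : r ≠ z) (hwt : w t ≠ 0) (hwr : w r ≠ 0) (hwz : w z ≠ 0) :
    ∀ s, w s ≠ 0 → s = t ∨ s = r ∨ s = z := by
  classical
  obtain ⟨u₁, u₂, u₃, -, -, -, hu⟩ := hsw
  have hsub : ({t, r, z} : Finset ι) ⊆ {u₁, u₂, u₃} := by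
    intro s hs
    simp only [Finset.mem_insert, Finset.mem_singleton] at hs ⊢
    rcases hs with rfl | rfl | rfl
    · exact (hu _).mp hwt
    · exact (hu _).mp hwr
    · exact (hu _).mp hwz
  have hcard : ({u₁, u₂, u₃} : Finset ι).card ≤ ({t, r, z} : Finset ι).card := by
    rw [Finset.card_eq_three.mpr ⟨t, r, z, htr, htz, hrz, rfl⟩]
    exact Finset.card_le_three
  have heq := Finset.eq_of_subset_of_card_le hsub hcard
  intro s hs
  have h1 : s ∈ ({u₁, u₂, u₃} : Finset ι) := by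
    simp only [Finset.mem_insert, Finset.mem_singleton]
    exact (hu s).mp hs
  rw [← heq] at h1
  simpa using h1

theorem mate_of {ι : Type u} (v w : ι → ℤ) (t r z : ι)
    (hsupp : ∀ s, v s ≠ 0 → s = t ∨ s = r ∨ s = z) (hvt : v t ≠ 0) (h1 : v t = w t)
    (h2 : w r = 0) (h3 : w z = 0) : Mate v w := by
  refine ⟨t, hvt, h1, fun s hst => ?_⟩
  by_cases h : v s = 0
  · exact Or.inl h
  · rcases hsupp s h with e | e | e
    · exact absurd e hst
    · exact Or.inr (e ▸ h2)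
    · exact Or.inr (e ▸ h3)

theorem nonmate_of {ι : Type u} (v w : ι → ℤ) (t r z : ι)
    (hsupp : ∀ s, v s ≠ 0 → s = t ∨ s = r ∨ s = z) (htr : t ≠ r) (hvt : v t ≠ 0)
    (h1 : v t = w t) (hvr : v r ≠ 0) (h2 : v r = -w r) (h3 : w z = 0) : NonMate v w := by
  refine Or.inr ⟨t, r, htr, hvt, h1, hvr, h2, fun s hst hsr => ?_⟩
  by_cases h : v s = 0
  · exact Or.inl h
  · rcases hsupp s h with e | e | e
    · exact absurd e hst
    · exact absurd e hsr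
    · exact Or.inr (e ▸ h3)

theorem deg_contra {ι : Type u} [Fintype ι] (d v w : ι → ℤ) (hd : ∀ t, 0 < d t)
    (hsw : Supp3 w) (t r z : ι) (htr : t ≠ r) (htz : t ≠ z) (hrz : r ≠ z)
    (hsupp : ∀ s, v s ≠ 0 → s = t ∨ s = r ∨ s = z) (hvt : v t ≠ 0) (hvr : v r ≠ 0)
    (hvz : v z ≠ 0) (h1 : v t = w t) (h2 : v r = w r) (h3 : v z = -w z)
    (hdeg : ∑ s, v s * d s = ∑ s, w s * d s) : False := by
  have hwt : w t ≠ 0 := h1 ▸ hvt
  have hwr : w r ≠ 0 := h2 ▸ hvr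
  have hwz : w z ≠ 0 := by
    intro h
    rw [h] at h3
    exact hvz (by simpa using h3)
  have hsuppw := supp_sub w hsw t r z htr htz hrz hwt hwr hwz
  rw [sum3 (fun s => v s * d s) t r z htr htz hrz (fun s h => hsupp s (left_ne_zero_of_mul h)),
    sum3 (fun s => w s * d s) t r z htr htz hrz (fun s h => hsuppw s (left_ne_zero_of_mul h)),
    ← h1, ← h2] at hdeg
  have h4 : w z = -v z := by rw [h3]; ring
  rw [h4] at hdeg
  have h5 : v z * d z = 0 := by linarith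
  exact mul_ne_zero hvz (hd z).ne' h5

/-- DOT. -/
theorem dot : StmtDot.{u} := by
  intro ι _ d v w hd hv hsv hw hsw
  obtain ⟨t₁, t₂, t₃, h12, h13, h23, hs⟩ := hsv
  have hv1 : v t₁ ≠ 0 := (hs t₁).mpr (Or.inl rfl)
  have hv2 : v t₂ ≠ 0 := (hs t₂).mpr (Or.inr (Or.inl rfl))
  have hv3 : v t₃ ≠ 0 := (hs t₃).mpr (Or.inr (Or.inr rfl))
  have s123 : ∀ s, v s ≠ 0 → s = t₁ ∨ s = t₂ ∨ s = t₃ := fun s h => (hs s).mp h
  have s132 : ∀ s, v s ≠ 0 → s = t₁ ∨ s = t₃ ∨ s = t₂ := fun s h => by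
    rcases (hs s).mp h with e | e | e <;> simp [e]
  have s213 : ∀ s, v s ≠ 0 → s = t₂ ∨ s = t₁ ∨ s = t₃ := fun s h => by
    rcases (hs s).mp h with e | e | e <;> simp [e]
  have s231 : ∀ s, v s ≠ 0 → s = t₂ ∨ s = t₃ ∨ s = t₁ := fun s h => by
    rcases (hs s).mp h with e | e | e <;> simp [e]
  have s312 : ∀ s, v s ≠ 0 → s = t₃ ∨ s = t₁ ∨ s = t₂ := fun s h => by
    rcases (hs s).mp h with e | e | e <;> simp [e]
  have s321 : ∀ s, v s ≠ 0 → s = t₃ ∨ s = t₂ ∨ s = t₁ := fun s h => by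
    rcases (hs s).mp h with e | e | e <;> simp [e]
  have hsum : ∑ t, v t * w t = v t₁ * w t₁ + v t₂ * w t₂ + v t₃ * w t₃ :=
    sum3 _ t₁ t₂ t₃ h12 h13 h23 (fun s h => (hs s).mp (left_ne_zero_of_mul h))
  have c1 := tri (hv t₁) hv1 (hw t₁)
  have c2 := tri (hv t₂) hv2 (hw t₂)
  have c3 := tri (hv t₃) hv3 (hw t₃)
  constructor
  · intro h1 hdeg
    rw [hsum] at h1
    rcases c1 with ⟨a1, p1⟩ | ⟨a1, p1⟩ | ⟨a1, p1⟩ <;>
      rcases c2 with ⟨a2, p2⟩ | ⟨a2, p2⟩ | ⟨a2, p2⟩ <;>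
      rcases c3 with ⟨a3, p3⟩ | ⟨a3, p3⟩ | ⟨a3, p3⟩ <;>
      rw [p1, p2, p3] at h1 <;>
      first
        | (exfalso; omega)
        | exact mate_of v w t₁ t₂ t₃ s123 hv1 a1 a2 a3
        | exact mate_of v w t₂ t₁ t₃ s213 hv2 a2 a1 a3
        | exact mate_of v w t₃ t₁ t₂ s312 hv3 a3 a1 a2
        | exact (deg_contra d v w hd hsw t₁ t₂ t₃ h12 h13 h23 s123 hv1 hv2 hv3 a1 a2 a3
            hdeg).elim
        | exact (deg_contra d v w hd hsw t₁ t₃ t₂ h13 h12 h23.symm s132 hv1 hv3 hv2 a1 a3 a2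
            hdeg).elim
        | exact (deg_contra d v w hd hsw t₂ t₃ t₁ h23 h12.symm h13.symm s231 hv2 hv3 hv1 a2 a3
            a1 hdeg).elim
  · intro h0
    rw [hsum] at h0
    rcases c1 with ⟨a1, p1⟩ | ⟨a1, p1⟩ | ⟨a1, p1⟩ <;>
      rcases c2 with ⟨a2, p2⟩ | ⟨a2, p2⟩ | ⟨a2, p2⟩ <;>
      rcases c3 with ⟨a3, p3⟩ | ⟨a3, p3⟩ | ⟨a3, p3⟩ <;>
      rw [p1, p2, p3] at h0 <;>
      first
        | (exfalso; omega)
        | exact nonmate_of v w t₁ t₂ t₃ s123 h12 hv1 a1 hv2 a2 a3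
        | exact nonmate_of v w t₁ t₃ t₂ s132 h13 hv1 a1 hv3 a3 a2
        | exact nonmate_of v w t₂ t₁ t₃ s213 h12.symm hv2 a2 hv1 a1 a3
        | exact nonmate_of v w t₂ t₃ t₁ s231 h23 hv2 a2 hv3 a3 a1
        | exact nonmate_of v w t₃ t₁ t₂ s312 h13.symm hv3 a3 hv1 a1 a2
        | exact nonmate_of v w t₃ t₂ t₁ s321 h23.symm hv3 a3 hv2 a2 a1
        | exact Or.inl (fun s => by
            by_cases h : v s = 0
            · exact Or.inl h
            · rcases (hs s).mp h with e | e | e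
              · exact Or.inr (e ▸ a1)
              · exact Or.inr (e ▸ a2)
              · exact Or.inr (e ▸ a3))

example : Cfsg.Agent.H81.Cyc.StmtDot.{u} := dot

end Cfsg.Agent.H8.Cyc
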