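import Mathlib
import Cfsg.Agent.H81.CycDefs

/-!
S1502 piece PAIR: the common coordinate of a second row does not lie in the first row.
-/

set_option autoImplicit false

namespace Cfsg.Agent.H8.Cyc

open Cfsg.Agent.H81.Cyc

universe u

/-- PAIR. -/
theorem pair : StmtPair.{u} := by
  intro I J ι X hX i k hik j₀ j₁ j₂ j₃ h01 h02 h03 h12 h13 h23 x y _ _ _ _ hy0 hy1 hy2 hy3
  by_contra hA
  have e0 := ((hX.col i k j₀ hik).at hA hy0).1
  have e1 := ((hX.row k j₀ j₁ h01).at hy0 hy1).1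
  have e2 := ((hX.row k j₀ j₂ h02).at hy0 hy2).1
  have e3 := ((hX.row k j₀ j₃ h03).at hy0 hy3).1
  have m12 := ((hX.row k j₁ j₂ h12).at hy1 hy2).2
  have m13 := ((hX.row k j₁ j₃ h13).at hy1 hy3).2
  have m23 := ((hX.row k j₂ j₃ h23).at hy2 hy3).2
  obtain ⟨r₁, hr1y, hr1a, hr1b, -⟩ := (hX.non i k j₀ j₁ hik h01).of_eq hA (e0.trans e1)
  obtain ⟨r₂, hr2y, hr2a, hr2b, -⟩ := (hX.non i k j₀ j₂ hik h02).of_eq hA (e0.trans e2)
  obtain ⟨r₃, hr3y, hr3a, hr3b, -⟩ := (hX.non i k j₀ j₃ hik h03).of_eq hA (e0.trans e3)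
  have b1 : X k j₁ r₁ ≠ 0 := by
    intro h
    rw [h] at hr1b
    exact hr1a (by simpa using hr1b)
  have b2 : X k j₂ r₂ ≠ 0 := by
    intro h
    rw [h] at hr2b
    exact hr2a (by simpa using hr2b)
  have b3 : X k j₃ r₃ ≠ 0 := by
    intro h
    rw [h] at hr3b
    exact hr3a (by simpa using hr3b)
  have d12 : r₁ ≠ r₂ := by
    intro h
    rw [← h] at b2
    rcases m12 r₁ hr1y with h' | h'
    · exact b1 h'
    · exact b2 h'
  have d13 : r₁ ≠ r₃ := by
    intro h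
    rw [← h] at b3
    rcases m13 r₁ hr1y with h' | h'
    · exact b1 h'
    · exact b3 h'
  have d23 : r₂ ≠ r₃ := by
    intro h
    rw [← h] at b3
    rcases m23 r₂ hr2y with h' | h'
    · exact b2 h'
    · exact b3 h'
  obtain ⟨t₁, t₂, t₃, -, -, -, hs⟩ := hX.supp i j₀
  have hy' := (hs y).mp hA
  have h1' := (hs r₁).mp hr1a
  have h2' := (hs r₂).mp hr2a
  have h3' := (hs r₃).mp hr3a
  rcases hy' with e | e | e <;> rcases h1' with e1' | e1' | e1' <;>
    rcases h2' with e2' | e2' | e2' <;> rcases h3' with e3' | e3' | e3' <;>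
    first
      | exact hr1y (e1'.trans e.symm)
      | exact hr2y (e2'.trans e.symm)
      | exact hr3y (e3'.trans e.symm)
      | exact d12 (e1'.trans e2'.symm)
      | exact d13 (e1'.trans e3'.symm)
      | exact d23 (e2'.trans e3'.symm)

example : Cfsg.Agent.H81.Cyc.StmtPair.{u} := pair

end Cfsg.Agent.H8.Cyc
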