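import Mathlib
import Cfsg.Agent.H42.EqDefs

/-!
# S5988 team project (helper42): piece EQ-ARBACK (helper8)

Pure arithmetic: the right-hand side gives, for every admissible number `A` of blocks, a shape
`(j, e)` of a fixed minus-type space.
-/

set_option autoImplicit false

namespace Cfsg.Agent.H8.Eq

open Cfsg.Agent.H42.Eq

/-- EQ-ARBACK. -/
theorem arBack : Cfsg.Agent.H42.Eq.StArBack := by
  intro d m i c A hi hc hm hm2 hmd hR hA hcA hadm
  have hc2 : 2 ≤ c := by
    rw [hc]
    split_ifs with h
    · obtain ⟨t, ht⟩ := h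
      omega
    · omega
  have hceven : Even c := by
    rw [hc]
    split_ifs with h
    · exact h
    · exact ⟨i, by ring⟩
  obtain ⟨M, hMdef⟩ : ∃ M, M = m / c := ⟨_, rfl⟩
  obtain ⟨N, hNdef⟩ : ∃ N, N = (2 * d) / c := ⟨_, rfl⟩
  obtain ⟨ρm, hρm⟩ : ∃ ρ, ρ = m % c := ⟨_, rfl⟩
  obtain ⟨ρn, hρn⟩ : ∃ ρ, ρ = (2 * d) % c := ⟨_, rfl⟩
  have e1 : c * M + ρm = m := by
    rw [hMdef, hρm]
    exact Nat.div_add_mod m c
  have e2 : c * N + ρn = 2 * d := by
    rw [hNdef, hρn]
    exact Nat.div_add_mod _ c
  have l1 : ρm < c := by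
    rw [hρm]
    exact Nat.mod_lt _ (by omega)
  have l2 : ρn < c := by
    rw [hρn]
    exact Nat.mod_lt _ (by omega)
  have hAN : A ≤ N := by
    rw [hNdef]
    exact (Nat.le_div_iff_mul_le (by omega)).mpr (by rw [Nat.mul_comm]; exact hcA)
  have hMN : M ≤ N := by
    rw [hMdef, hNdef]
    exact Nat.div_le_div_right (by omega)
  have f1 : A < M → c * A + c ≤ c * M := by
    intro h
    have h1 := Nat.mul_le_mul_left c (Nat.succ_le_of_lt h)
    rw [Nat.mul_succ] at h1
    exact h1
  have f2 : M ≤ A → c * M ≤ c * A := fun h => Nat.mul_le_mul_left c h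
  have f3 : c * A ≤ c * N := Nat.mul_le_mul_left c hAN
  have f4 : A < N → c * A + c ≤ c * N := by
    intro h
    have h1 := Nat.mul_le_mul_left c (Nat.succ_le_of_lt h)
    rw [Nat.mul_succ] at h1
    exact h1
  obtain ⟨c', hc'⟩ := hceven
  obtain ⟨m', hm'⟩ := hm
  have hcA2 : c * A = 2 * (c' * A) := by
    rw [hc']
    ring
  have hcM2 : c * M = 2 * (c' * M) := by
    rw [hc']
    ring
  -- shape `j = A`
  have L1 : A < M → ∃ j e : ℕ, j ≤ A ∧ e ≤ 2 * d - c * A ∧ Even e ∧ c * j + e = m ∧
      (e = 0 → ¬ (Odd i ∨ Even j)) ∧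
      (e = 2 * d - c * A → e ≠ 0 → ¬ (Odd i ∨ Even (A - j))) := by
    intro h
    have h1 := f1 h
    refine ⟨A, m - c * A, le_refl _, by omega, ⟨m' - c' * A, by omega⟩, by omega,
      fun h0 => ?_, fun h0 _ => ?_⟩
    · exfalso
      omega
    · exfalso
      omega
  -- shape `j = M`, `e = 0`
  have L2 : M ≤ A → ρm = 0 → Odd M → Even i →
      ∃ j e : ℕ, j ≤ A ∧ e ≤ 2 * d - c * A ∧ Even e ∧ c * j + e = m ∧
      (e = 0 → ¬ (Odd i ∨ Even j)) ∧
      (e = 2 * d - c * A → e ≠ 0 → ¬ (Odd i ∨ Even (A - j))) := by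
    intro h h0 hMo hev
    refine ⟨M, 0, h, Nat.zero_le _, ⟨0, rfl⟩, by omega, fun _ => ?_, fun _ h1 => absurd rfl h1⟩
    rw [not_or, Nat.not_odd_iff_even, Nat.not_even_iff_odd]
    exact ⟨hev, hMo⟩
  -- shape `j = M`, `e = ρm > 0`
  have L34 : M ≤ A → 0 < ρm → ρm ≤ 2 * d - c * A →
      (ρm = 2 * d - c * A → ¬ (Odd i ∨ Even (A - M))) →
      ∃ j e : ℕ, j ≤ A ∧ e ≤ 2 * d - c * A ∧ Even e ∧ c * j + e = m ∧
      (e = 0 → ¬ (Odd i ∨ Even j)) ∧
      (e = 2 * d - c * A → e ≠ 0 → ¬ (Odd i ∨ Even (A - j))) := by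
    intro h h0 hle hcond
    refine ⟨M, ρm, h, hle, ⟨m' - c' * M, by omega⟩, e1, fun h1 => ?_, fun h1 _ => hcond h1⟩
    exfalso
    omega
  by_cases hAM : A < M
  · exact L1 hAM
  have hMA : M ≤ A := by omega
  unfold RhsOdd at hR
  rcases hR with ⟨hodd, hcm, h0, hlt⟩ | ⟨hev, hR⟩
  · rw [← hρm] at h0 hlt
    rw [← hρn] at hlt
    exact L34 hMA h0 (by omega) (fun h => by exfalso; omega)
  · have hci : c = i := by rw [hc, if_pos hev]
    rw [← hci] at hR
    rw [← hρm, ← hρn, ← hMdef, ← hNdef] at hR
    rcases hR with ⟨hn0, hor⟩ | ⟨hcm, hR⟩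
    · rcases hor with hoddN | ⟨hm0, hoddM⟩
      · have hAN' : A < N := by
          rcases Nat.lt_or_ge A N with h | h
          · exact h
          · exfalso
            have hAeq : A = N := le_antisymm hAN h
            have h1 : c * A = 2 * d := by
              rw [hAeq]
              omega
            rcases hadm h1 with h2 | h2
            · exact (Nat.not_even_iff_odd.mpr h2) hev
            · rw [hAeq] at h2
              exact (Nat.not_even_iff_odd.mpr hoddN) h2
        have h4 := f4 hAN'
        by_cases hρ0 : ρm = 0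
        · rcases Nat.even_or_odd M with hMe | hMo
          · have hMpos : 0 < M := by
              rcases Nat.eq_zero_or_pos M with h | h
              · rw [h, Nat.mul_zero] at e1
                omega
              · exact h
            have hM1 : c * (M - 1) + c = c * M := by
              have h5 : M = (M - 1) + 1 := by omega
              conv_rhs => rw [h5, Nat.mul_succ]
            refine ⟨M - 1, c, by omega, by omega, ⟨c', hc'⟩, by omega, fun h0 => ?_,
              fun h0 _ => ?_⟩
            · exfalso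
              omega
            · have hNA : N = A + 1 := by
                have h5 : c * N = c * (A + 1) := by
                  rw [Nat.mul_succ]
                  omega
                exact Nat.eq_of_mul_eq_mul_left (by omega) h5
              rw [not_or, Nat.not_odd_iff_even, Nat.not_even_iff_odd]
              refine ⟨hev, ?_⟩
              rw [Nat.odd_iff] at hoddN ⊢
              rw [Nat.even_iff] at hMe
              omega
          · exact L2 hMA hρ0 hMo hev
        · exact L34 hMA (by omega) (by omega) (fun h => by exfalso; omega)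
      · exact L2 hMA hm0 hoddM hev
    · rcases hR with ⟨h0, hlt⟩ | ⟨h0, heq, hodd⟩ | ⟨hm0, hn0, hoddM⟩
      · exact L34 hMA h0 (by omega) (fun h => by exfalso; omega)
      · have hdiv : (2 * d + m - 2 * ρn) / c = N + M := by
          have h5 : 2 * d + m - 2 * ρn = c * (N + M) := by
            rw [Nat.mul_add]
            omega
          rw [h5]
          exact Nat.mul_div_cancel_left _ (by omega)
        rw [hdiv] at hodd
        refine L34 hMA h0 (by omega) ?_
        intro h
        have hNA : N = A := by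
          have h5 : c * N = c * A := by omega
          exact Nat.eq_of_mul_eq_mul_left (by omega) h5
        rw [not_or, Nat.not_odd_iff_even, Nat.not_even_iff_odd]
        refine ⟨hev, ?_⟩
        rw [← hNA]
        rw [Nat.odd_iff] at hodd ⊢
        omega
      · exact L2 hMA hm0 hoddM hev

example : Cfsg.Agent.H42.Eq.StArBack := arBack

end Cfsg.Agent.H8.Eq
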