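import Mathlib
import Cfsg.Agent.H42.EqDefs

/-!
# S5988 team project (helper42): piece EQ-ARFWD (helper8)

Pure arithmetic: if the right-hand side fails, the number `A = ⌊2 d / c⌋` of blocks is a witness.
-/

set_option autoImplicit false

namespace Cfsg.Agent.H8.Eq

open Cfsg.Agent.H42.Eq

/-- EQ-ARFWD. -/
theorem arFwd : Cfsg.Agent.H42.Eq.StArFwd := by
  intro d m i c hi hc hm hm2 hmd hd4 hR
  have hc2 : 2 ≤ c := by
    rw [hc]
    split_ifs with h
    · obtain ⟨t, ht⟩ := h
      omega
    · omega
  by_cases hbig : 2 * d < c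
  · right
    exact ⟨by omega, Or.inl hbig⟩
  obtain ⟨N, hNdef⟩ : ∃ N, N = (2 * d) / c := ⟨_, rfl⟩
  obtain ⟨ρ, hρ⟩ : ∃ ρ, ρ = (2 * d) % c := ⟨_, rfl⟩
  have e2 : c * N + ρ = 2 * d := by
    rw [hNdef, hρ]
    exact Nat.div_add_mod _ c
  have l2 : ρ < c := by
    rw [hρ]
    exact Nat.mod_lt _ (by omega)
  have hN1 : 1 ≤ N := by
    rcases Nat.eq_zero_or_pos N with h | h
    · rw [h, Nat.mul_zero] at e2
      omega
    · exact h
  have hadm : c * N = 2 * d → (Odd i ∨ Even N) := by
    intro h
    by_contra hcon
    rw [not_or, Nat.not_odd_iff_even, Nat.not_even_iff_odd] at hcon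
    apply hR
    unfold RhsOdd
    right
    have hci : c = i := by rw [hc, if_pos hcon.1]
    refine ⟨hcon.1, Or.inl ⟨?_, Or.inl ?_⟩⟩
    · rw [← hρ]
      omega
    · rw [← hci, ← hNdef]
      exact hcon.2
  by_cases hmc : m < c
  · by_cases h1 : m < ρ
    · right
      exact ⟨hmc, Or.inr ⟨N, hN1, by omega, hadm, by omega, Or.inl (by omega)⟩⟩
    · by_cases h2 : m = ρ ∧ ¬ (Odd i ∨ Even N)
      · right
        exact ⟨hmc, Or.inr ⟨N, hN1, by omega, hadm, by omega, Or.inr ⟨by omega, h2.2⟩⟩⟩
      · left
        refine ⟨N, hN1, by omega, hadm, ?_⟩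
        intro j e hj he hje c1 c2
        have hj0 : j = 0 := by
          rcases Nat.eq_zero_or_pos j with h | h
          · exact h
          · exfalso
            have h3 := Nat.mul_le_mul_left c h
            omega
        subst hj0
        rw [Nat.mul_zero, Nat.zero_add] at hje
        have hmρ : m = ρ := by omega
        have h3 : Odd i ∨ Even N := by
          by_contra h4
          exact h2 ⟨hmρ, h4⟩
        exact c2 (by omega) (by omega) (by simpa using h3)
  · left
    refine ⟨N, hN1, by omega, hadm, ?_⟩
    intro j e hj he hje c1 c2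
    have heρ : e ≤ ρ := by omega
    have hmod : m % c = e := by
      rw [← hje, Nat.mul_add_mod]
      exact Nat.mod_eq_of_lt (by omega)
    have hdiv : m / c = j := by
      rw [← hje, Nat.mul_add_div (by omega), Nat.div_eq_of_lt (by omega)]
      rfl
    apply hR
    unfold RhsOdd
    rcases Nat.even_or_odd i with hev | hodd
    · right
      have hci : c = i := by rw [hc, if_pos hev]
      refine ⟨hev, ?_⟩
      rw [← hci, hmod, hdiv, ← hρ, ← hNdef]
      by_cases he0 : e = 0
      · have hjodd : Odd j := by
          have h3 := c1 he0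
          rw [not_or, Nat.not_odd_iff_even, Nat.not_even_iff_odd] at h3
          exact h3.2
        by_cases hρ0 : ρ = 0
        · left
          exact ⟨hρ0, Or.inr ⟨he0, hjodd⟩⟩
        · right
          exact ⟨by omega, Or.inr (Or.inr ⟨he0, by omega, hjodd⟩)⟩
      · right
        refine ⟨by omega, ?_⟩
        by_cases heq : e = ρ
        · right
          left
          refine ⟨by omega, heq, ?_⟩
          have h3 := c2 (by omega) he0
          rw [not_or, Nat.not_odd_iff_even, Nat.not_even_iff_odd] at h3
          have hdiv2 : (2 * d + m - 2 * ρ) / c = N + j := by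
            have h5 : 2 * d + m - 2 * ρ = c * (N + j) := by
              rw [Nat.mul_add]
              omega
            rw [h5]
            exact Nat.mul_div_cancel_left _ (by omega)
          rw [hdiv2]
          have h5 := h3.2
          rw [Nat.odd_iff] at h5 ⊢
          omega
        · left
          exact ⟨by omega, by omega⟩
    · left
      refine ⟨hodd, by omega, ?_, ?_⟩
      · rw [hmod]
        by_contra h0
        exact c1 (by omega) (Or.inl hodd)
      · rw [hmod, ← hρ]
        by_contra h0
        exact c2 (by omega) (fun h => c1 h (Or.inl hodd)) (Or.inl hodd)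

example : Cfsg.Agent.H42.Eq.StArFwd := arFwd

end Cfsg.Agent.H8.Eq
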