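import Cfsg.Agent.H81.ExDefs
import Cfsg.Agent.S0617
import Cfsg.Agent.H14.TFail

set_option autoImplicit false
set_option linter.unusedVariables false

/-! Piece EX-GLT (helper8, for helper81's EX project): Glauberman's structure theorem S0617,
transported to the holomorph of `V` exactly as in helper14's `H14/SnGL.lean` (`gl`), gives that
modulo `C_X(V)` commutators of `J(X)` have order dividing 3 and elements of `J(X)` have order
dividing 6.  Only the last step differs from `gl`. -/

open Cfsg
open scoped commutatorElement Pointwise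

namespace Cfsg.Agent.H8.Ex

open Cfsg.Agent.H14.Holo Cfsg.Agent.H52.Sn Cfsg.Agent.H81.Ex

universe u

theorem glt (h : StGLB.{u}) : StGLT.{u} := by
  intro X _ _ V _ hV hsep hO x hx y hy
  haveI : Fact (Nat.Prime 2) := ⟨Nat.prime_two⟩
  haveI hJn := thompsonSubgroup_normal 2 X
  have hV' := Vh_elemAb V hV
  have hHV : (thompsonSubgroup 2 X).map (psi V) ≤
      Subgroup.normalizer ((Vh V : Subgroup (Hol V)) : Set (Hol V)) := by
    haveI := Vh_normal V
    rw [Subgroup.normalizer_eq_top]
    exact le_top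
  have hHR : (thompsonSubgroup 2 X).map (psi V) ≤ (psi V).range := by
    rintro _ ⟨j, -, rfl⟩
    exact ⟨j, rfl⟩
  have hf : (thompsonSubgroup 2 X).map (psi V) ⊓
      Subgroup.centralizer ((Vh V : Subgroup (Hol V)) : Set (Hol V)) = ⊥ := by
    rw [eq_bot_iff, ← range_faithful V]
    exact inf_le_inf_right _ hHR
  have hnorm : (psi V).range ≤
      Subgroup.normalizer (((thompsonSubgroup 2 X).map (psi V) : Subgroup (Hol V)) :
        Set (Hol V)) := by
    rintro _ ⟨g, rfl⟩
    rw [Subgroup.mem_normalizer_iff]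
    intro h
    constructor
    · rintro ⟨j, hj, rfl⟩
      refine ⟨g * j * g⁻¹, hJn.conj_mem j hj g, ?_⟩
      simp
    · rintro ⟨j, hj, hjh⟩
      refine ⟨g⁻¹ * j * g, ?_, ?_⟩
      · have := hJn.conj_mem j hj g⁻¹
        simpa using this
      · rw [map_mul, map_mul, hjh, map_inv]
        group
  have hS1 := hS1_of_normal (p := 2) (psi V).range ((thompsonSubgroup 2 X).map (psi V)) hHR
    hnorm (range_isPSolvable V hsep) (range_pCore_eq_bot V hO)
  have hS3 : (thompsonSubgroup 2 X).map (psi V) = ⨆ A : {A : Subgroup (Hol V) //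
      A ≤ (thompsonSubgroup 2 X).map (psi V) ∧ IsBestOffenderOn 2 (Vh V) A},
      (A : Subgroup (Hol V)) := by
    apply le_antisymm
    · conv_lhs => unfold Cfsg.thompsonSubgroup
      rw [Subgroup.map_le_iff_le_comap]
      apply sSup_le
      intro A hA
      rw [← Subgroup.map_le_iff_le_comap]
      exact le_iSup (fun A : {A : Subgroup (Hol V) //
        A ≤ (thompsonSubgroup 2 X).map (psi V) ∧ IsBestOffenderOn 2 (Vh V) A} =>
          (A : Subgroup (Hol V)))
        ⟨A.map (psi V), Subgroup.map_mono (le_sSup hA), bestOffender_map V hV hA⟩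
    · exact iSup_le fun A => A.2.1
  rw [← psi_ker, MonoidHom.mem_ker, MonoidHom.mem_ker]
  have hxH : psi V x ∈ (thompsonSubgroup 2 X).map (psi V) := Subgroup.mem_map_of_mem _ hx
  have hyH : psi V y ∈ (thompsonSubgroup 2 X).map (psi V) := Subgroup.mem_map_of_mem _ hy
  by_cases hH1 : (thompsonSubgroup 2 X).map (psi V) = ⊥
  · rw [hH1, Subgroup.mem_bot] at hxH hyH
    constructor
    · rw [map_pow, map_mul, map_mul, map_mul, map_inv, map_inv, hxH, hyH]
      group
    · rw [map_pow, hxH, one_pow]
  · obtain ⟨-, hE, hind, hsup, -, -⟩ :=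
      Cfsg.Agent.S0617.result _ _ hV' hHV hf hS1 hS3 hH1
    have hb := h _ ((thompsonSubgroup 2 X).map (psi V)) (fun i => (hE i).1)
      (fun i => (hE i).2.1) hind hsup (psi V x) hxH (psi V y) hyH
    constructor
    · rw [map_pow, map_mul, map_mul, map_mul, map_inv, map_inv]
      exact hb.1
    · rw [map_pow]
      exact hb.2

example (h : Cfsg.Agent.H81.Ex.StGLB.{u}) : Cfsg.Agent.H81.Ex.StGLT.{u} := glt h

end Cfsg.Agent.H8.Ex
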