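import Mathlib
import Cfsg.Agent.H92.F2Defs
import Cfsg.Agent.H31.BG14UMain
import Cfsg.Agent.H57.NCKSylP
import Cfsg.Agent.H47.NCKComm
import Cfsg.Agent.H76.NCKMstar
import Cfsg.Agent.S1411

/-!
# F2-AB (helper8 for helper92, S1353)

The residual configuration `Cfg` does not occur when the Sylow `r`-subgroups of `G` are abelian.

The Sylow `r`-subgroup `S` of `E = U K` is a Sylow `r`-subgroup of `G`, commutative and normal in
`E`, with `Ω₁(S) = A`.  `r` is not ideal, so with `Ms` a maximal subgroup over `N(S)` the piece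
`NCK-COMM` gives `[P, N(S)] ≤ C(S)`; hence `N(S)` normalizes `C_A(P) = R`, so `N(S) ≤ N(R) ≤ M`
(`M` is the only maximal subgroup over `C(R)`), against S1417.
-/

set_option autoImplicit false

namespace Cfsg.Agent.H8.F2

open Cfsg Subgroup Cfsg.Agent.H92.F2

universe u

theorem ab {G : Type u} [Group G] [Finite G] : StAb G := by
  intro hG M K U A P R r p hrF cfg hab
  have hr : r.Prime := hrF.out
  have H := Cfsg.Agent.H31.BG14U.hyps hG
  have hM := cfg.coatom
  obtain ⟨E, hEdef⟩ : ∃ E : Subgroup G, E = U ⊔ K := ⟨_, rfl⟩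
  have hE : IsComplIn E (sigmaCore M) M :=
    hEdef ▸ Cfsg.Agent.H31.BG14U.compl_UK H.h50 hM cfg.dec
  have hEM : E ≤ M := hE.1
  have hAE : A ≤ E := hEdef ▸ cfg.AE
  have hPE : P ≤ E := hEdef ▸ cfg.PK.trans le_sup_right
  have hAM : A ≤ M := hAE.trans hEM
  have hp : p.Prime := cfg.tau1.1
  have hpr : p ≠ r := by
    rintro rfl
    exact cfg.tau2.2.2.2 cfg.tau1.2.2.2.2
  -- Step 1: the Sylow `r`-subgroup of `E`
  obtain ⟨P₀⟩ : Nonempty (Sylow r E) := inferInstance
  obtain ⟨⟨S, hS⟩, hEN', hScomm'⟩ := Cfsg.Agent.H31.BG12N.tau2_sylow_normal hG H.h50 H.h16 H.h18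
    H.hN hM hE cfg.tau2 hab P₀
  have hEN : E ≤ normalizer ((S : Subgroup G) : Set G) := by rw [hS]; exact hEN'
  have hSE : (S : Subgroup G) ≤ E := by rw [hS]; exact Subgroup.map_subtype_le _
  have hScomm : ∀ a ∈ (S : Subgroup G), ∀ b ∈ (S : Subgroup G), a * b = b * a := by
    intro a ha b hb
    rw [hS] at ha hb
    exact congrArg Subtype.val (hScomm'.1.1 ⟨a, ha⟩ ⟨b, hb⟩)
  -- Step 2: `A ≤ S`
  have hAp : IsPGroup r A := IsPGroup.of_card (n := 2) cfg.Acard
  have hAS : A ≤ (S : Subgroup G) := by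
    intro a ha
    exact Cfsg.Agent.H31.BG14U.mem_sylow_of_mem_normalizer S (hEN (hAE ha))
      (hAp.to_le (Subgroup.zpowers_le.mpr ha))
  obtain ⟨⟨hEA, hX⟩, ⟨hCA, hMN, hNnM⟩, hfix⟩ :=
    H.h18 M hM E hE r cfg.tau2 A ⟨hAE, cfg.Ael, cfg.Acard⟩
  -- Step 3: `Ω₁(S) ≤ A`
  have hΩ : ∀ x ∈ (S : Subgroup G), x ^ r = 1 → x ∈ A := by
    intro x hx hxr
    by_cases hx1 : x = 1
    · rw [hx1]; exact one_mem _
    · have ho : orderOf x = r := orderOf_eq_prime hxr hx1
      have hcard : Nat.card (zpowers x) = r := by rw [Nat.card_zpowers, ho]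
      exact hX (zpowers x) (Subgroup.zpowers_le.mpr (hSE hx)) hcard (Subgroup.mem_zpowers x)
  -- Step 4: `r` is not ideal
  have hnotideal : ¬ IsIdealPrime r G := by
    intro h
    obtain ⟨B, hBS, hBel, hAB⟩ := h.2.2 S A hAS cfg.Ael cfg.Acard
    exact (not_le_of_gt hAB) (fun b hb => hΩ b (hBS hb) (hBel.2 b hb))
  -- Step 5: a maximal subgroup over `N(S)`
  have hpG : p ∣ Nat.card G := by
    rw [← cfg.Pcard]; exact Subgroup.card_subgroup_dvd_card P
  have hSne : (S : Subgroup G) ≠ ⊤ := by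
    intro hS'
    obtain ⟨n, hn⟩ := IsPGroup.iff_card.mp S.isPGroup'
    rw [hS', Subgroup.card_top] at hn
    rw [hn] at hpG
    exact hpr ((Nat.prime_dvd_prime_iff_eq hp hr).mp (hp.dvd_of_dvd_pow hpG))
  have hsimple : IsSimpleGroup G := hG.2.1
  have hAne : A ≠ ⊥ := by
    intro h0
    have hc := cfg.Acard
    rw [h0, Subgroup.card_bot] at hc
    have : 1 < r ^ 2 := Nat.one_lt_pow (by norm_num) hr.one_lt
    omega
  have hNSne : normalizer ((S : Subgroup G) : Set G) ≠ ⊤ := by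
    intro h
    have hn : (S : Subgroup G).Normal := Subgroup.normalizer_eq_top_iff.mp h
    rcases hn.eq_bot_or_eq_top with h0 | h1
    · apply hAne; rw [eq_bot_iff, ← h0]; exact hAS
    · exact hSne h1
  obtain ⟨Ms, hMs, hNMs⟩ := Cfsg.Agent.H76.NCKill.exists_coatom_ge hNSne
  have hrβ : r ∉ beta Ms := fun h => hnotideal h.2
  -- Step 6: `S ≤ Ms'`
  obtain ⟨V, hV⟩ := Cfsg.Agent.H57.NCKill.exists_complIn_normalizer S
  have h11 := (Cfsg.Agent.S1411.result hG r S V hV).2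
  have hSD : (S : Subgroup G) ≤ ⁅Ms, Ms⁆ := h11.trans (Subgroup.commutator_mono hNMs hNMs)
  -- Step 7: `[P, N(S)] ≤ C(S)`
  have hcomm := Cfsg.Agent.H47.NCKill.comm hG Ms r hMs hrβ S hSD
  have hPN : P ≤ normalizer ((S : Subgroup G) : Set G) := hPE.trans hEN
  have hcent : ∀ n ∈ normalizer ((S : Subgroup G) : Set G), ∀ g ∈ P,
      g * n * g⁻¹ * n⁻¹ ∈ centralizer ((S : Subgroup G) : Set G) := by
    intro n hn g hg
    have hgN := hPN hg
    have h1 : g * n * g⁻¹ * n⁻¹ ∈ ⁅Ms, Ms⁆ := by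
      have := Subgroup.commutator_mem_commutator (hNMs hgN) (hNMs hn)
      rwa [commutatorElement_def] at this
    have h2 : g * n * g⁻¹ * n⁻¹ ∈ normalizer ((S : Subgroup G) : Set G) :=
      mul_mem (mul_mem (mul_mem hgN hn) (inv_mem hgN)) (inv_mem hn)
    obtain ⟨c, hc, s, hs, hx⟩ := hcomm _ ⟨h1, h2⟩
    rw [hx]
    refine mul_mem hc ?_
    rw [Subgroup.mem_centralizer_iff]
    intro t ht
    exact hScomm t ht s hs
  -- `C_A(P) = R`
  have hRC : R ≤ A ⊓ centralizer (P : Set G) := by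
    intro a ha
    refine Subgroup.mem_inf.mpr ⟨cfg.RA ha, ?_⟩
    rw [Subgroup.mem_centralizer_iff]
    intro g hg
    have h1 := cfg.PR hg
    rw [Subgroup.mem_centralizer_iff] at h1
    exact (h1 a ha).symm
  have hCne : A ⊓ centralizer (P : Set G) ≠ A := by
    intro h
    apply cfg.PA
    rw [Subgroup.le_centralizer_iff]
    rw [← h]; exact inf_le_right
  have hCR : A ⊓ centralizer (P : Set G) = R := by
    have hdvd : Nat.card ↥(A ⊓ centralizer (P : Set G)) ∣ r ^ 2 := by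
      rw [← cfg.Acard]; exact Subgroup.card_dvd_of_le inf_le_left
    obtain ⟨m, hm, hcard⟩ := (Nat.dvd_prime_pow hr).mp hdvd
    have hRdvd : r ∣ Nat.card ↥(A ⊓ centralizer (P : Set G)) := by
      have := Subgroup.card_dvd_of_le hRC
      rwa [cfg.Rcard] at this
    have hm1 : m = 1 := by
      interval_cases m
      · rw [hcard, pow_zero] at hRdvd
        exact absurd (Nat.eq_one_of_dvd_one hRdvd) hr.one_lt.ne'
      · rfl
      · exfalso
        apply hCne
        apply Subgroup.eq_of_le_of_card_ge inf_le_left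
        rw [hcard, cfg.Acard]
    rw [hm1, pow_one] at hcard
    exact (Subgroup.eq_of_le_of_card_ge hRC (by rw [hcard, cfg.Rcard])).symm
  -- Step 8: `N(S) ≤ N(R)`
  have hconj : ∀ n ∈ normalizer ((S : Subgroup G) : Set G), ∀ a ∈ R, n * a * n⁻¹ ∈ R := by
    intro n hn a ha
    have haS : a ∈ (S : Subgroup G) := hAS (cfg.RA ha)
    have hbS : n * a * n⁻¹ ∈ (S : Subgroup G) := (Subgroup.mem_normalizer_iff.mp hn a).mp haS
    have hbr : (n * a * n⁻¹) ^ r = 1 := by
      rw [conj_pow, cfg.Ael.2 a (cfg.RA ha)]; simp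
    rw [← hCR]
    refine Subgroup.mem_inf.mpr ⟨hΩ _ hbS hbr, ?_⟩
    rw [Subgroup.mem_centralizer_iff]
    intro g hg
    have hc := hcent n hn g hg
    have hga : g * a * g⁻¹ = a := by
      have h1 := cfg.PR hg
      rw [Subgroup.mem_centralizer_iff] at h1
      rw [← h1 a ha]; group
    have hcb := (Subgroup.mem_centralizer_iff.mp hc) _ hbS
    calc g * (n * a * n⁻¹)
        = (g * n * g⁻¹ * n⁻¹) * (n * (g * a * g⁻¹) * n⁻¹) * (g * n * g⁻¹ * n⁻¹)⁻¹ * g := by
          group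
      _ = (g * n * g⁻¹ * n⁻¹) * (n * a * n⁻¹) * (g * n * g⁻¹ * n⁻¹)⁻¹ * g := by rw [hga]
      _ = (n * a * n⁻¹) * (g * n * g⁻¹ * n⁻¹) * (g * n * g⁻¹ * n⁻¹)⁻¹ * g := by rw [← hcb]
      _ = (n * a * n⁻¹) * g := by group
  have hNR : normalizer ((S : Subgroup G) : Set G) ≤ normalizer (R : Set G) := by
    intro n hn
    rw [Subgroup.mem_normalizer_iff]
    intro a
    constructor
    · exact hconj n hn a
    · intro h
      have h1 := hconj n⁻¹ (inv_mem hn) _ h
      have h2 : n⁻¹ * (n * a * n⁻¹) * n⁻¹⁻¹ = a := by group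
      rwa [h2] at h1
  -- Step 9: `N(R) ≤ M`
  obtain ⟨hCRM, huniq⟩ := hfix R cfg.RA cfg.Rcard cfg.Rfix
  have hNRne : normalizer (R : Set G) ≠ ⊤ := by
    intro h
    have hn : R.Normal := Subgroup.normalizer_eq_top_iff.mp h
    rcases hn.eq_bot_or_eq_top with h0 | h1
    · have hc := cfg.Rcard
      rw [h0, Subgroup.card_bot] at hc
      exact hr.one_lt.ne hc
    · exact hM.1 (top_le_iff.mp (h1 ▸ cfg.RA.trans hAM))
  obtain ⟨L, hL, hNL⟩ := Cfsg.Agent.H76.NCKill.exists_coatom_ge hNRne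
  have hLM : L = M := huniq L hL ((Subgroup.centralizer_le_normalizer _).trans hNL)
  have hNSM : normalizer ((S : Subgroup G) : Set G) ≤ M := hNR.trans (hLM ▸ hNL)
  -- Step 10: contradiction with S1417
  have h17 := H.h17 M hM r cfg.tau2 A ⟨hAM, cfg.Ael, cfg.Acard⟩
  have hSM : (S : Subgroup G) ≤ M := hSE.trans hEM
  have hmap : ((S.subtype hSM : Sylow r M) : Subgroup M).map M.subtype = (S : Subgroup G) := by
    rw [Sylow.coe_subtype]; exact Subgroup.map_subgroupOf_eq_of_le hSM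
  obtain ⟨-, h2⟩ := h17.2.1 (S.subtype hSM)
  have h3 := (h2 (by rw [hmap]; exact hAS)).2
  rw [hmap] at h3
  exact h3 hNSM

example {G : Type u} [Group G] [Finite G] : IsMinSimpleOddOrder G →
    ∀ (M K U A P R : Subgroup G) (r p : ℕ) [Fact r.Prime],
    Cfg M K U A P R r p → (∃ S : Sylow r G, IsMulCommutative (S : Subgroup G)) → False := ab

end Cfsg.Agent.H8.F2
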