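import Mathlib
import Cfsg.Agent.H95.FHDefs

/-!
S1142 piece FH-BN: a finite (B,N)-pair of rank 2 gives Hecke data (assembly from the dihedral
piece and the orbital-matrix piece).
-/

set_option autoImplicit false

universe u

namespace Cfsg.Agent.H8.FH

open Matrix Cfsg.Agent.H95.FH Cfsg.H8BN

/-- FH-BN. -/
theorem bn (hD : DihStmt.{u}) (hO : OrbStmt.{u}) : BNStmt.{u} := by
  intro G _ _ P hr
  have h2 : Nat.card P.S = 2 := hr
  obtain ⟨s, t, hst, huniv⟩ := Nat.card_eq_two_iff.mp h2
  have hall : ∀ i : P.S, i = s ∨ i = t := by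
    intro i
    have : i ∈ ({s, t} : Set P.S) := by
      rw [huniv]
      trivial
    simpa using this
  obtain ⟨n, hn2, hcard, hbraid, hlen1, hlen2, hne⟩ :=
    hD (W := Wq P) (ι := P.S) (sg P) s t hall (sg_mul_self P s) (sg_mul_self P t)
      (sg_ne_one P s) (sg_ne_one P t) (fun h => hst (sg_injective P h)) (closure_range_sg P)
  obtain ⟨Ω, hΩ1, hΩ2, hΩ3, M, hM1, hM01, hMT, hMdisj, hMmul, hMsq⟩ := hO P
  obtain ⟨p, hp, hpsq⟩ := hMsq s
  obtain ⟨q, hq, hqsq⟩ := hMsq t
  refine ⟨Ω, hΩ1, hΩ2, M (sg P s), M (sg P t), p, q, n, hcard, ?_⟩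
  have key : ∀ k, k ≤ n →
      alt (M (sg P s)) (M (sg P t)) k = M (alt (sg P s) (sg P t) k) ∧
      alt (M (sg P t)) (M (sg P s)) k = M (alt (sg P t) (sg P s) k) := by
    intro k
    induction k with
    | zero =>
      intro _
      exact ⟨hM1.symm, hM1.symm⟩
    | succ k ih =>
      intro hk
      obtain ⟨ih1, ih2⟩ := ih (by omega)
      constructor
      · show M (sg P s) * alt (M (sg P t)) (M (sg P s)) k =
          M (sg P s * alt (sg P t) (sg P s) k)
        rw [ih2]
        apply hMmul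
        have e1 := hlen2 k (by omega)
        have e2 : Cfsg.H8Exch.len (sg P) (sg P s * alt (sg P t) (sg P s) k) = k + 1 :=
          hlen1 (k + 1) hk
        omega
      · show M (sg P t) * alt (M (sg P s)) (M (sg P t)) k =
          M (sg P t * alt (sg P s) (sg P t) k)
        rw [ih1]
        apply hMmul
        have e1 := hlen1 k (by omega)
        have e2 : Cfsg.H8Exch.len (sg P) (sg P t * alt (sg P s) (sg P t) k) = k + 1 :=
          hlen2 (k + 1) hk
        omega
  have hinv : ∀ r : P.S, (sg P r)⁻¹ = sg P r := fun r =>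
    inv_eq_of_mul_eq_one_left (sg_mul_self P r)
  have hne1 : ∀ k l, k ≤ n → l ≤ n → k ≠ l →
      alt (sg P s) (sg P t) k ≠ alt (sg P s) (sg P t) l := by
    intro k l hk hl hkl h
    have e1 := hlen1 k hk
    have e2 := hlen1 l hl
    rw [h] at e1
    omega
  have hne2 : ∀ k l, k ≤ n → l ≤ n → k ≠ l →
      alt (sg P t) (sg P s) k ≠ alt (sg P t) (sg P s) l := by
    intro k l hk hl hkl h
    have e1 := hlen2 k hk
    have e2 := hlen2 l hl
    rw [h] at e1
    omega
  have hne3 : ∀ k l, k ≤ n → 1 ≤ l → l < n →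
      alt (sg P s) (sg P t) k ≠ alt (sg P t) (sg P s) l := by
    intro k l hk hl1 hln h
    have e1 := hlen1 k hk
    have e2 := hlen2 l (by omega)
    rw [h] at e1
    have hkl : k = l := by omega
    subst hkl
    exact hne k hl1 hln h
  refine
    { ne := hΩ3
      hn := hn2
      hp := hp
      hq := hq
      symm_a := by rw [hMT, hinv]
      symm_c := by rw [hMT, hinv]
      sq_a := hpsq
      sq_c := hqsq
      braid := by rw [(key n le_rfl).1, (key n le_rfl).2, hbraid]
      zo_a := ?_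
      zo_c := ?_
      disj_aa := ?_
      disj_cc := ?_
      disj_ac := ?_ }
  · intro k hk x y
    rw [(key k hk).1]
    exact hM01 _ x y
  · intro k hk x y
    rw [(key k hk).2]
    exact hM01 _ x y
  · intro k l hk hl hkl x y
    rw [(key k hk).1, (key l hl).1]
    exact hMdisj _ _ (hne1 k l hk hl hkl) x y
  · intro k l hk hl hkl x y
    rw [(key k hk).2, (key l hl).2]
    exact hMdisj _ _ (hne2 k l hk hl hkl) x y
  · intro k l hk hl1 hln x y
    rw [(key k hk).1, (key l (by omega)).2]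
    exact hMdisj _ _ (hne3 k l hk hl1 hln) x y

example (hD : Cfsg.Agent.H95.FH.DihStmt.{u}) (hO : Cfsg.Agent.H95.FH.OrbStmt.{u}) :
    Cfsg.Agent.H95.FH.BNStmt.{u} := bn hD hO

end Cfsg.Agent.H8.FH
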