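import Mathlib
import Cfsg.Agent.H95.FHDefs

/-!
S1142 piece FH-QUANT1: an eigenvector of `e f e` with eigenvalue `μ ≠ 0, 1` spans together
with `f v` a plane on which `a`, `c` act by the 2×2 matrices `a2 p μ`, `c2 q`; the braid
relation is inherited.
-/

set_option autoImplicit false

universe u

namespace Cfsg.Agent.H8.FH

open Matrix Cfsg.Agent.H95.FH

/-- `(a + 1)/(p + 1)` is idempotent. -/
theorem eP_idem {Ω : Type u} [Fintype Ω] [DecidableEq Ω] (a : Matrix Ω Ω ℝ) (p : ℕ)
    (h : a * a = (p : ℝ) • (1 : Matrix Ω Ω ℝ) + ((p : ℝ) - 1) • a) :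
    eP a p * eP a p = eP a p := by
  have hp : ((p : ℝ) + 1) ≠ 0 := by positivity
  have h1 : (a + 1) * (a + 1) = ((p : ℝ) + 1) • (a + 1) := by
    rw [add_mul, mul_add, mul_one, one_mul, h]
    module
  unfold eP
  rw [Matrix.smul_mul, Matrix.mul_smul, h1, smul_smul, smul_smul, mul_assoc,
    inv_mul_cancel₀ hp, mul_one]

theorem eP_mulVec {Ω : Type u} [Fintype Ω] [DecidableEq Ω] (a : Matrix Ω Ω ℝ) (p : ℕ)
    (w : Ω → ℝ) : a *ᵥ w = ((p : ℝ) + 1) • (eP a p *ᵥ w) - w := by
  have hp : ((p : ℝ) + 1) ≠ 0 := by positivity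
  unfold eP
  rw [Matrix.smul_mulVec, smul_smul, mul_inv_cancel₀ hp, one_smul, Matrix.add_mulVec,
    Matrix.one_mulVec]
  abel

/-- FH-QUANT1. -/
theorem quant1 : Quant1Stmt.{u} := by
  intro Ω _ _ a c p q n H v μ hv hDv hμ0 hμ1
  have he := eP_idem a p H.sq_a
  have hf := eP_idem c q H.sq_c
  set e := eP a p with he_def
  set f := eP c q with hf_def
  have hDv' : (e * f * e) *ᵥ v = μ • v := hDv
  -- `e v = v`
  have hev : e *ᵥ v = v := by
    have h1 : e *ᵥ ((e * f * e) *ᵥ v) = (e * f * e) *ᵥ v := by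
      rw [Matrix.mulVec_mulVec, ← mul_assoc, ← mul_assoc, he]
    rw [hDv', Matrix.mulVec_smul] at h1
    exact smul_right_injective _ hμ0 h1
  set u := f *ᵥ v with hu_def
  have hfu : f *ᵥ u = u := by
    rw [hu_def, Matrix.mulVec_mulVec, hf]
  have heu : e *ᵥ u = μ • v := by
    rw [← hDv', hu_def, Matrix.mulVec_mulVec]
    conv_lhs => rw [← hev]
    rw [Matrix.mulVec_mulVec]
  have hav : a *ᵥ v = (p : ℝ) • v := by
    rw [eP_mulVec a p v, ← he_def, hev]
    module
  have hau : a *ᵥ u = (((p : ℝ) + 1) * μ) • v - u := by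
    rw [eP_mulVec a p u, ← he_def, heu, smul_smul]
  have hcv : c *ᵥ v = ((q : ℝ) + 1) • u - v := by
    rw [eP_mulVec c q v, ← hf_def]
  have hcu : c *ᵥ u = (q : ℝ) • u := by
    rw [eP_mulVec c q u, ← hf_def, hfu]
    module
  -- linear independence of `v`, `u`
  have hind : ∀ α β : ℝ, α • v + β • u = 0 → α = 0 ∧ β = 0 := by
    intro α β hαβ
    by_cases hβ : β = 0
    · rw [hβ, zero_smul, add_zero] at hαβ
      rcases smul_eq_zero.mp hαβ with h | h
      · exact ⟨h, hβ⟩
      · exact absurd h hv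
    · exfalso
      have hu1 : u = (-α / β) • v := by
        have h1 : β • u = (-α) • v := by
          rw [neg_smul]
          exact eq_neg_of_add_eq_zero_right hαβ
        have h2 : u = β⁻¹ • (β • u) := by
          rw [smul_smul, inv_mul_cancel₀ hβ, one_smul]
        rw [h2, h1, smul_smul]
        congr 1
        field_simp
      set lam := -α / β with hlam
      have h3 : lam • v = μ • v := by
        rw [← heu, hu1, Matrix.mulVec_smul, hev]
      have h4 : lam = μ := by
        have h5 : (lam - μ) • v = 0 := by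
          rw [sub_smul, h3, sub_self]
        rcases smul_eq_zero.mp h5 with h | h
        · linarith
        · exact absurd h hv
      have h6 : (lam * lam) • v = lam • v := by
        have h7 : f *ᵥ u = u := hfu
        rw [hu1, Matrix.mulVec_smul] at h7
        rw [← hu_def, hu1, smul_smul] at h7
        exact h7
      have h8 : lam * lam = lam := by
        have h9 : (lam * lam - lam) • v = 0 := by
          rw [sub_smul, h6, sub_self]
        rcases smul_eq_zero.mp h9 with h | h
        · linarith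
        · exact absurd h hv
      rw [h4] at h8
      have h10 : μ * (μ - 1) = 0 := by linarith
      rcases mul_eq_zero.mp h10 with h | h
      · exact hμ0 h
      · exact hμ1 (by linarith)
  -- the plane
  let Φ : (Fin 2 → ℝ) → (Ω → ℝ) := fun x => x 0 • v + x 1 • u
  have hΦ : ∀ x, Φ x = x 0 • v + x 1 • u := fun x => rfl
  have haΦ : ∀ x, a *ᵥ Φ x = Φ (a2 p μ *ᵥ x) := by
    intro x
    rw [hΦ, hΦ, Matrix.mulVec_add, Matrix.mulVec_smul, Matrix.mulVec_smul, hav, hau]
    simp only [a2, Matrix.mulVec, dotProduct, Fin.sum_univ_two, Matrix.of_apply,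
      Matrix.cons_val_zero, Matrix.cons_val_one, Matrix.cons_val', Matrix.cons_val_fin_one]
    module
  have hcΦ : ∀ x, c *ᵥ Φ x = Φ (c2 q *ᵥ x) := by
    intro x
    rw [hΦ, hΦ, Matrix.mulVec_add, Matrix.mulVec_smul, Matrix.mulVec_smul, hcv, hcu]
    simp only [c2, Matrix.mulVec, dotProduct, Fin.sum_univ_two, Matrix.of_apply,
      Matrix.cons_val_zero, Matrix.cons_val_one, Matrix.cons_val', Matrix.cons_val_fin_one]
    module
  have hword : ∀ k : ℕ, ∀ x,
      (alt a c k) *ᵥ Φ x = Φ ((alt (a2 p μ) (c2 q) k) *ᵥ x) ∧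
      (alt c a k) *ᵥ Φ x = Φ ((alt (c2 q) (a2 p μ) k) *ᵥ x) := by
    intro k
    induction k with
    | zero =>
      intro x
      simp [alt]
    | succ k ih =>
      intro x
      constructor
      · show (a * alt c a k) *ᵥ Φ x = Φ ((a2 p μ * alt (c2 q) (a2 p μ) k) *ᵥ x)
        rw [← Matrix.mulVec_mulVec, (ih x).2, haΦ, Matrix.mulVec_mulVec]
      · show (c * alt a c k) *ᵥ Φ x = Φ ((c2 q * alt (a2 p μ) (c2 q) k) *ᵥ x)
        rw [← Matrix.mulVec_mulVec, (ih x).1, hcΦ, Matrix.mulVec_mulVec]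
  have hinj : ∀ x y, Φ x = Φ y → x = y := by
    intro x y hxy
    have h1 : (x 0 - y 0) • v + (x 1 - y 1) • u = 0 := by
      rw [hΦ, hΦ] at hxy
      rw [sub_smul, sub_smul]
      have : x 0 • v + x 1 • u - (y 0 • v + y 1 • u) = 0 := by rw [hxy, sub_self]
      rw [← this]
      abel
    obtain ⟨h2, h3⟩ := hind _ _ h1
    funext i
    fin_cases i
    · exact sub_eq_zero.mp h2
    · exact sub_eq_zero.mp h3
  apply Matrix.toLin'.injective
  apply LinearMap.ext
  intro x
  rw [Matrix.toLin'_apply, Matrix.toLin'_apply]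
  apply hinj
  rw [← (hword n x).1, ← (hword n x).2, H.braid]

example : Cfsg.Agent.H95.FH.Quant1Stmt.{u} := quant1

end Cfsg.Agent.H8.FH
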