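import Mathlib
import Cfsg.Agent.H66.GrossDefs

/-!
# S3795-G2B2 (helper8): base change to the algebraic closure

`ZLinSep H σ n q → LinSep H σ n q`.
-/

set_option autoImplicit false
set_option linter.style.haveILetI false
set_option linter.unusedVariables false
set_option linter.unusedSectionVars false

namespace Cfsg.Agent.H8.Gross

open Cfsg Cfsg.Agent.H66.Gross
open scoped TensorProduct

universe u

/-- The base change of an injective endomorphism along a field extension is injective. -/
theorem baseChange_injective_of_injective {F : Type*} [Field F] {K : Type*} [Field K]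
    [Algebra F K] {V : Type*} [AddCommGroup V] [Module F V] (f : Module.End F V)
    (hf : Function.Injective f) :
    Function.Injective (Module.End.baseChangeHom F K V f) := by
  have h1 : (Module.End.baseChangeHom F K V f : K ⊗[F] V → K ⊗[F] V) = f.lTensor K := by
    funext v
    rfl
  rw [h1]
  exact Module.Flat.lTensor_preserves_injective_linearMap f hf

/-- The base change hom on endomorphisms is injective over a field. -/
theorem baseChangeHom_inj {F : Type*} [Field F] {K : Type*} [Field K]
    [Algebra F K] {V : Type*} [AddCommGroup V] [Module F V] :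
    Function.Injective (Module.End.baseChangeHom F K V) := by
  intro f g hfg
  exact LinearMap.baseChangeHom_injective F V K hfg

/-- Base change of a fixed-point-free module. -/
theorem isFpfMod_baseChange {H : Type*} [Group H] (σ : MulAut H) (n : ℕ) {F : Type*} [Field F]
    {K : Type*} [Field K] [Algebra F K] {V : Type*} [AddCommGroup V] [Module F V]
    (ρ : H →* Module.End F V) (X : Module.End F V) (h : IsFpfMod σ n ρ X) :
    IsFpfMod σ n (((Module.End.baseChangeHom F K V : Module.End F V →* Module.End K (K ⊗[F] V))).comp ρ)
      (Module.End.baseChangeHom F K V X) := by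
  obtain ⟨h1, h2, h3, h4⟩ := h
  refine ⟨h1, ?_, ?_, ?_⟩
  · rw [← map_pow, h2, map_one]
  · intro g
    show Module.End.baseChangeHom F K V X * Module.End.baseChangeHom F K V (ρ g) =
      Module.End.baseChangeHom F K V (ρ (σ g)) * Module.End.baseChangeHom F K V X
    rw [← map_mul, ← map_mul, h3]
  · intro v hv
    have hinj : Function.Injective (X - 1 : Module.End F V) := by
      intro a b hab
      have h5 : X (a - b) = a - b := by
        have h6 : X a - a = X b - b := hab
        rw [map_sub]
        have h7 : X a - X b - (a - b) = (X a - a) - (X b - b) := by abel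
        exact sub_eq_zero.mp (by rw [h7, h6, sub_self])
      exact sub_eq_zero.mp (h4 _ h5)
    have h5 := baseChange_injective_of_injective (K := K) (X - 1 : Module.End F V) hinj
    apply h5
    rw [map_sub, map_one, map_zero]
    show Module.End.baseChangeHom F K V X v - v = 0
    rw [hv, sub_self]

/-- S3795-G2B2. -/
theorem g2b2_holds : G2b2Statement.{u} := by
  intro H _ _ σ n q hq hZ x hx hx1
  obtain ⟨r, hr, V0, iA, iM, iF, ρ0, X0, hr2, hrq, hfpf, hρx⟩ := hZ x hx hx1
  haveI := hr
  haveI : CharP (AlgebraicClosure (ZMod r)) r :=
    charP_of_injective_algebraMap (algebraMap (ZMod r) (AlgebraicClosure (ZMod r))).injective r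
  haveI : Module.Finite (ZMod r) V0 := Module.Finite.of_finite
  refine ⟨AlgebraicClosure (ZMod r), inferInstance, inferInstance,
    AlgebraicClosure (ZMod r) ⊗[ZMod r] V0, inferInstance, inferInstance, inferInstance,
    ((Module.End.baseChangeHom (ZMod r) (AlgebraicClosure (ZMod r)) V0 :
      Module.End (ZMod r) V0 →* Module.End (AlgebraicClosure (ZMod r))
        (AlgebraicClosure (ZMod r) ⊗[ZMod r] V0))).comp ρ0,
    Module.End.baseChangeHom (ZMod r) (AlgebraicClosure (ZMod r)) V0 X0, ?_, ?_,
    isFpfMod_baseChange σ n ρ0 X0 hfpf, ?_⟩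
  · intro h2
    have h3 : ((2 : ℕ) : AlgebraicClosure (ZMod r)) = 0 := by exact_mod_cast h2
    rw [CharP.cast_eq_zero_iff (AlgebraicClosure (ZMod r)) r] at h3
    exact hr2 ((Nat.prime_dvd_prime_iff_eq hr.out Nat.prime_two).mp h3)
  · intro h2
    rw [CharP.cast_eq_zero_iff (AlgebraicClosure (ZMod r)) r] at h2
    exact hrq ((Nat.prime_dvd_prime_iff_eq hr.out hq.out).mp h2)
  · intro h2
    apply hρx
    apply baseChangeHom_inj (K := AlgebraicClosure (ZMod r))
    rw [map_one]
    exact h2

example : G2b2Statement.{u} := g2b2_holds

end Cfsg.Agent.H8.Gross
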