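import Mathlib
import Cfsg.Agent.H66.GrossDefs
import Cfsg.Agent.H8.GrossG2B2

/-!
# S3795-UAB (helper8), part A: base change of forms, generic lemmas
-/

set_option autoImplicit false
set_option linter.style.haveILetI false
set_option linter.unusedVariables false
set_option linter.unusedSectionVars false

namespace Cfsg.Agent.H8.Gross

open Cfsg Cfsg.Agent.H66.Gross
open scoped TensorProduct

universe u

section BC

variable {F : Type*} [Field F] {K : Type*} [Field K] [Algebra F K]
  {V0 : Type*} [AddCommGroup V0] [Module F V0]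

theorem tmul_eq_smul_one (a : K) (u : V0) : a ⊗ₜ[F] u = a • ((1 : K) ⊗ₜ[F] u) := by
  rw [TensorProduct.smul_tmul', smul_eq_mul, mul_one]

/-- Two `K`-bilinear forms on `K ⊗ V0` agreeing on the vectors `1 ⊗ u` are equal. -/
theorem bil_ext (B B' : (K ⊗[F] V0) →ₗ[K] (K ⊗[F] V0) →ₗ[K] K)
    (h : ∀ u v : V0, B (1 ⊗ₜ u) (1 ⊗ₜ v) = B' (1 ⊗ₜ u) (1 ⊗ₜ v)) (x y : K ⊗[F] V0) :
    B x y = B' x y := by
  induction x using TensorProduct.induction_on with
  | zero => simp
  | tmul a u =>
    induction y using TensorProduct.induction_on with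
    | zero => simp
    | tmul b v =>
      rw [tmul_eq_smul_one a u, tmul_eq_smul_one b v]
      simp only [map_smul, LinearMap.smul_apply]
      rw [h u v]
    | add y1 y2 ih1 ih2 => rw [map_add, map_add, ih1, ih2]
  | add x1 x2 ih1 ih2 =>
    rw [map_add, map_add, LinearMap.add_apply, LinearMap.add_apply, ih1, ih2]

theorem bcForm_one (β0 : LinearMap.BilinForm F V0) (u v : V0) :
    β0.baseChange K ((1 : K) ⊗ₜ[F] u) ((1 : K) ⊗ₜ[F] v) = algebraMap F K (β0 u v) := by
  rw [LinearMap.BilinForm.baseChange_tmul, mul_one, Algebra.smul_def, mul_one]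

theorem bc_one_tmul (f : Module.End F V0) (u : V0) :
    Module.End.baseChangeHom F K V0 f ((1 : K) ⊗ₜ[F] u) = (1 : K) ⊗ₜ[F] f u := rfl

/-- The base change of a skew form is skew. -/
theorem bcForm_skew (β0 : LinearMap.BilinForm F V0) (h : ∀ u v, β0 u v = -β0 v u)
    (x y : K ⊗[F] V0) : β0.baseChange K x y = -β0.baseChange K y x := by
  have h1 := bil_ext (β0.baseChange K)
    (-(LinearMap.flip (β0.baseChange K : (K ⊗[F] V0) →ₗ[K] (K ⊗[F] V0) →ₗ[K] K)))
    (fun u v => by
      rw [LinearMap.neg_apply, LinearMap.neg_apply, LinearMap.flip_apply, bcForm_one, bcForm_one,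
        h u v, map_neg]) x y
  rw [h1, LinearMap.neg_apply, LinearMap.neg_apply, LinearMap.flip_apply]

/-- The base change of an alternating form is alternating (characteristic not two). -/
theorem bcForm_alt (h2 : (2 : K) ≠ 0) (β0 : LinearMap.BilinForm F V0) (h : ∀ u, β0 u u = 0)
    (x : K ⊗[F] V0) : β0.baseChange K x x = 0 := by
  have hskew : ∀ u v, β0 u v = -β0 v u := by
    intro u v
    have h1 := h (u + v)
    simp only [map_add, LinearMap.add_apply] at h1
    linear_combination h1 - h u - h v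
  have h1 := bcForm_skew (K := K) β0 hskew x x
  have h3 : (2 : K) * β0.baseChange K x x = 0 := by
    rw [two_mul]
    nth_rewrite 1 [h1]
    exact neg_add_cancel _
  rcases mul_eq_zero.mp h3 with h4 | h4
  · exact absurd h4 h2
  · exact h4

/-- Invariance of a form passes to the base change. -/
theorem bcForm_inv (β0 : LinearMap.BilinForm F V0) (f : Module.End F V0)
    (h : ∀ u v, β0 (f u) (f v) = β0 u v) (x y : K ⊗[F] V0) :
    β0.baseChange K (Module.End.baseChangeHom F K V0 f x) (Module.End.baseChangeHom F K V0 f y) =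
      β0.baseChange K x y := by
  have h1 := bil_ext ((β0.baseChange K).compl₁₂ (Module.End.baseChangeHom F K V0 f)
    (Module.End.baseChangeHom F K V0 f)) (β0.baseChange K) (fun u v => by
      rw [LinearMap.compl₁₂_apply, bc_one_tmul, bc_one_tmul, bcForm_one, bcForm_one, h u v]) x y
  rw [LinearMap.compl₁₂_apply] at h1
  exact h1

/-- The `(-1)`-eigenspace of the base change of an involution is spanned by the vectors `1 ⊗ u`
with `u` in the `(-1)`-eigenspace. -/
theorem neg_eig_span (h2 : (2 : K) ≠ 0) (T0 : Module.End F V0) (hT : T0 * T0 = 1)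
    (x : K ⊗[F] V0) (hx : Module.End.baseChangeHom F K V0 T0 x = -x) :
    x ∈ Submodule.span K {w : K ⊗[F] V0 | ∃ u : V0, T0 u = -u ∧ w = (1 : K) ⊗ₜ[F] u} := by
  have key : ∀ x : K ⊗[F] V0, x - Module.End.baseChangeHom F K V0 T0 x ∈
      Submodule.span K {w : K ⊗[F] V0 | ∃ u : V0, T0 u = -u ∧ w = (1 : K) ⊗ₜ[F] u} := by
    intro x
    induction x using TensorProduct.induction_on with
    | zero =>
      rw [map_zero, sub_zero]
      exact Submodule.zero_mem _
    | tmul a u =>
      have h1 : a ⊗ₜ[F] u - Module.End.baseChangeHom F K V0 T0 (a ⊗ₜ[F] u) =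
          a • ((1 : K) ⊗ₜ[F] (u - T0 u)) := by
        rw [← tmul_eq_smul_one, TensorProduct.tmul_sub]
        rfl
      rw [h1]
      apply Submodule.smul_mem
      apply Submodule.subset_span
      refine ⟨u - T0 u, ?_, rfl⟩
      have h3 : T0 (T0 u) = u := by
        have := congrArg (fun f : Module.End F V0 => f u) hT
        exact this
      rw [map_sub, h3, neg_sub]
    | add x1 x2 ih1 ih2 =>
      have h1 : x1 + x2 - Module.End.baseChangeHom F K V0 T0 (x1 + x2) =
          (x1 - Module.End.baseChangeHom F K V0 T0 x1) +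
          (x2 - Module.End.baseChangeHom F K V0 T0 x2) := by
        rw [map_add]; abel
      rw [h1]
      exact Submodule.add_mem _ ih1 ih2
  have h1 := key x
  rw [hx, sub_neg_eq_add] at h1
  have h3 : x = (2 : K)⁻¹ • (x + x) := by
    rw [← two_smul K x, smul_smul, inv_mul_cancel₀ h2, one_smul]
  rw [h3]
  exact Submodule.smul_mem _ _ h1

/-- The rank condition passes to the base change. -/
theorem bcForm_rank (h2 : (2 : K) ≠ 0) (β0 : LinearMap.BilinForm F V0) (T0 : Module.End F V0)
    (hT : T0 * T0 = 1) (x₁ x₂ : V0)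
    (hr : ∀ u, T0 u = -u → ∃ i j : ℕ, ∀ v, T0 v = -v → β0 (u + i • x₁ + j • x₂) v = 0)
    (x : K ⊗[F] V0) (hx : Module.End.baseChangeHom F K V0 T0 x = -x) :
    ∃ a b : K, ∀ y, Module.End.baseChangeHom F K V0 T0 y = -y →
      β0.baseChange K (x - a • ((1 : K) ⊗ₜ[F] x₁) - b • ((1 : K) ⊗ₜ[F] x₂)) y = 0 := by
  have main : ∀ x ∈ Submodule.span K {w : K ⊗[F] V0 | ∃ u : V0, T0 u = -u ∧ w = (1 : K) ⊗ₜ[F] u},
      ∃ a b : K, ∀ y ∈ Submodule.span K {w : K ⊗[F] V0 | ∃ u : V0, T0 u = -u ∧ w = (1 : K) ⊗ₜ[F] u},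
        β0.baseChange K (x - a • ((1 : K) ⊗ₜ[F] x₁) - b • ((1 : K) ⊗ₜ[F] x₂)) y = 0 := by
    intro x hmem
    induction hmem using Submodule.span_induction with
    | mem w hw =>
      obtain ⟨u, hu, rfl⟩ := hw
      obtain ⟨i, j, hij⟩ := hr u hu
      refine ⟨-(i : K), -(j : K), ?_⟩
      intro y hy'
      have h1 : (1 : K) ⊗ₜ[F] u - (-(i : K)) • ((1 : K) ⊗ₜ[F] x₁) -
          (-(j : K)) • ((1 : K) ⊗ₜ[F] x₂) = (1 : K) ⊗ₜ[F] (u + i • x₁ + j • x₂) := by
        rw [TensorProduct.tmul_add, TensorProduct.tmul_add, TensorProduct.tmul_smul,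
          TensorProduct.tmul_smul]
        module
      rw [h1]
      induction hy' using Submodule.span_induction with
      | mem w' hw' =>
        obtain ⟨v, hv, rfl⟩ := hw'
        rw [bcForm_one, hij v hv, map_zero]
      | zero => rw [map_zero]
      | add y1 y2 _ _ ih1 ih2 => rw [map_add, ih1, ih2, add_zero]
      | smul c y1 _ ih1 => rw [map_smul, ih1, smul_zero]
    | zero =>
      refine ⟨0, 0, ?_⟩
      intro y hy
      rw [zero_smul, zero_smul, sub_zero, sub_zero, map_zero, LinearMap.zero_apply]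
    | add w1 w2 _ _ ih1 ih2 =>
      obtain ⟨a1, b1, h1⟩ := ih1
      obtain ⟨a2, b2, h3⟩ := ih2
      refine ⟨a1 + a2, b1 + b2, ?_⟩
      intro y hy
      have h4 : w1 + w2 - (a1 + a2) • ((1 : K) ⊗ₜ[F] x₁) - (b1 + b2) • ((1 : K) ⊗ₜ[F] x₂) =
          (w1 - a1 • ((1 : K) ⊗ₜ[F] x₁) - b1 • ((1 : K) ⊗ₜ[F] x₂)) +
          (w2 - a2 • ((1 : K) ⊗ₜ[F] x₁) - b2 • ((1 : K) ⊗ₜ[F] x₂)) := by
        rw [add_smul, add_smul]; abel
      rw [h4, map_add, LinearMap.add_apply, h1 y hy, h3 y hy, add_zero]
    | smul c w1 _ ih1 =>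
      obtain ⟨a1, b1, h1⟩ := ih1
      refine ⟨c * a1, c * b1, ?_⟩
      intro y hy
      have h4 : c • w1 - (c * a1) • ((1 : K) ⊗ₜ[F] x₁) - (c * b1) • ((1 : K) ⊗ₜ[F] x₂) =
          c • (w1 - a1 • ((1 : K) ⊗ₜ[F] x₁) - b1 • ((1 : K) ⊗ₜ[F] x₂)) := by
        rw [smul_sub, smul_sub, smul_smul, smul_smul]
      rw [h4, map_smul, LinearMap.smul_apply, h1 y hy, smul_zero]
  obtain ⟨a, b, hab⟩ := main x (neg_eig_span h2 T0 hT x hx)
  exact ⟨a, b, fun y hy => hab y (neg_eig_span h2 T0 hT y hy)⟩

end BC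

section Lin

variable {M : Type*} [CommGroup M] (q : ℕ) [Module (ZMod q) (Additive M)]

/-- The `ZMod q`-linear map on `Additive M` given by an automorphism of `M`. -/
def autLinHom : MulAut M →* Module.End (ZMod q) (Additive M) where
  toFun a := AddMonoidHom.toZModLinearMap q (MonoidHom.toAdditive a.toMonoidHom)
  map_one' := by
    apply LinearMap.ext; intro v; rfl
  map_mul' := by
    intro a b; apply LinearMap.ext; intro v; rfl

theorem autLinHom_apply (a : MulAut M) (v : Additive M) :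
    autLinHom q a v = Additive.ofMul (a (Additive.toMul v)) := rfl

theorem autLinHom_injective : Function.Injective (autLinHom (M := M) q) := by
  intro a b h
  ext m
  have h1 := congrArg (fun f : Module.End (ZMod q) (Additive M) =>
    Additive.toMul (f (Additive.ofMul m))) h
  exact h1

/-- The `ZMod q`-linear action on `Additive M` given by an action by automorphisms on `M`. -/
def zmodLin {P : Type*} [Group P] (c : P →* MulAut M) : P →* Module.End (ZMod q) (Additive M) :=
  (autLinHom q).comp c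

theorem zmodLin_apply {P : Type*} [Group P] (c : P →* MulAut M) (g : P) :
    zmodLin q c g = autLinHom q (c g) := rfl

end Lin

section BCRep

variable {F : Type*} [Field F] (K : Type*) [Field K] [Algebra F K]
  {V0 : Type*} [AddCommGroup V0] [Module F V0] {P : Type*} [Group P]

/-- Base change of a representation. -/
def bcRep (ρ0 : P →* Module.End F V0) : P →* Module.End K (K ⊗[F] V0) :=
  ((Module.End.baseChangeHom F K V0 : Module.End F V0 →* Module.End K (K ⊗[F] V0))).comp ρ0

theorem bcRep_apply (ρ0 : P →* Module.End F V0) (g : P) :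
    bcRep K ρ0 g = Module.End.baseChangeHom F K V0 (ρ0 g) := rfl

theorem isFpfMod_bcRep (σ : MulAut P) (n : ℕ) (ρ0 : P →* Module.End F V0) (X0 : Module.End F V0)
    (h : IsFpfMod σ n ρ0 X0) :
    IsFpfMod σ n (bcRep K ρ0) (Module.End.baseChangeHom F K V0 X0) :=
  isFpfMod_baseChange σ n ρ0 X0 h

end BCRep

end Cfsg.Agent.H8.Gross
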