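import Mathlib
import Cfsg.Agent.H66.GrossDefs
import Cfsg.Agent.H8.GrossG2B2
import Cfsg.Agent.H8.GrossUABa

/-!
# S3795-UAB (helper8): linearization and base change of forms
-/

set_option autoImplicit false
set_option linter.style.haveILetI false
set_option linter.unusedVariables false
set_option linter.unusedSectionVars false

namespace Cfsg.Agent.H8.Gross

open Cfsg Cfsg.Agent.H66.Gross
open scoped TensorProduct

universe u

/-- S3795-UAB. -/
theorem uab_holds (hU : ULinStatement.{u}) : UAbStatement.{u} := by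
  classical
  intro P _ _ M _ _ q s hq hs hqs hq2 hs2 hP hM c σ φ n hn hσ hφ hcomp hfpf hg
  have hexp' : ∀ a : Additive M, q • a = 0 := fun a =>
    congrArg Additive.ofMul (hM (Additive.toMul a))
  haveI : Module (ZMod q) (Additive M) := AddCommGroup.zmodModule hexp'
  haveI : CharP (AlgebraicClosure (ZMod q)) q :=
    charP_of_injective_algebraMap (algebraMap (ZMod q) (AlgebraicClosure (ZMod q))).injective q
  have h2K : (2 : AlgebraicClosure (ZMod q)) ≠ 0 := by
    intro h2
    have h3 : ((2 : ℕ) : AlgebraicClosure (ZMod q)) = 0 := by exact_mod_cast h2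
    rw [CharP.cast_eq_zero_iff (AlgebraicClosure (ZMod q)) q] at h3
    exact hq2 ((Nat.prime_dvd_prime_iff_eq hq.out Nat.prime_two).mp h3)
  have hsK : (s : AlgebraicClosure (ZMod q)) ≠ 0 := by
    intro h2
    rw [CharP.cast_eq_zero_iff (AlgebraicClosure (ZMod q)) q] at h2
    exact hqs ((Nat.prime_dvd_prime_iff_eq hq.out hs.out).mp h2)
  haveI : Finite (Additive M) := inferInstanceAs (Finite M)
  haveI : Module.Finite (ZMod q) (Additive M) := Module.Finite.of_finite
  have hfpf0 : IsFpfMod σ n (zmodLin (M := M) q c) (autLinHom q φ) := by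
    have hX0 : (autLinHom q φ : Module.End (ZMod q) (Additive M)) ^ (2 ^ n) = 1 := by
      rw [← map_pow, hφ, map_one]
    refine ⟨hσ, hX0, ?_, ?_⟩
    · intro g
      apply LinearMap.ext
      intro v
      exact congrArg Additive.ofMul (hcomp g (Additive.toMul v))
    · intro v hv
      have h1 := hfpf (Additive.toMul v) (congrArg Additive.toMul hv)
      exact congrArg Additive.ofMul h1
  have hfpfK := isFpfMod_bcRep (AlgebraicClosure (ZMod q)) σ n
    (zmodLin (M := M) q c) (autLinHom q φ) hfpf0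
  have hodd : Odd (Nat.card P) := by
    obtain ⟨k, hk⟩ := hP.exists_card_eq
    rw [hk]
    exact Odd.pow (hs.out.odd_of_ne_two hs2)
  have hρ : ∀ g : P, bcRep (AlgebraicClosure (ZMod q)) (zmodLin (M := M) q c) g =
      Module.End.baseChangeHom (ZMod q) (AlgebraicClosure (ZMod q)) (Additive M)
        (autLinHom q (c g)) := fun g => rfl
  have hgK : ∃ g : P, bcRep (AlgebraicClosure (ZMod q)) (zmodLin (M := M) q c)
        ((σ ^ (2 ^ (n - 1))) g) ≠
      bcRep (AlgebraicClosure (ZMod q)) (zmodLin (M := M) q c) g := by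
    obtain ⟨g, hg⟩ := hg
    refine ⟨g, fun h => hg ?_⟩
    rw [hρ, hρ] at h
    exact autLinHom_injective q (baseChangeHom_inj h)
  obtain ⟨z, hz, hzβ⟩ := hU P σ n hn s hP hodd (AlgebraicClosure (ZMod q))
    (AlgebraicClosure (ZMod q) ⊗[ZMod q] Additive M)
    (bcRep (AlgebraicClosure (ZMod q)) (zmodLin (M := M) q c))
    (Module.End.baseChangeHom (ZMod q) (AlgebraicClosure (ZMod q)) (Additive M) (autLinHom q φ))
    hfpfK hsK h2K hgK
  refine ⟨z, ?_, ?_⟩
  · intro hcz
    apply hz
    rw [hρ, hcz, map_one, map_one]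
  · intro β hadd1 hadd2 halt hinv hτ hrank x y
    let β0 : LinearMap.BilinForm (ZMod q) (Additive M) :=
      LinearMap.mk₂ (ZMod q) (fun u v => β (Additive.toMul u) (Additive.toMul v))
        (fun a b v => hadd1 _ _ _)
        (fun r a v => ZMod.map_smul (AddMonoidHom.mk' (fun a : Additive M =>
          β (Additive.toMul a) (Additive.toMul v)) (fun a b => hadd1 _ _ _)) r a)
        (fun a v w => hadd2 _ _ _)
        (fun r a v => ZMod.map_smul (AddMonoidHom.mk' (fun v : Additive M =>
          β (Additive.toMul a) (Additive.toMul v)) (fun v w => hadd2 _ _ _)) r v)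
    have hβ0 : ∀ u v, β0 u v = β (Additive.toMul u) (Additive.toMul v) := fun u v => rfl
    have hXpow : (Module.End.baseChangeHom (ZMod q) (AlgebraicClosure (ZMod q)) (Additive M)
        (autLinHom q φ)) ^ (2 ^ (n - 1)) =
        Module.End.baseChangeHom (ZMod q) (AlgebraicClosure (ZMod q)) (Additive M)
          (autLinHom q (φ ^ (2 ^ (n - 1)))) := by
      rw [← map_pow, ← map_pow]
    have hT0 : autLinHom (M := M) q (φ ^ (2 ^ (n - 1))) * autLinHom q (φ ^ (2 ^ (n - 1))) = 1 := by
      rw [← map_mul, ← pow_add]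
      have h1 : 2 ^ (n - 1) + 2 ^ (n - 1) = 2 ^ n := by
        obtain ⟨k, rfl⟩ : ∃ k, n = k + 1 := ⟨n - 1, by omega⟩
        rw [Nat.add_sub_cancel, pow_succ]
        ring
      rw [h1, hφ, map_one]
    have hadm : IsAdmForm n
        (bcRep (AlgebraicClosure (ZMod q)) (zmodLin (M := M) q c))
        (Module.End.baseChangeHom (ZMod q) (AlgebraicClosure (ZMod q)) (Additive M)
          (autLinHom q φ))
        (β0.baseChange (AlgebraicClosure (ZMod q))) := by
      refine ⟨?_, ?_, ?_, ?_⟩
      · exact bcForm_alt h2K β0 (fun u => halt _)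
      · intro g x' y'
        rw [hρ]
        exact bcForm_inv β0 (autLinHom q (c g)) (fun u v => hinv g _ _) x' y'
      · intro x' y'
        rw [hXpow]
        exact bcForm_inv β0 (autLinHom q (φ ^ (2 ^ (n - 1)))) (fun u v => hτ _ _) x' y'
      · obtain ⟨x₁, x₂, hr⟩ := hrank
        refine ⟨(1 : AlgebraicClosure (ZMod q)) ⊗ₜ[ZMod q] Additive.ofMul x₁,
          (1 : AlgebraicClosure (ZMod q)) ⊗ₜ[ZMod q] Additive.ofMul x₂, ?_⟩
        rw [hXpow]
        intro x' hx'
        refine bcForm_rank h2K β0 (autLinHom q (φ ^ (2 ^ (n - 1)))) hT0 (Additive.ofMul x₁)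
          (Additive.ofMul x₂) ?_ x' hx'
        intro u hu
        obtain ⟨i, j, hij⟩ := hr (Additive.toMul u) (congrArg Additive.toMul hu)
        exact ⟨i, j, fun v hv => hij (Additive.toMul v) (congrArg Additive.toMul hv)⟩
    have h := hzβ (β0.baseChange (AlgebraicClosure (ZMod q))) hadm
      ((1 : AlgebraicClosure (ZMod q)) ⊗ₜ[ZMod q] Additive.ofMul x)
      ((1 : AlgebraicClosure (ZMod q)) ⊗ₜ[ZMod q] Additive.ofMul y)
    rw [hρ, bc_one_tmul, ← TensorProduct.tmul_sub, bcForm_one] at h
    have h1 : β0 (autLinHom q (c z) (Additive.ofMul x) - Additive.ofMul x) (Additive.ofMul y) = 0 :=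
      (algebraMap (ZMod q) (AlgebraicClosure (ZMod q))).injective (by rw [h, map_zero])
    have h3 : autLinHom q (c z) (Additive.ofMul x) - Additive.ofMul x =
        Additive.ofMul (c z x * x⁻¹) := by
      rw [← div_eq_mul_inv]
      rfl
    rw [h3] at h1
    exact h1

example (hU : ULinStatement.{u}) : UAbStatement.{u} := uab_holds hU

end Cfsg.Agent.H8.Gross
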