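import Mathlib
import Cfsg.Agent.H66.GrossDefs

/-!
# S3795-ULIN (helper8): assembly of the linear upper bound
-/

set_option autoImplicit false
set_option linter.style.haveILetI false
set_option linter.unusedVariables false
set_option linter.unusedSectionVars false

namespace Cfsg.Agent.H8.Gross

open Cfsg Cfsg.Agent.H66.Gross
open scoped commutatorElement

universe u

/-- S3795-ULIN. -/
theorem ulin_holds (hA : ULinAStatement.{u}) (hB : ULinBStatement.{u})
    (hSpan : SpanStatement.{u}) : ULinStatement.{u} := by
  classical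
  intro P _ _ σ n hn s hsp hP hodd K _ _ V _ _ _ ρ X hfpf hs h2 hg
  obtain ⟨S, D, hD, hSσ, hDσ, hinv, hcomm, hτ, z, hz, hzne⟩ :=
    hA P σ n hn s hP hodd K V ρ X hfpf hs hg
  refine ⟨z, hzne, ?_⟩
  intro β hβ
  have hDS : D ≤ S := by
    rw [hD, Subgroup.commutator_le]
    intro a ha b hb
    rw [commutatorElement_def]
    exact S.mul_mem (S.mul_mem (S.mul_mem ha hb) (S.inv_mem ha)) (S.inv_mem hb)
  have hcommD : ∀ a ∈ D, ∀ b ∈ D, ρ a * ρ b = ρ b * ρ a :=
    fun a ha b hb => hcomm a ha b (hDS hb)
  have hcard : (Nat.card D : K) ≠ 0 := by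
    obtain ⟨k, hk⟩ := (hP.to_subgroup D).exists_card_eq
    rw [hk, Nat.cast_pow]
    exact pow_ne_zero k hs
  have hspan := hSpan P K V ρ D hcard hcommD
  let Wz : Submodule K V :=
    { carrier := {x | ∀ y, β (ρ z x - x) y = 0}
      add_mem' := by
        intro a b ha hb y
        have h1 : ρ z (a + b) - (a + b) = (ρ z a - a) + (ρ z b - b) := by
          rw [map_add]; abel
        rw [h1, map_add, LinearMap.add_apply, ha y, hb y, add_zero]
      zero_mem' := by
        intro y
        rw [map_zero, sub_zero, map_zero, LinearMap.zero_apply]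
      smul_mem' := by
        intro c a ha y
        have h1 : ρ z (c • a) - c • a = c • (ρ z a - a) := by
          rw [map_smul, smul_sub]
        rw [h1, map_smul, LinearMap.smul_apply, ha y, smul_zero] }
  have hle : Submodule.span K {v : V | ∀ d ∈ D, ∃ c : K, ρ d v = c • v} ≤ Wz := by
    rw [Submodule.span_le]
    intro v hv
    let χ : P → K := fun d => if h : ∃ c : K, ρ d v = c • v then Classical.choose h else 0
    have hχ : ∀ d ∈ D, ρ d v = χ d • v := by
      intro d hd
      have h := hv d hd
      show ρ d v = (if h : ∃ c : K, ρ d v = c • v then Classical.choose h else 0) • v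
      rw [dif_pos h]
      exact Classical.choose_spec h
    intro y
    have h1 : ρ z v - v = (χ z - 1) • v := by rw [hχ z hz, sub_smul, one_smul]
    rw [h1, map_smul, LinearMap.smul_apply]
    by_cases hχz : χ z = 1
    · rw [hχz, sub_self, zero_smul]
    · have h3 := hB P σ n hn s hP hodd K V ρ X hfpf hs h2 S D hD hSσ hDσ hinv hcomm hτ β hβ χ v
        hχ ⟨z, hz, hχz⟩ y
      rw [h3, smul_zero]
  intro x y
  have hx : x ∈ Wz := hle (by rw [hspan]; exact Submodule.mem_top)
  exact hx y

example (hA : ULinAStatement.{u}) (hB : ULinBStatement.{u})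
    (hSpan : SpanStatement.{u}) : ULinStatement.{u} := ulin_holds hA hB hSpan

end Cfsg.Agent.H8.Gross
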