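import Mathlib
import Cfsg.Agent.H86.GsDefs

/-!
# GS-HEIS (helper8 for helper86, S5665)

The Heisenberg formula `n c n⁻¹ c⁻¹ = spS z (p - c p) (f p (c p))`.
-/

set_option autoImplicit false

namespace Cfsg.Agent.H8.Gs

open Cfsg Cfsg.Geo Cfsg.Agent.H95 Cfsg.Agent.H86.Gs
open scoped MatrixGroups Matrix

universe u

theorem gsHeis : StHeis.{u} := by
  intro m F _ p a z c n hc hn hpa hzp hza hcx hcp hca hnp hna x
  obtain ⟨r1, s1, hcp⟩ := hcp
  obtain ⟨r2, s2, hca⟩ := hca
  have hcs : ∀ u v : V m F, sympForm m F ((c : Mat m F) *ᵥ u) ((c : Mat m F) *ᵥ v) =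
      sympForm m F u v := (mem_spGL_iff c).mp hc
  have hap : sympForm m F a p = -1 := by rw [sympForm_skew, hpa]
  have hpz : sympForm m F p z = 0 := by rw [sympForm_skew, hzp, neg_zero]
  have haz : sympForm m F a z = 0 := by rw [sympForm_skew, hza, neg_zero]
  have key : ∀ y : V m F, (n : Mat m F) *ᵥ ((c : Mat m F) *ᵥ
      (((n⁻¹ : GL (Fin m ⊕ Fin m) F) : Mat m F) *ᵥ y)) =
      spS z (p - (c : Mat m F) *ᵥ p) (sympForm m F p ((c : Mat m F) *ᵥ p))
        ((c : Mat m F) *ᵥ y) := by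
    intro y
    have h1 : (n : Mat m F) *ᵥ (((n⁻¹ : GL (Fin m ⊕ Fin m) F) : Mat m F) *ᵥ y) = y := by
      rw [Matrix.mulVec_mulVec, ← Units.val_mul, mul_inv_cancel, Units.val_one,
        Matrix.one_mulVec]
    have h2 : sympForm m F (((n⁻¹ : GL (Fin m ⊕ Fin m) F) : Mat m F) *ᵥ y) a =
        sympForm m F y a - sympForm m F y z := by
      rw [spGL_inv_form hn, hna, sympForm_sub_right]
    have h3 : sympForm m F (((n⁻¹ : GL (Fin m ⊕ Fin m) F) : Mat m F) *ᵥ y) p =
        sympForm m F y p := by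
      rw [spGL_inv_form hn, hnp]
    have hR1 : sympForm m F ((c : Mat m F) *ᵥ y) z = sympForm m F y z := by
      rw [hcx y, hcp, hca]
      simp only [sympForm_add_left, sympForm_sub_left, sympForm_smul_left, hpz, haz]
      ring
    have hR2 : sympForm m F ((c : Mat m F) *ᵥ y) (p - (c : Mat m F) *ᵥ p) =
        -s1 * sympForm m F y a + (s2 - 1) * sympForm m F y p := by
      rw [sympForm_sub_right, hcs y p, hcx y, hcp, hca]
      simp only [sympForm_add_left, sympForm_sub_left, sympForm_smul_left, sympForm_self, hap]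
      ring
    have hR3 : sympForm m F p ((c : Mat m F) *ᵥ p) = s1 := by
      rw [hcp]
      simp only [sympForm_add_right, sympForm_smul_right, sympForm_self, hpa]
      ring
    rw [hcx (((n⁻¹ : GL (Fin m ⊕ Fin m) F) : Mat m F) *ᵥ y), h2, h3]
    unfold spS
    rw [hR1, hR2, hR3, hcx y, hcp, hca]
    simp only [Matrix.mulVec_add, Matrix.mulVec_sub, Matrix.mulVec_smul, h1, hnp, hna]
    module
  have hx : (c : Mat m F) *ᵥ (((c⁻¹ : GL (Fin m ⊕ Fin m) F) : Mat m F) *ᵥ x) = x := by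
    rw [Matrix.mulVec_mulVec, ← Units.val_mul, mul_inv_cancel, Units.val_one, Matrix.one_mulVec]
  have h := key (((c⁻¹ : GL (Fin m ⊕ Fin m) F) : Mat m F) *ᵥ x)
  rw [hx] at h
  rw [← h]
  simp only [Units.val_mul, Matrix.mulVec_mulVec, Matrix.mul_assoc]

example : Cfsg.Agent.H86.Gs.StHeis.{u} := gsHeis

end Cfsg.Agent.H8.Gs
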