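import Mathlib
import Cfsg.Agent.H86.GsDefs

/-!
# GS-NORM (helper8 for helper86, S5665)

`g J g⁻¹ ∈ K` and `g⁻¹ J g ∈ K` put `g` in the normaliser of `K = F + F J`.
-/

set_option autoImplicit false

namespace Cfsg.Agent.H8.Gs

open Cfsg Cfsg.Geo Cfsg.Agent.H95 Cfsg.Agent.H86.Gs
open scoped MatrixGroups Matrix

universe u

theorem gsNorm : StNorm.{u} := by
  intro m F _ K J hK g h1 h2
  show ∀ k : Mat m F, k ∈ K ↔
    (g : Mat m F) * k * ((g⁻¹ : GL (Fin m ⊕ Fin m) F) : Mat m F) ∈ K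
  have hgg : (g : Mat m F) * ((g⁻¹ : GL (Fin m ⊕ Fin m) F) : Mat m F) = 1 := by
    rw [← Units.val_mul, mul_inv_cancel, Units.val_one]
  have hgg' : ((g⁻¹ : GL (Fin m ⊕ Fin m) F) : Mat m F) * (g : Mat m F) = 1 := by
    rw [← Units.val_mul, inv_mul_cancel, Units.val_one]
  intro k
  constructor
  · intro hk
    obtain ⟨a, b, rfl⟩ := (hK k).mp hk
    have h3 : (g : Mat m F) * (a • (1 : Mat m F) + b • J) *
        ((g⁻¹ : GL (Fin m ⊕ Fin m) F) : Mat m F) =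
        a • (1 : Mat m F) +
          b • ((g : Mat m F) * J * ((g⁻¹ : GL (Fin m ⊕ Fin m) F) : Mat m F)) := by
      rw [Matrix.mul_add, Matrix.add_mul, Matrix.mul_smul, Matrix.smul_mul, Matrix.mul_one, hgg,
        Matrix.mul_smul, Matrix.smul_mul]
    rw [h3]
    exact K.add_mem (K.smul_mem K.one_mem a) (K.smul_mem h1 b)
  · intro hk
    obtain ⟨a, b, hab⟩ := (hK _).mp hk
    have h3 : k = ((g⁻¹ : GL (Fin m ⊕ Fin m) F) : Mat m F) *
        ((g : Mat m F) * k * ((g⁻¹ : GL (Fin m ⊕ Fin m) F) : Mat m F)) * (g : Mat m F) := by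
      rw [← Matrix.mul_assoc, ← Matrix.mul_assoc, hgg', Matrix.one_mul, Matrix.mul_assoc, hgg',
        Matrix.mul_one]
    have h4 : k = a • (1 : Mat m F) +
        b • (((g⁻¹ : GL (Fin m ⊕ Fin m) F) : Mat m F) * J * (g : Mat m F)) := by
      rw [h3, hab, Matrix.mul_add, Matrix.add_mul, Matrix.mul_smul, Matrix.smul_mul,
        Matrix.mul_one, hgg', Matrix.mul_smul, Matrix.smul_mul]
    rw [h4]
    exact K.add_mem (K.smul_mem K.one_mem a) (K.smul_mem h2 b)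

example : Cfsg.Agent.H86.Gs.StNorm.{u} := gsNorm

end Cfsg.Agent.H8.Gs
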