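import Mathlib
import Cfsg.Agent.H26.P2Defs
import Cfsg.Agent.H83.Basic
import Cfsg.Agent.H82.Irr

/-!
# P2-ODD (helper8 for helper26, S4705)

`χ` vanishes on the non-central `p`-regular elements of odd order.
Proof: for `u` in `⟨y⟩` the key identity and `u ^ s = u ^ 2` give `χ(u)² = (p - 2) χ(u²)`.  With
`a k = |χ(y^(2^k))|` and `d = p - 2 = χ(1)` this reads `a k ^ 2 = d * a (k+1)`; `a k < d` since
`y ^ (2^k)` is not central; so `a` is non-increasing, strictly at `0` unless `a 0 = 0`; and `a` is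
periodic because `2` is a unit modulo the (odd) order of `y`.
-/

set_option autoImplicit false

namespace Cfsg.Agent.H8.P2

open Cfsg Cfsg.Agent.H26.P2
open scoped ComplexConjugate

universe u

theorem odd : StOdd.{u} := by
  intro G _ _ p _ P χ μ s hH hE y hyodd hyp hyZ
  have hp5 := hH.hp5
  have hχ := hH.irr
  have h1 : χ 1 = ((charDegree χ : ℕ) : ℂ) := Cfsg.Agent.H82.irr_one_eq_charDegree ⟨χ, hχ⟩
  have hdeg := hH.deg
  obtain ⟨d, hd⟩ : ∃ d : ℝ, d = (p : ℝ) - 2 := ⟨_, rfl⟩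
  have hd3 : 3 < d := by
    rw [hd]
    have : (5 : ℝ) < p := by exact_mod_cast hp5
    linarith
  have hd' : (charDegree χ : ℝ) = d := by
    have : (charDegree χ : ℝ) + 2 = p := by exact_mod_cast hdeg
    rw [hd]; linarith
  have h1n : ‖χ 1‖ = d := by
    rw [h1, Complex.norm_natCast, hd']
  have hnorm : ∀ h : G, ‖χ h‖ ≤ d := fun h =>
    h1n ▸ Cfsg.Agent.H83.IsIrrCharacter.norm_le hχ h
  obtain ⟨a, ha⟩ : ∃ a : ℕ → ℝ, ∀ k, a k = ‖χ (y ^ (2 ^ k))‖ := ⟨_, fun _ => rfl⟩
  have hrec : ∀ k, a k ^ 2 = d * a (k + 1) := by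
    intro k
    have ho : orderOf (y ^ (2 ^ k)) ∣ orderOf y := orderOf_pow_dvd _
    have hodd' : Odd (orderOf (y ^ (2 ^ k))) := hyodd.of_dvd_nat ho
    have hp' : ¬ p ∣ orderOf (y ^ (2 ^ k)) := fun h => hyp (h.trans ho)
    have hE1 := hE (y ^ (2 ^ k)) hp'
    rw [hH.sOdd _ hodd' hp'] at hE1
    have hsq : y ^ (2 ^ k) * y ^ (2 ^ k) = y ^ (2 ^ (k + 1)) := by
      rw [← pow_add]; congr 1; ring
    have hsq2 : (y ^ (2 ^ k)) ^ 2 = y ^ (2 ^ (k + 1)) := by rw [sq, hsq]
    rw [hsq, hsq2] at hE1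
    have h3 : χ (y ^ (2 ^ k)) ^ 2 = ((p : ℂ) - 2) * χ (y ^ (2 ^ (k + 1))) := by
      linear_combination hE1
    have h4 := congrArg norm h3
    rw [norm_pow, norm_mul] at h4
    have h5 : ‖(p : ℂ) - 2‖ = d := by
      have h6 : ((p : ℂ) - 2) = ((d : ℝ) : ℂ) := by rw [hd]; push_cast; ring
      rw [h6, Complex.norm_real, Real.norm_eq_abs, abs_of_pos (by linarith)]
    rw [h5] at h4
    rw [ha k, ha (k + 1)]
    exact h4
  have hlt : ∀ k, a k < d := by
    intro k
    rcases lt_or_eq_of_le (hnorm (y ^ (2 ^ k))) with h | h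
    · rw [ha k]; exact h
    · exfalso
      apply hyZ
      have hz : y ^ (2 ^ k) ∈ Subgroup.center G := by
        apply hH.scal
        rw [Complex.mul_conj, Complex.normSq_eq_norm_sq, h, h1, ← hd']
        push_cast; ring
      have hcop : Nat.Coprime (2 ^ k) (orderOf y) :=
        Nat.Coprime.pow_left k hyodd.coprime_two_left
      obtain ⟨m, hm⟩ := exists_pow_eq_self_of_coprime hcop
      rw [← hm]; exact Subgroup.pow_mem _ hz m
  have hnn : ∀ k, 0 ≤ a k := fun k => by rw [ha k]; exact norm_nonneg _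
  have hanti : ∀ k, a (k + 1) ≤ a k := by
    intro k
    have h2 := hrec k
    have h3 := hlt k
    have h4 := hnn k
    have h5 := hnn (k + 1)
    nlinarith
  have hstrict : 0 < a 0 → a 1 < a 0 := by
    intro h0
    have h2 := hrec 0
    have h3 := hlt 0
    have h5 := hnn 1
    nlinarith
  have hmono : ∀ k, a (k + 1) ≤ a 1 := by
    intro k
    induction k with
    | zero => exact le_refl _
    | succ k ih => exact (hanti (k + 1)).trans ih
  have hper : ∃ e, y ^ (2 ^ (e + 1)) = y := by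
    have hn : 0 < orderOf y := orderOf_pos y
    have hcop : Nat.Coprime 2 (orderOf y) := hyodd.coprime_two_left
    have h := Nat.ModEq.pow_totient hcop
    have hpos := Nat.totient_pos.mpr hn
    obtain ⟨e, he⟩ := Nat.exists_eq_succ_of_ne_zero hpos.ne'
    refine ⟨e, ?_⟩
    have h2 : y ^ (2 ^ (e + 1)) = y ^ 1 := by
      rw [pow_eq_pow_iff_modEq, ← Nat.succ_eq_add_one, ← he]
      exact h
    rw [h2, pow_one]
  obtain ⟨e, he⟩ := hper
  have hae : a (e + 1) = a 0 := by
    rw [ha (e + 1), ha 0, he]; simp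
  have ha0 : a 0 = 0 := by
    by_contra hne
    have hpos : 0 < a 0 := lt_of_le_of_ne (hnn 0) (Ne.symm hne)
    have h2 := hstrict hpos
    have h3 := hmono e
    linarith
  have h0 : ‖χ y‖ = 0 := by
    have := ha 0
    rw [ha0] at this
    simpa using this.symm
  exact norm_eq_zero.mp h0

example : ∀ {G : Type u} [Group G] [Finite G] (p : ℕ) [Fact p.Prime] (P : Sylow p G) (χ : G → ℂ)
    (μ : ↥(P : Subgroup G) →* ℂˣ) (s : ℕ), Hyp p P χ μ s → E1 p χ s → OddC p χ := odd.{u}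

end Cfsg.Agent.H8.P2
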