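import Mathlib
import Cfsg.Agent.H26.P2Defs
import Cfsg.Agent.H16.FTBChar

/-!
# P2-PW (helper8 for helper26, S4705)

`|χ| = 1` on the elements that are involutions modulo the centre, and `χ = 0` on the `p`-regular
elements whose square is not central.
Proof: write `y = t w`, `t` the `2`-part and `w` the odd part of `y` (both powers of `y`).
-/

set_option autoImplicit false

namespace Cfsg.Agent.H8.P2

open Cfsg Cfsg.Agent.H26.P2
open scoped ComplexConjugate

universe u

/-- Decomposition of an element of a finite group into its `2`-part and its odd part. -/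
theorem two_odd_decomp {G : Type*} [Group G] [Finite G] (y : G) :
    ∃ (t w : G) (i : ℕ), y = t * w ∧ t * w = w * t ∧ t ^ (2 ^ i) = 1 ∧ Odd (orderOf w) ∧
      t ∈ Subgroup.zpowers y ∧ w ∈ Subgroup.zpowers y := by
  have hn : orderOf y ≠ 0 := (orderOf_pos y).ne'
  obtain ⟨a, m, hm, hnm⟩ := Nat.exists_eq_two_pow_mul_odd hn
  have hcop : Nat.Coprime (2 ^ a) m := Nat.Coprime.pow_left a hm.coprime_two_left
  have hb := Nat.gcd_eq_gcd_ab (2 ^ a) m
  rw [hcop.gcd_eq_one] at hb
  refine ⟨y ^ ((m : ℤ) * Nat.gcdB (2 ^ a) m), y ^ (((2 ^ a : ℕ) : ℤ) * Nat.gcdA (2 ^ a) m), a,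
    ?_, ?_, ?_, ?_, ?_, ?_⟩
  · rw [← zpow_add, add_comm, ← hb]; simp
  · rw [← zpow_add, ← zpow_add, add_comm]
  · rw [← zpow_natCast, ← zpow_mul]
    have h1 : (m : ℤ) * Nat.gcdB (2 ^ a) m * ((2 ^ a : ℕ) : ℤ) =
        ((orderOf y : ℕ) : ℤ) * Nat.gcdB (2 ^ a) m := by
      rw [hnm]; push_cast; ring
    rw [h1, zpow_mul, zpow_natCast, pow_orderOf_eq_one, one_zpow]
  · apply hm.of_dvd_nat
    apply orderOf_dvd_of_pow_eq_one
    rw [← zpow_natCast, ← zpow_mul]
    have h1 : ((2 ^ a : ℕ) : ℤ) * Nat.gcdA (2 ^ a) m * (m : ℤ) =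
        ((orderOf y : ℕ) : ℤ) * Nat.gcdA (2 ^ a) m := by
      rw [hnm]; push_cast; ring
    rw [h1, zpow_mul, zpow_natCast, pow_orderOf_eq_one, one_zpow]
  · exact ⟨_, rfl⟩
  · exact ⟨_, rfl⟩

theorem pw : StPW.{u} := by
  intro G _ _ p _ P χ μ s hH hO hA hB hM
  have hχ := hH.irr
  have hcs : ∀ z ∈ Subgroup.center G, ∃ c : ℂ, ‖c‖ = 1 ∧ ∀ g, χ (z * g) = c * χ g :=
    fun z hz => Cfsg.Agent.H16.irr_central_scalar hχ hz
  have hoddsq : ∀ w : G, Odd (orderOf w) → w * w ∈ Subgroup.center G →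
      w ∈ Subgroup.center G := by
    intro w hw hww
    obtain ⟨k, hk⟩ := hw
    have h1 : w = (w * w) ^ (k + 1) := by
      rw [← sq, ← pow_mul]
      have h2 : 2 * (k + 1) = orderOf w + 1 := by omega
      rw [h2, pow_succ, pow_orderOf_eq_one, one_mul]
    rw [h1]; exact Subgroup.pow_mem _ hww _
  constructor
  · intro y hyZ hyy
    obtain ⟨t, w, i, hy, hcomm, ht, hw, htz, hwz⟩ := two_odd_decomp y
    have hww : w * w ∈ Subgroup.center G := by
      obtain ⟨N, hN⟩ := Subgroup.mem_zpowers_iff.mp hwz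
      have h1 : w * w = (y * y) ^ N := by
        rw [← hN, (Commute.refl y).mul_zpow N]
      rw [h1]; exact Subgroup.zpow_mem _ hyy _
    have hwZ := hoddsq w hw hww
    have htZ : t ∉ Subgroup.center G := by
      intro h
      apply hyZ; rw [hy]; exact Subgroup.mul_mem _ h hwZ
    have htt := hB t i ht
    have hχt := hA t i ht htZ htt
    obtain ⟨c, hc1, hc⟩ := hcs w hwZ
    have h2 : χ y = c * (-1) := by
      rw [hy, hcomm, hc, hχt]
    rw [h2, Complex.mul_conj, Complex.normSq_eq_norm_sq]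
    simp [hc1]
  · intro y hyp hyy
    obtain ⟨t, w, i, hy, hcomm, ht, hw, htz, hwz⟩ := two_odd_decomp y
    have hwp : ¬ p ∣ orderOf w := fun h => hyp (h.trans (orderOf_dvd_of_mem_zpowers hwz))
    by_cases htZ : t ∈ Subgroup.center G
    · have hwZ : w ∉ Subgroup.center G := by
        intro h
        apply hyy
        have h1 : y ∈ Subgroup.center G := by rw [hy]; exact Subgroup.mul_mem _ htZ h
        exact Subgroup.mul_mem _ h1 h1
      obtain ⟨c, hc1, hc⟩ := hcs t htZ
      rw [hy, hc, hO w hw hwp hwZ, mul_zero]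
    · exfalso
      apply hyy
      have hwZ := hM t w i ht htZ hw hwp hcomm
      have htt := hB t i ht
      have h1 : y * y = (t * t) * (w * w) := by
        rw [hy]
        calc t * w * (t * w) = t * (w * t) * w := by group
          _ = t * (t * w) * w := by rw [← hcomm]
          _ = t * t * (w * w) := by group
      rw [h1]
      exact Subgroup.mul_mem _ htt (Subgroup.mul_mem _ hwZ hwZ)

example : ∀ {G : Type u} [Group G] [Finite G] (p : ℕ) [Fact p.Prime] (P : Sylow p G) (χ : G → ℂ)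
    (μ : ↥(P : Subgroup G) →* ℂˣ) (s : ℕ), Hyp p P χ μ s → OddC p χ → TwoA χ → TwoB G →
      MixC G p → PwA χ ∧ PwB p χ := pw.{u}

end Cfsg.Agent.H8.P2
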