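import Mathlib
import Cfsg.Agent.H26.P2Defs
import Cfsg.Agent.H83.Basic

/-!
# P2-SCAL (helper8 for helper26, S4705)

For a faithful irreducible character, `|χ(g)| = χ(1)` forces `g` central.
Proof: the functional equation `∑ x, χ (x g x⁻¹ g⁻¹) = |G| χ(g) χ(g⁻¹) / χ(1) = |G| χ(1)`,
and every summand has real part at most `χ(1)`; so every commutator `x g x⁻¹ g⁻¹` lies in the
kernel of `χ`, which is trivial.
-/

set_option autoImplicit false

namespace Cfsg.Agent.H8.P2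

open Cfsg Cfsg.Agent.H26.P2
open scoped ComplexConjugate

universe u

theorem eq_of_re_eq_of_norm_le' {z : ℂ} {r : ℝ} (h1 : z.re = r) (h2 : ‖z‖ ≤ r) :
    z = (r : ℂ) := by
  have h3 : ‖z‖ ^ 2 = z.re ^ 2 + z.im ^ 2 := by
    rw [Complex.sq_norm, Complex.normSq_apply]; ring
  have h4 : ‖z‖ ^ 2 ≤ r ^ 2 := by
    have := norm_nonneg z
    nlinarith
  have h5 : z.im = 0 := by
    have h6 : z.im ^ 2 ≤ 0 := by rw [h1] at h3; linarith
    have h7 : z.im ^ 2 = 0 := le_antisymm h6 (sq_nonneg _)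
    exact pow_eq_zero_iff (by norm_num) |>.mp h7
  apply Complex.ext
  · simp [h1]
  · simp [h5]

theorem scal : StScal.{u} := by
  intro G _ _ χ hχ hf g hg
  classical
  haveI := Fintype.ofFinite G
  have hnorm := fun h => Cfsg.Agent.H83.IsIrrCharacter.norm_le hχ h
  have hinv := Cfsg.Agent.H83.IsIrrCharacter.inv_eq_conj hχ g
  have hsum := Cfsg.Agent.H83.irr_sum_conj_mul hχ g g⁻¹
  obtain ⟨n, hn⟩ : ∃ n : ℕ, χ 1 = (n : ℂ) := by
    obtain ⟨n, ρ, _, rfl⟩ := hχ
    exact ⟨n, by simp [Representation.char_one]⟩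
  by_cases h0 : χ 1 = 0
  · have hg1 : g = 1 := by
      apply hf
      have h1 := hnorm g
      rw [h0, norm_zero] at h1
      rw [h0]; exact norm_le_zero_iff.mp h1
    rw [hg1]; exact Subgroup.one_mem _
  · have hsum' : ∑ x : G, χ (x * g * x⁻¹ * g⁻¹) = (Nat.card G : ℂ) * χ 1 := by
      rw [hsum, hinv, mul_assoc, hg]
      field_simp
    have hn1 : ‖χ 1‖ = (n : ℝ) := by rw [hn]; simp
    have hterm : ∀ x : G, 0 ≤ (n : ℝ) - (χ (x * g * x⁻¹ * g⁻¹)).re := by
      intro x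
      have h1 := hnorm (x * g * x⁻¹ * g⁻¹)
      have h2 := Complex.re_le_norm (χ (x * g * x⁻¹ * g⁻¹))
      rw [hn1] at h1
      linarith
    have hzero : ∑ x : G, ((n : ℝ) - (χ (x * g * x⁻¹ * g⁻¹)).re) = 0 := by
      rw [Finset.sum_sub_distrib, ← Complex.re_sum, hsum', hn]
      simp [Nat.card_eq_fintype_card]
    have hall := (Finset.sum_eq_zero_iff_of_nonneg (fun x _ => hterm x)).mp hzero
    rw [Subgroup.mem_center_iff]
    intro x
    have hx := hall x (Finset.mem_univ x)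
    have h1 := hnorm (x * g * x⁻¹ * g⁻¹)
    rw [hn1] at h1
    have h2 : χ (x * g * x⁻¹ * g⁻¹) = ((n : ℝ) : ℂ) :=
      eq_of_re_eq_of_norm_le' (by linarith) h1
    have h3 : x * g * x⁻¹ * g⁻¹ = 1 := by
      apply hf
      rw [h2, hn]; simp
    calc x * g = x * g * x⁻¹ * g⁻¹ * (g * x) := by group
      _ = g * x := by rw [h3, one_mul]

example : ∀ {G : Type u} [Group G] [Finite G] (χ : G → ℂ), IsIrrCharacter G χ →
    (∀ g : G, χ g = χ 1 → g = 1) →
    ∀ g : G, χ g * conj (χ g) = χ 1 * χ 1 → g ∈ Subgroup.center G := scal.{u}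

end Cfsg.Agent.H8.P2
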