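import Mathlib
import Cfsg.Agent.H8.Burnside

/-!
# S4707-D4 (helper8): `∑_g fix(g)^3 = 5 |G|` for a 3-transitive group
-/

set_option autoImplicit false

namespace Cfsg.Agent.H8.PD

open Equiv MulAction

/-- The embeddings `Fin n ↪ Ω` fixed by `g` are the embeddings into the fixed points of `g`. -/
theorem card_fixedBy_emb {G Ω : Type*} [Group G] [MulAction G Ω] [Finite Ω] (n : ℕ) (g : G) :
    Nat.card (fixedBy (Fin n ↪ Ω) g) = (Nat.card (fixedBy Ω g)).descFactorial n := by
  classical
  haveI : Fintype Ω := Fintype.ofFinite Ω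
  have e : fixedBy (Fin n ↪ Ω) g ≃ (Fin n ↪ fixedBy Ω g) :=
    { toFun := fun f => ⟨fun i => ⟨f.1 i, by
          have h := f.2
          rw [mem_fixedBy] at h ⊢
          have h1 := congrArg (fun e : Fin n ↪ Ω => e i) h
          simpa [Function.Embedding.smul_apply] using h1⟩,
        fun i j hij => f.1.injective (congrArg Subtype.val hij)⟩
      invFun := fun f => ⟨⟨fun i => (f i : Ω), fun i j hij => f.injective (Subtype.ext hij)⟩, by
          rw [mem_fixedBy]
          ext i
          rw [Function.Embedding.smul_apply]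
          exact (f i).2⟩
      left_inv := fun f => Subtype.ext (Function.Embedding.ext fun i => rfl)
      right_inv := fun f => Function.Embedding.ext fun i => rfl }
  rw [Nat.card_congr e, Nat.card_eq_fintype_card, Fintype.card_embedding_eq, Fintype.card_fin,
    Nat.card_eq_fintype_card]

/-- Burnside for an `n`-transitive action: `∑_g fix(g)(fix(g)-1)⋯(fix(g)-n+1) = |G|`. -/
theorem sum_descFactorial {G Ω : Type*} [Group G] [MulAction G Ω] [Fintype G] [Finite Ω] (n : ℕ)
    (h : IsMultiplyPretransitive G Ω n) (hn : n ≤ Nat.card Ω) :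
    ∑ g : G, (Nat.card (fixedBy Ω g)).descFactorial n = Nat.card G := by
  classical
  haveI : Fintype Ω := Fintype.ofFinite Ω
  haveI : Nonempty (Fin n ↪ Ω) := by
    apply Function.Embedding.nonempty_of_card_le
    rw [Fintype.card_fin, ← Nat.card_eq_fintype_card]
    exact hn
  haveI : IsPretransitive G (Fin n ↪ Ω) := h
  have h1 := Cfsg.Agent.H8.sum_fixedBy_pretransitive (G := G) (Ω := Fin n ↪ Ω)
  rw [← h1]
  exact Finset.sum_congr rfl (fun g _ => (card_fixedBy_emb n g).symm)

theorem cube_eq_descFactorial (x : ℕ) :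
    x ^ 3 = x.descFactorial 1 + 3 * x.descFactorial 2 + x.descFactorial 3 := by
  rcases x with _ | _ | _ | x
  · decide
  · decide
  · decide
  · simp only [Nat.descFactorial]
    have h1 : x + 1 + 1 + 1 - 2 = x + 1 := by omega
    have h2 : x + 1 + 1 + 1 - 1 = x + 2 := by omega
    rw [h1, h2]
    simp only [Nat.sub_zero]
    ring

/-- S4707-D4. -/
theorem sum_fixedBy_cube {G Ω : Type*} [Group G] [MulAction G Ω] [Fintype G] [Finite Ω]
    (h3 : IsMultiplyPretransitive G Ω 3) (hΩ : 3 ≤ Nat.card Ω) :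
    ∑ g : G, Nat.card (fixedBy Ω g) ^ 3 = 5 * Nat.card G := by
  haveI := h3
  have h2 : IsMultiplyPretransitive G Ω 2 :=
    isMultiplyPretransitive_of_le (n := 3) (by norm_num) hΩ
  have h1 : IsMultiplyPretransitive G Ω 1 :=
    isMultiplyPretransitive_of_le (n := 3) (by norm_num) hΩ
  have s1 := sum_descFactorial 1 h1 (by omega)
  have s2 := sum_descFactorial 2 h2 (by omega)
  have s3 := sum_descFactorial 3 h3 hΩ
  rw [Finset.sum_congr rfl (fun g _ => cube_eq_descFactorial _), Finset.sum_add_distrib,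
    Finset.sum_add_distrib, ← Finset.mul_sum, s1, s2, s3]
  ring

example {G Ω : Type*} [Group G] [MulAction G Ω] [Fintype G] [Finite Ω]
    (h3 : IsMultiplyPretransitive G Ω 3) (hΩ : 3 ≤ Nat.card Ω) :
    ∑ g : G, Nat.card (fixedBy Ω g) ^ 3 = 5 * Nat.card G := sum_fixedBy_cube h3 hΩ

end Cfsg.Agent.H8.PD
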