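import Mathlib
import Cfsg.Prelude.Def_Blocks
import Cfsg.Agent.H4.Irr
import Cfsg.Agent.H4.Chars
import Cfsg.Agent.H4.RealClasses
import Cfsg.Agent.H4.PaQb
import Cfsg.Agent.H20.SubgroupIdem

/-!
# S4707-W8 (helper8): `char_numeric`
-/

set_option autoImplicit false

namespace Cfsg.Agent.H8.PD

open Cfsg Cfsg.Agent.H4
open scoped ComplexConjugate

/-- S4707-W8. -/
theorem char_numeric {G : Type*} [Group G] [Fintype G] (S : Finset G)
    (χ θ : Cfsg.IrrCharacter G) (c : G → ℤ) (hc : ∀ g, (χ : G → ℂ) g = (c g : ℂ))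
    (d : ℤ) (hd : 1 < d) (hχ1 : c 1 = d) (hS : ∀ g ∈ S, c g = -1)
    (hθ : ∀ g, g ∉ S → (θ : G → ℂ) g = (χ : G → ℂ) g - 1) :
    (∑ g, c g = 0) ∧ (∑ g, c g ^ 2 = (Fintype.card G : ℤ)) ∧ (∀ g, c g ≤ d) ∧
      (Fintype.card G : ℤ) ≤ ∑ g, c g ^ 3 := by
  classical
  have hN : (Nat.card G : ℂ) ≠ 0 := by
    rw [Nat.card_eq_fintype_card]
    exact_mod_cast Fintype.card_ne_zero
  have hNc : (Nat.card G : ℂ) = (Fintype.card G : ℂ) := by rw [Nat.card_eq_fintype_card]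
  have hconj : ∀ n : ℤ, conj (n : ℂ) = (n : ℂ) := fun n => map_intCast (starRingEnd ℂ) n
  -- (1)
  have hne : χ ≠ ⟨fun _ => 1, isIrrCharacter_one⟩ := by
    intro h
    have h1 : (χ : G → ℂ) 1 = 1 := by rw [h]
    rw [hc 1, hχ1] at h1
    have h2 : d = 1 := by exact_mod_cast h1
    omega
  have s1 : ∑ g, c g = 0 := by
    have h1 := irr_inner_ne hne
    unfold classInner at h1
    have h2 : ∑ g : G, (χ : G → ℂ) g * conj ((1 : ℂ)) = 0 := by
      rcases mul_eq_zero.mp h1 with h | h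
      · exact absurd (inv_eq_zero.mp h) hN
      · exact h
    simp only [map_one, mul_one] at h2
    rw [Finset.sum_congr rfl (fun g _ => hc g)] at h2
    exact_mod_cast h2
  -- (2)
  have s2 : ∑ g, c g ^ 2 = (Fintype.card G : ℤ) := by
    have h1 := irr_inner_self χ
    unfold classInner at h1
    have h2 := (inv_mul_eq_one₀ hN).mp h1
    have h3 : ∑ g : G, (χ : G → ℂ) g * conj ((χ : G → ℂ) g) = ∑ g, ((c g ^ 2 : ℤ) : ℂ) :=
      Finset.sum_congr rfl (fun g _ => by rw [hc g, hconj, ← pow_two]; push_cast; rfl)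
    rw [hNc, h3] at h2
    exact_mod_cast h2.symm
  -- (3)
  have s3 : ∀ g, c g ≤ d := by
    intro g
    have h1 := Cfsg.Agent.H20.irr_norm_le χ g
    rw [hc g, hc 1, hχ1, Complex.norm_intCast, Complex.intCast_re] at h1
    have h2 : (c g : ℝ) ≤ (d : ℝ) := le_trans (le_abs_self _) h1
    exact_mod_cast h2
  refine ⟨s1, s2, s3, ?_⟩
  -- (4)
  have ha : ∑ g, Complex.normSq ((θ : G → ℂ) g) = (Fintype.card G : ℝ) := by
    have h1 := irr_inner_self θ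
    unfold classInner at h1
    have h2 := (inv_mul_eq_one₀ hN).mp h1
    rw [hNc, Finset.sum_congr rfl (fun g _ => Complex.mul_conj _)] at h2
    exact_mod_cast h2.symm
  have hb : 0 ≤ ∑ g, Complex.normSq ((θ : G → ℂ) g) * (c g : ℝ) := by
    have hθc := isCharacter_of_isIrrCharacter θ.2
    have hψ : IsCharacter G ((θ : G → ℂ) * fun g => conj ((θ : G → ℂ) g)) :=
      isCharacter_mul hθc (isCharacter_conj hθc)
    obtain ⟨n, hn⟩ := classInner_isCharacter_nat hψ (isCharacter_of_isIrrCharacter χ.2)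
    unfold classInner at hn
    have h2 := (inv_mul_eq_iff_eq_mul₀ hN).mp hn
    have h3 : ∑ g : G, ((θ : G → ℂ) * fun g => conj ((θ : G → ℂ) g)) g * conj ((χ : G → ℂ) g) =
        ((∑ g, Complex.normSq ((θ : G → ℂ) g) * (c g : ℝ) : ℝ) : ℂ) := by
      rw [Complex.ofReal_sum]
      apply Finset.sum_congr rfl
      intro g _
      rw [Pi.mul_apply, Complex.mul_conj, hc g, hconj]
      push_cast
      rfl
    rw [h3, hNc] at h2
    have h4 : (∑ g, Complex.normSq ((θ : G → ℂ) g) * (c g : ℝ) : ℝ) =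
        (Fintype.card G : ℝ) * (n : ℝ) := by exact_mod_cast h2
    rw [h4]
    positivity
  have hcθ : ∀ g, g ∉ S → Complex.normSq ((θ : G → ℂ) g) = ((c g : ℝ) - 1) ^ 2 := by
    intro g hg
    rw [hθ g hg, hc g]
    have h1 : ((c g : ℂ) - 1) = (((c g : ℝ) - 1 : ℝ) : ℂ) := by push_cast; rfl
    rw [h1, Complex.normSq_ofReal, pow_two]
  have hsa := Finset.sum_add_sum_compl S (fun g => Complex.normSq ((θ : G → ℂ) g))
  have hsb := Finset.sum_add_sum_compl S (fun g => Complex.normSq ((θ : G → ℂ) g) * (c g : ℝ))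
  have hSb : ∑ g ∈ S, Complex.normSq ((θ : G → ℂ) g) * (c g : ℝ) =
      -∑ g ∈ S, Complex.normSq ((θ : G → ℂ) g) := by
    rw [← Finset.sum_neg_distrib]
    apply Finset.sum_congr rfl
    intro g hg
    rw [hS g hg]
    push_cast
    ring
  have hCa : ∑ g ∈ Sᶜ, Complex.normSq ((θ : G → ℂ) g) = ∑ g ∈ Sᶜ, ((c g : ℝ) - 1) ^ 2 :=
    Finset.sum_congr rfl (fun g hg => hcθ g (Finset.mem_compl.mp hg))
  have hCb : ∑ g ∈ Sᶜ, Complex.normSq ((θ : G → ℂ) g) * (c g : ℝ) =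
      ∑ g ∈ Sᶜ, ((c g : ℝ) - 1) ^ 2 * (c g : ℝ) :=
    Finset.sum_congr rfl (fun g hg => by rw [hcθ g (Finset.mem_compl.mp hg)])
  -- the cubic over the complement
  have hcub : ∑ g ∈ Sᶜ, (((c g : ℝ) - 1) ^ 2 * (c g : ℝ) + ((c g : ℝ) - 1) ^ 2) =
      ∑ g, ((c g : ℝ) ^ 3 - (c g : ℝ) ^ 2 - (c g : ℝ) + 1) := by
    rw [← Finset.sum_add_sum_compl S (fun g => ((c g : ℝ) ^ 3 - (c g : ℝ) ^ 2 - (c g : ℝ) + 1))]
    have h0 : ∑ g ∈ S, ((c g : ℝ) ^ 3 - (c g : ℝ) ^ 2 - (c g : ℝ) + 1) = 0 := by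
      apply Finset.sum_eq_zero
      intro g hg
      rw [hS g hg]
      push_cast
      ring
    rw [h0, zero_add]
    apply Finset.sum_congr rfl
    intro g _
    ring
  have htot : ∑ g, ((c g : ℝ) ^ 3 - (c g : ℝ) ^ 2 - (c g : ℝ) + 1) =
      ((∑ g, c g ^ 3 : ℤ) : ℝ) := by
    rw [Finset.sum_add_distrib, Finset.sum_sub_distrib, Finset.sum_sub_distrib]
    have e1 : ∑ g, (c g : ℝ) = ((∑ g, c g : ℤ) : ℝ) := by push_cast; rfl
    have e2 : ∑ g, (c g : ℝ) ^ 2 = ((∑ g, c g ^ 2 : ℤ) : ℝ) := by push_cast; rfl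
    have e3 : ∑ g, (c g : ℝ) ^ 3 = ((∑ g, c g ^ 3 : ℤ) : ℝ) := by push_cast; rfl
    rw [e1, e2, e3, s1, s2]
    simp
  rw [Finset.sum_add_distrib] at hcub
  have hfin : (Fintype.card G : ℝ) ≤ ((∑ g, c g ^ 3 : ℤ) : ℝ) := by
    rw [← htot, ← hcub]
    rw [← hsb, hSb, hCb] at hb
    rw [hCa] at hsa
    linarith
  exact_mod_cast hfin

example {G : Type*} [Group G] [Fintype G] (S : Finset G)
    (χ θ : Cfsg.IrrCharacter G) (c : G → ℤ) (hc : ∀ g, (χ : G → ℂ) g = (c g : ℂ))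
    (d : ℤ) (hd : 1 < d) (hχ1 : c 1 = d) (hS : ∀ g ∈ S, c g = -1)
    (hθ : ∀ g, g ∉ S → (θ : G → ℂ) g = (χ : G → ℂ) g - 1) :
    (∑ g, c g = 0) ∧ (∑ g, c g ^ 2 = (Fintype.card G : ℤ)) ∧ (∀ g, c g ≤ d) ∧
      (Fintype.card G : ℤ) ≤ ∑ g, c g ^ 3 := char_numeric S χ θ c hc d hd hχ1 hS hθ

end Cfsg.Agent.H8.PD
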