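import Mathlib

/-!
# S4707-W9 (helper8): `order_arith`
-/

set_option autoImplicit false

namespace Cfsg.Agent.H8.PD

/-- S4707-W9. -/
theorem order_arith {G : Type*} [Group G] [Fintype G] {p : ℕ} (hp : 3 < p) (S : Finset G)
    (c : G → ℤ) (hS : ∀ g ∈ S, c g = -1)
    (hcount : 2 * p * S.card = (p - 1) * Fintype.card G)
    (h1 : ∑ g, c g = 0) (h2 : ∑ g, c g ^ 2 = (Fintype.card G : ℤ))
    (h3 : (Fintype.card G : ℤ) ≤ ∑ g, c g ^ 3) (hle : ∀ g, c g ≤ (p : ℤ) - 1)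
    (hone : c 1 = (p : ℤ) - 1) (hfaith : ∀ g, c g = (p : ℤ) - 1 → g = 1) :
    Fintype.card G = p * (p - 1) * (p - 2) := by
  classical
  have hp1 : ((p - 1 : ℕ) : ℤ) = (p : ℤ) - 1 := by
    rw [Nat.cast_sub (by omega)]; simp
  have hp2 : ((p - 2 : ℕ) : ℤ) = (p : ℤ) - 2 := by
    rw [Nat.cast_sub (by omega)]; simp
  have hP : (3 : ℤ) < (p : ℤ) := by exact_mod_cast hp
  have hcountZ : 2 * (p : ℤ) * (S.card : ℤ) = ((p : ℤ) - 1) * (Fintype.card G : ℤ) := by
    rw [← hp1]; exact_mod_cast hcount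
  -- the cubic
  have hTsum : ∑ g, c g * (c g - 1) * ((p : ℤ) - 1 - c g) =
      (p : ℤ) * (Fintype.card G : ℤ) - ∑ g, c g ^ 3 := by
    have h4 : ∑ g, c g * (c g - 1) * ((p : ℤ) - 1 - c g) =
        -∑ g, c g ^ 3 + (p : ℤ) * ∑ g, c g ^ 2 - ((p : ℤ) - 1) * ∑ g, c g := by
      rw [Finset.mul_sum, Finset.mul_sum, ← Finset.sum_neg_distrib, ← Finset.sum_add_distrib,
        ← Finset.sum_sub_distrib]
      apply Finset.sum_congr rfl
      intro g _
      ring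
    rw [h4, h1, h2]
    ring
  have hTS : ∑ g ∈ S, c g * (c g - 1) * ((p : ℤ) - 1 - c g) = 2 * (p : ℤ) * (S.card : ℤ) := by
    rw [Finset.sum_congr rfl (fun g hg => by rw [hS g hg])]
    rw [Finset.sum_const, nsmul_eq_mul]
    ring
  have hsplit := Finset.sum_add_sum_compl S (fun g => c g * (c g - 1) * ((p : ℤ) - 1 - c g))
  have hTnn : ∀ g, 0 ≤ c g * (c g - 1) * ((p : ℤ) - 1 - c g) := by
    intro g
    have ha : 0 ≤ c g * (c g - 1) := by
      rcases le_or_gt (c g) 0 with h | h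
      · exact mul_nonneg_of_nonpos_of_nonpos h (by linarith)
      · exact mul_nonneg (by linarith) (by linarith)
    exact mul_nonneg ha (by linarith [hle g])
  have hTc : ∑ g ∈ Sᶜ, c g * (c g - 1) * ((p : ℤ) - 1 - c g) = 0 := by
    apply le_antisymm
    · linarith
    · exact Finset.sum_nonneg (fun g _ => hTnn g)
  have hzero : ∀ g ∈ Sᶜ, c g * (c g - 1) * ((p : ℤ) - 1 - c g) = 0 :=
    (Finset.sum_eq_zero_iff_of_nonneg (fun g _ => hTnn g)).mp hTc
  have hval : ∀ g ∈ Sᶜ, c g * (c g - 1) = if g = 1 then ((p : ℤ) - 1) * ((p : ℤ) - 2) else 0 := by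
    intro g hg
    by_cases hg1 : g = 1
    · rw [if_pos hg1, hg1, hone]
      ring
    · rw [if_neg hg1]
      rcases mul_eq_zero.mp (hzero g hg) with h | h
      · exact h
      · exfalso
        exact hg1 (hfaith g (by linarith))
  have hQsum : ∑ g, c g * (c g - 1) = (Fintype.card G : ℤ) := by
    have h4 : ∑ g, c g * (c g - 1) = ∑ g, c g ^ 2 - ∑ g, c g := by
      rw [← Finset.sum_sub_distrib]
      apply Finset.sum_congr rfl
      intro g _
      ring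
    rw [h4, h1, h2, sub_zero]
  have hQS : ∑ g ∈ S, c g * (c g - 1) = 2 * (S.card : ℤ) := by
    rw [Finset.sum_congr rfl (fun g hg => by rw [hS g hg])]
    rw [Finset.sum_const, nsmul_eq_mul]
    ring
  have h1S : (1 : G) ∈ Sᶜ := by
    rw [Finset.mem_compl]
    intro h
    have h5 := hS 1 h
    rw [hone] at h5
    linarith
  have hQc : ∑ g ∈ Sᶜ, c g * (c g - 1) = ((p : ℤ) - 1) * ((p : ℤ) - 2) := by
    rw [Finset.sum_congr rfl hval, Finset.sum_ite_eq', if_pos h1S]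
  have hsplit2 := Finset.sum_add_sum_compl S (fun g => c g * (c g - 1))
  have hN : (Fintype.card G : ℤ) = 2 * (S.card : ℤ) + ((p : ℤ) - 1) * ((p : ℤ) - 2) := by
    rw [← hQsum, ← hsplit2, hQS, hQc]
  have hfinal : (Fintype.card G : ℤ) = (p : ℤ) * ((p : ℤ) - 1) * ((p : ℤ) - 2) := by
    linear_combination (p : ℤ) * hN + hcountZ
  have hcast : ((Fintype.card G : ℕ) : ℤ) = ((p * (p - 1) * (p - 2) : ℕ) : ℤ) := by
    rw [Nat.cast_mul, Nat.cast_mul, hp1, hp2]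
    exact hfinal
  exact_mod_cast hcast

example {G : Type*} [Group G] [Fintype G] {p : ℕ} (hp : 3 < p) (S : Finset G)
    (c : G → ℤ) (hS : ∀ g ∈ S, c g = -1)
    (hcount : 2 * p * S.card = (p - 1) * Fintype.card G)
    (h1 : ∑ g, c g = 0) (h2 : ∑ g, c g ^ 2 = (Fintype.card G : ℤ))
    (h3 : (Fintype.card G : ℤ) ≤ ∑ g, c g ^ 3) (hle : ∀ g, c g ≤ (p : ℤ) - 1)
    (hone : c 1 = (p : ℤ) - 1) (hfaith : ∀ g, c g = (p : ℤ) - 1 → g = 1) :
    Fintype.card G = p * (p - 1) * (p - 2) :=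
  order_arith hp S c hS hcount h1 h2 h3 hle hone hfaith

end Cfsg.Agent.H8.PD
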