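import Mathlib
import Cfsg.Agent.H52.QSDefs

/-!
# QS-SECA (helper8, for helper52, S2787): linear algebra on `W = ker f(XY)`
-/

set_option autoImplicit false

namespace Cfsg.Agent.H8.QS

open Cfsg.Agent.H52.QS

universe u

/-- `X * aeval (X * Y) f = f(0) • X` when `X * X = 0`. -/
theorem X_mul_aeval {R : Type*} [CommRing R] {E : Type*} [Ring E] [Algebra R E] (X Y : E)
    (hX : X * X = 0) (f : Polynomial R) :
    X * Polynomial.aeval (X * Y) f = (f.eval 0) • X := by
  induction f using Polynomial.induction_on' with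
  | add p q hp hq =>
    rw [map_add, mul_add, hp, hq, Polynomial.eval_add, add_smul]
  | monomial n a =>
    rw [Polynomial.aeval_monomial, Polynomial.eval_monomial]
    rcases Nat.eq_zero_or_pos n with hn | hn
    · subst hn
      rw [pow_zero, pow_zero, mul_one, mul_one, Algebra.algebraMap_eq_smul_one, mul_smul_comm,
        mul_one]
    · obtain ⟨m, rfl⟩ := Nat.exists_eq_succ_of_ne_zero hn.ne'
      rw [pow_succ', zero_pow (Nat.succ_ne_zero m), mul_zero, zero_smul, ← mul_assoc,
        ← mul_assoc, ← Algebra.commutes, mul_assoc (algebraMap R E a), ← mul_assoc X X Y, hX,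
        zero_mul, mul_zero, zero_mul]

/-- `aeval T f w = f(0) • w` when `T w = 0`. -/
theorem aeval_apply_of_apply_eq_zero {R : Type*} [CommRing R] {M : Type*} [AddCommGroup M]
    [Module R M] (T : Module.End R M) (f : Polynomial R) (w : M) (hw : T w = 0) :
    Polynomial.aeval T f w = (f.eval 0) • w := by
  induction f using Polynomial.induction_on' with
  | add p q hp hq =>
    rw [map_add, LinearMap.add_apply, hp, hq, Polynomial.eval_add, add_smul]
  | monomial n a =>
    rw [Polynomial.aeval_monomial, Polynomial.eval_monomial]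
    rcases Nat.eq_zero_or_pos n with hn | hn
    · subst hn
      rw [pow_zero, pow_zero, mul_one, mul_one]
      rfl
    · obtain ⟨m, rfl⟩ := Nat.exists_eq_succ_of_ne_zero hn.ne'
      rw [pow_succ, zero_pow (Nat.succ_ne_zero m), mul_zero, zero_smul, ← mul_assoc,
        Module.End.mul_apply, hw, map_zero]

theorem secA : Cfsg.Agent.H52.QS.StSecA.{u} := by
  intro p _ M _ _ X Y hX hY f hf w hw
  rw [LinearMap.mem_ker] at hw
  have hf0 : IsUnit (f.eval 0) := isUnit_iff_ne_zero.mpr hf
  have key : ∀ u : M, X (Polynomial.aeval (X * Y) f u) = (f.eval 0) • X u := by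
    intro u
    have := congrArg (fun E : Module.End (ZMod p) M => E u) (X_mul_aeval X Y hX f)
    simpa using this
  have hXw : ∀ u : M, Polynomial.aeval (X * Y) f u = 0 → X u = 0 := by
    intro u hu
    have h1 := key u
    rw [hu, map_zero] at h1
    exact (hf0.smul_eq_zero).mp h1.symm
  refine ⟨hXw w hw, ?_, ?_⟩
  · rw [LinearMap.mem_ker]
    have hc : Commute (X * Y) (Polynomial.aeval (X * Y) f) := by
      have := (Polynomial.commute_X f).map (Polynomial.aeval (R := ZMod p) (X * Y))
      rwa [Polynomial.aeval_X] at this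
    have : Polynomial.aeval (X * Y) f ((X * Y) w) = (X * Y) (Polynomial.aeval (X * Y) f w) := by
      rw [← Module.End.mul_apply, ← Module.End.mul_apply, hc.eq]
    rw [this, hw, map_zero]
  · intro w' hw' hww
    rw [LinearMap.mem_ker] at hw'
    have h1 : X (w + Y w') = 0 := by rw [hww, map_zero]
    rw [map_add, hXw w hw, zero_add] at h1
    have h2 : (X * Y) w' = 0 := h1
    have h3 := aeval_apply_of_apply_eq_zero (X * Y) f w' h2
    rw [hw'] at h3
    have hw'0 : w' = 0 := (hf0.smul_eq_zero).mp h3.symm
    rw [hw'0, map_zero, add_zero] at hww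
    exact ⟨hww, hw'0⟩

example : Cfsg.Agent.H52.QS.StSecA.{u} := secA

end Cfsg.Agent.H8.QS
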