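import Cfsg.Agent.H14.Holo
import Cfsg.Agent.Helper55.JzIndex

set_option autoImplicit false
set_option linter.unusedVariables false

/-! Abstract COUNT for the kill of the four-group configuration (R1) of S2953 (helper1's case
(a) / helper82's step (c)); helper8.

`A` an elementary abelian 2-subgroup of largest order of `T`, `U₁`, `U₂ ≤ T` two commuting
four-groups with trivial intersection, `a ∈ A` interchanging them and every element of `A`
either normalizing or interchanging them: impossible.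

Proof: `C := C_A(U₁) ∩ C_A(U₂)`, `X := C (U₁ × U₂)` is elementary abelian, `|X| = 16 |C| / |C ∩ D|`.
Either every element of `A` normalizing `U₁` centralizes it: `|A| ≤ 2 |C|`, `|C ∩ D| ≤ 4`;
or some `a₁ ∈ A` acts non-trivially on `U₁`: `|A| ≤ 4 |C|`, `|C ∩ D| ≤ 2`. In both cases
`|X| ≥ 2 |A|`. -/

open Cfsg

namespace Cfsg.Agent.H8.R1

universe u

variable {G : Type u} [Group G]

/-- Elements of the join of two elementwise commuting subgroups are products. -/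
theorem mem_sup_comm {H K : Subgroup G} (hc : ∀ h ∈ H, ∀ k ∈ K, h * k = k * h) {x : G}
    (hx : x ∈ H ⊔ K) : ∃ h ∈ H, ∃ k ∈ K, x = h * k := by
  let M : Subgroup G :=
    { carrier := {x | ∃ h ∈ H, ∃ k ∈ K, x = h * k}
      one_mem' := ⟨1, H.one_mem, 1, K.one_mem, by simp⟩
      mul_mem' := by
        rintro _ _ ⟨h, hh, k, hk, rfl⟩ ⟨h', hh', k', hk', rfl⟩
        refine ⟨h * h', H.mul_mem hh hh', k * k', K.mul_mem hk hk', ?_⟩
        calc h * k * (h' * k') = h * (k * h') * k' := by group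
          _ = h * (h' * k) * k' := by rw [hc h' hh' k hk]
          _ = h * h' * (k * k') := by group
      inv_mem' := by
        rintro _ ⟨h, hh, k, hk, rfl⟩
        refine ⟨h⁻¹, H.inv_mem hh, k⁻¹, K.inv_mem hk, ?_⟩
        rw [mul_inv_rev]
        exact (hc h⁻¹ (H.inv_mem hh) k⁻¹ (K.inv_mem hk)).symm }
  have h1 : H ⊔ K ≤ M :=
    sup_le (fun h hh => ⟨h, hh, 1, K.one_mem, by simp⟩) (fun k hk => ⟨1, H.one_mem, k, hk, by simp⟩)
  exact h1 hx

/-- Uniqueness of the decomposition. -/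
theorem decomp_unique {U₁ U₂ : Subgroup G} (hdisj : U₁ ⊓ U₂ = ⊥) {x₁ y₁ x₂ y₂ : G}
    (hx₁ : x₁ ∈ U₁) (hy₁ : y₁ ∈ U₁) (hx₂ : x₂ ∈ U₂) (hy₂ : y₂ ∈ U₂)
    (h : x₁ * x₂ = y₁ * y₂) : x₁ = y₁ ∧ x₂ = y₂ := by
  have h1 : y₁⁻¹ * x₁ = y₂ * x₂⁻¹ := by
    calc y₁⁻¹ * x₁ = y₁⁻¹ * (x₁ * x₂) * x₂⁻¹ := by group
      _ = y₁⁻¹ * (y₁ * y₂) * x₂⁻¹ := by rw [h]
      _ = y₂ * x₂⁻¹ := by group
  have h2 : y₁⁻¹ * x₁ ∈ U₁ ⊓ U₂ :=
    Subgroup.mem_inf.mpr ⟨U₁.mul_mem (U₁.inv_mem hy₁) hx₁,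
      h1 ▸ U₂.mul_mem hy₂ (U₂.inv_mem hx₂)⟩
  rw [hdisj, Subgroup.mem_bot, inv_mul_eq_one] at h2
  refine ⟨h2.symm, ?_⟩
  rw [← h2] at h
  exact mul_left_cancel h

theorem countKill [Finite G] (T A U₁ U₂ : Subgroup G) (a : G)
    (hA : Cfsg.IsElementaryAbelian 2 A) (hAT : A ≤ T)
    (hmax : ∀ X : Subgroup G, X ≤ T → Cfsg.IsElementaryAbelian 2 X → Nat.card X ≤ Nat.card A)
    (hU₁T : U₁ ≤ T) (hU₂T : U₂ ≤ T)
    (hU₁ : Cfsg.IsElementaryAbelian 2 U₁) (hU₂ : Cfsg.IsElementaryAbelian 2 U₂)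
    (hc₁ : Nat.card U₁ = 4) (hc₂ : Nat.card U₂ = 4)
    (hcomm : ∀ u ∈ U₁, ∀ w ∈ U₂, u * w = w * u)
    (hdisj : U₁ ⊓ U₂ = ⊥)
    (ha : a ∈ A) (hs₁ : ∀ u ∈ U₁, a * u * a⁻¹ ∈ U₂) (hs₂ : ∀ w ∈ U₂, a * w * a⁻¹ ∈ U₁)
    (hperm : ∀ b ∈ A, (∀ u ∈ U₁, b * u * b⁻¹ ∈ U₁) ∨ (∀ u ∈ U₁, b * u * b⁻¹ ∈ U₂)) :
    False := by
  classical
  have hAcen : A ≤ Subgroup.centralizer (A : Set G) :=
    Subgroup.le_centralizer_iff_isMulCommutative.mpr hA.1
  have hAcomm : ∀ b ∈ A, ∀ c ∈ A, b * c = c * b := fun b hb c hc =>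
    Subgroup.mem_centralizer_iff.mp (hAcen hc) b hb
  have hAsq : ∀ b ∈ A, b * b = 1 := fun b hb => by
    have h := hA.2 b hb
    rwa [pow_two] at h
  have hU₁cen : U₁ ≤ Subgroup.centralizer (U₁ : Set G) :=
    Subgroup.le_centralizer_iff_isMulCommutative.mpr hU₁.1
  have hU₁comm : ∀ u ∈ U₁, ∀ w ∈ U₁, u * w = w * u := fun u hu w hw =>
    Subgroup.mem_centralizer_iff.mp (hU₁cen hw) u hu
  have hU₁sq : ∀ u ∈ U₁, u * u = 1 := fun u hu => by
    have h := hU₁.2 u hu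
    rwa [pow_two] at h
  have hainv : a⁻¹ = a := inv_eq_of_mul_eq_one_left (hAsq a ha)
  -- `C`
  obtain ⟨C, hCdef⟩ : ∃ C : Subgroup G, C = A ⊓ Subgroup.centralizer (U₁ : Set G) ⊓
      Subgroup.centralizer (U₂ : Set G) := ⟨_, rfl⟩
  have hCA : C ≤ A := by rw [hCdef]; exact inf_le_left.trans inf_le_left
  have hCU₁ : C ≤ Subgroup.centralizer (U₁ : Set G) := by
    rw [hCdef]; exact inf_le_left.trans inf_le_right
  have hCU₂ : C ≤ Subgroup.centralizer (U₂ : Set G) := by rw [hCdef]; exact inf_le_right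
  have hCmem : ∀ b, b ∈ A → (∀ u ∈ U₁, b * u * b⁻¹ = u) → b ∈ C := by
    intro b hb hfix
    have hba : b * a = a * b := hAcomm b hb a ha
    have h1 : ∀ u ∈ U₁, u * b = b * u := by
      intro u hu
      have h := hfix u hu
      calc u * b = (b * u * b⁻¹) * b := by rw [h]
        _ = b * u := by group
    rw [hCdef]
    refine Subgroup.mem_inf.mpr ⟨Subgroup.mem_inf.mpr ⟨hb, ?_⟩, ?_⟩
    · rw [Subgroup.mem_centralizer_iff]
      exact h1
    · rw [Subgroup.mem_centralizer_iff]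
      intro w hw
      have hu := hs₂ w hw
      have h2 := h1 _ hu
      -- `w = a * (a * w * a⁻¹) * a⁻¹` since `a * a = 1`
      have hw' : w = a * (a * w * a⁻¹) * a⁻¹ := by
        have : a * (a * w * a⁻¹) * a⁻¹ = (a * a) * w * (a * a)⁻¹ := by group
        rw [this, hAsq a ha]
        group
      calc w * b = a * (a * w * a⁻¹) * a⁻¹ * b := by rw [← hw']
        _ = a * ((a * w * a⁻¹) * b) * a⁻¹ := by
          rw [hainv]
          calc a * (a * w * a) * a * b = a * (a * w * a) * (a * b) := by group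
            _ = a * (a * w * a) * (b * a) := by rw [hba]
            _ = a * (a * w * a * b) * a := by group
        _ = a * (b * (a * w * a⁻¹)) * a⁻¹ := by rw [h2]
        _ = b * (a * (a * w * a⁻¹) * a⁻¹) := by
          rw [hainv]
          calc a * (b * (a * w * a)) * a = (a * b) * (a * w * a) * a := by group
            _ = (b * a) * (a * w * a) * a := by rw [hba]
            _ = b * (a * (a * w * a) * a) := by group
        _ = b * w := by rw [← hw']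
  -- `D = U₁ ⊔ U₂` and `X = C ⊔ D`
  have hU₂cenU₁ : U₂ ≤ Subgroup.centralizer (U₁ : Set G) := by
    intro w hw
    rw [Subgroup.mem_centralizer_iff]
    intro u hu
    exact hcomm u hu w hw
  have hD : Cfsg.IsElementaryAbelian 2 (U₁ ⊔ U₂) := Cfsg.Agent.H14.elemAb_sup hU₁ hU₂ hU₂cenU₁
  have hCel : Cfsg.IsElementaryAbelian 2 C := Cfsg.Agent.H14.elemAb_mono hA hCA
  have hDcenC : U₁ ⊔ U₂ ≤ Subgroup.centralizer (C : Set G) :=
    sup_le (Subgroup.le_centralizer_iff.mp hCU₁) (Subgroup.le_centralizer_iff.mp hCU₂)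
  have hX : Cfsg.IsElementaryAbelian 2 (C ⊔ (U₁ ⊔ U₂)) :=
    Cfsg.Agent.H14.elemAb_sup hCel hD hDcenC
  have hXT : C ⊔ (U₁ ⊔ U₂) ≤ T := sup_le (hCA.trans hAT) (sup_le hU₁T hU₂T)
  have hXA := hmax _ hXT hX
  have hn₁₂ : U₁ ≤ Subgroup.normalizer (U₂ : Set G) :=
    (Subgroup.le_centralizer_iff.mp hU₂cenU₁).trans (Subgroup.centralizer_le_normalizer _)
  have eD := Cfsg.Agent.H14.Holo.card_sup_mul_card_inf U₁ U₂ hn₁₂
  rw [hdisj, Subgroup.card_bot, mul_one, hc₁, hc₂] at eD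
  have hnCD : C ≤ Subgroup.normalizer ((U₁ ⊔ U₂ : Subgroup G) : Set G) :=
    (Subgroup.le_centralizer_iff.mp hDcenC).trans (Subgroup.centralizer_le_normalizer _)
  have eX := Cfsg.Agent.H14.Holo.card_sup_mul_card_inf C (U₁ ⊔ U₂) hnCD
  rw [eD] at eX
  have hCpos : 0 < Nat.card C := Nat.card_pos
  -- `(C ⊓ D) ⊓ U₂ = ⊥`
  have hEU₂ : (C ⊓ (U₁ ⊔ U₂)) ⊓ U₂ = ⊥ := by
    rw [eq_bot_iff]
    intro e he
    rw [Subgroup.mem_bot]
    have heC : e ∈ C := (Subgroup.mem_inf.mp (Subgroup.mem_inf.mp he).1).1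
    have heU₂ : e ∈ U₂ := (Subgroup.mem_inf.mp he).2
    have heA := hCA heC
    have h1 : a * e * a⁻¹ ∈ U₁ := hs₂ e heU₂
    have h2 : a * e * a⁻¹ = e := by
      rw [hAcomm a ha e heA]
      group
    rw [h2] at h1
    have h3 : e ∈ U₁ ⊓ U₂ := Subgroup.mem_inf.mpr ⟨h1, heU₂⟩
    rw [hdisj, Subgroup.mem_bot] at h3
    exact h3
  have hnE : C ⊓ (U₁ ⊔ U₂) ≤ Subgroup.normalizer (U₂ : Set G) :=
    (inf_le_left.trans hCU₂).trans (Subgroup.centralizer_le_normalizer _)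
  have eE := Cfsg.Agent.H14.Holo.card_sup_mul_card_inf (C ⊓ (U₁ ⊔ U₂)) U₂ hnE
  rw [hEU₂, Subgroup.card_bot, mul_one, hc₂] at eE
  have hEle : C ⊓ (U₁ ⊔ U₂) ⊔ U₂ ≤ U₁ ⊔ U₂ := sup_le inf_le_right le_sup_right
  have hE4 : Nat.card ↥(C ⊓ (U₁ ⊔ U₂)) ≤ 4 := by
    have h := Subgroup.card_le_of_le hEle
    rw [eE, eD] at h
    omega
  -- cardinality of joins inside `A`
  have hsupcard : ∀ B F : Subgroup G, B ≤ A → F ≤ A →
      Nat.card ↥(B ⊔ F) ≤ Nat.card B * Nat.card F := by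
    intro B F hB hF
    have hn : B ≤ Subgroup.normalizer (F : Set G) :=
      (hB.trans hAcen).trans ((Subgroup.centralizer_le (SetLike.coe_subset_coe.mpr hF)).trans
        (Subgroup.centralizer_le_normalizer _))
    have e := Cfsg.Agent.H14.Holo.card_sup_mul_card_inf B F hn
    have hpos : 0 < Nat.card ↥(B ⊓ F) := Nat.card_pos
    calc Nat.card ↥(B ⊔ F) ≤ Nat.card ↥(B ⊔ F) * Nat.card ↥(B ⊓ F) :=
          Nat.le_mul_of_pos_right _ hpos
      _ = _ := e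
  have hz : ∀ b ∈ A, Nat.card ↥(Subgroup.zpowers b) ≤ 2 := by
    intro b hb
    rw [Nat.card_zpowers]
    exact Nat.le_of_dvd (by norm_num) (orderOf_dvd_of_pow_eq_one (hA.2 b hb))
  have hzA : ∀ b ∈ A, Subgroup.zpowers b ≤ A := fun b hb => Subgroup.zpowers_le.mpr hb
  -- every `b ∈ A`: `b` or `b * a` normalizes `U₁`
  have hnorm : ∀ b ∈ A, (∀ u ∈ U₁, b * u * b⁻¹ ∈ U₁) ∨
      (∀ u ∈ U₁, (b * a) * u * (b * a)⁻¹ ∈ U₁) := by
    intro b hb
    rcases hperm b hb with h | h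
    · exact Or.inl h
    · right
      intro u hu
      have h1 : (b * a) * u * (b * a)⁻¹ = a * (b * u * b⁻¹) * a⁻¹ := by
        rw [hAcomm b hb a ha]
        group
      rw [h1]
      exact hs₂ _ (h u hu)
  have hsplit : ∀ b ∈ A, b = (b * a) * a := fun b hb => by
    rw [mul_assoc, hAsq a ha, mul_one]
  by_cases hI : ∃ a₁ ∈ A, (∀ u ∈ U₁, a₁ * u * a₁⁻¹ ∈ U₁) ∧ ∃ u₀ ∈ U₁, a₁ * u₀ * a₁⁻¹ ≠ u₀
  · -- some `a₁` acts non-trivially on `U₁`
    obtain ⟨a₁, ha₁, hn₁, u₀, hu₀, hmove⟩ := hI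
    obtain ⟨u₁, hu₁def⟩ : ∃ u₁, u₁ = a₁ * u₀ * a₁⁻¹ := ⟨_, rfl⟩
    have hu₁ : u₁ ∈ U₁ := by rw [hu₁def]; exact hn₁ u₀ hu₀
    have hne : u₀ ≠ u₁ := by
      rw [hu₁def]
      exact fun h => hmove h.symm
    have hu₀1 : u₀ ≠ 1 := by
      intro h
      apply hmove
      rw [h]
      group
    have hu₁1 : u₁ ≠ 1 := by
      intro h
      rw [hu₁def] at h
      apply hu₀1
      have h' : u₀ = a₁⁻¹ * (a₁ * u₀ * a₁⁻¹) * a₁ := by group
      rw [h', h]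
      group
    have h4 := Cfsg.Agent.Helper55.JzIndex.mem_four U₁ u₀ u₁ hc₁ hu₀ hu₁ hu₀1 hu₁1 hne
      (hU₁sq u₁ hu₁)
    have ha₁u₁ : a₁ * u₁ * a₁⁻¹ = u₀ := by
      rw [hu₁def]
      have h' : a₁ * (a₁ * u₀ * a₁⁻¹) * a₁⁻¹ = (a₁ * a₁) * u₀ * (a₁ * a₁)⁻¹ := by group
      rw [h', hAsq a₁ ha₁]
      group
    have hconj : ∀ b ∈ A, ∀ x : G, b * (a₁ * x * a₁⁻¹) * b⁻¹ = a₁ * (b * x * b⁻¹) * a₁⁻¹ := by
      intro b hb x
      calc b * (a₁ * x * a₁⁻¹) * b⁻¹ = (b * a₁) * x * (b * a₁)⁻¹ := by group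
        _ = (a₁ * b) * x * (a₁ * b)⁻¹ := by rw [hAcomm b hb a₁ ha₁]
        _ = a₁ * (b * x * b⁻¹) * a₁⁻¹ := by group
    have hfix : ∀ b ∈ A, b * u₀ * b⁻¹ = u₀ → ∀ u ∈ U₁, b * u * b⁻¹ = u := by
      intro b hb hb0 u hu
      have hb1 : b * u₁ * b⁻¹ = u₁ := by
        rw [hu₁def, hconj b hb u₀, hb0]
      rcases h4 u hu with h | h | h | h
      · rw [h]
        group
      · rw [h]
        exact hb0
      · rw [h]
        exact hb1
      · rw [h]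
        calc b * (u₀ * u₁) * b⁻¹ = (b * u₀ * b⁻¹) * (b * u₁ * b⁻¹) := by group
          _ = u₀ * u₁ := by rw [hb0, hb1]
    have hstar : ∀ b ∈ A, (∀ u ∈ U₁, b * u * b⁻¹ ∈ U₁) → b ∈ C ∨ b * a₁ ∈ C := by
      intro b hb hbn
      rcases h4 (b * u₀ * b⁻¹) (hbn u₀ hu₀) with h | h | h | h
      · exfalso
        apply hu₀1
        have h' : u₀ = b⁻¹ * (b * u₀ * b⁻¹) * b := by group
        rw [h', h]
        group
      · exact Or.inl (hCmem b hb (hfix b hb h))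
      · right
        have hba₁ : b * a₁ ∈ A := A.mul_mem hb ha₁
        apply hCmem _ hba₁
        apply hfix _ hba₁
        have e1 : (b * a₁) * u₀ * (b * a₁)⁻¹ = a₁ * (b * u₀ * b⁻¹) * a₁⁻¹ := by
          rw [hAcomm b hb a₁ ha₁]
          group
        rw [e1, h]
        exact ha₁u₁
      · exfalso
        have e1 : b * u₁ * b⁻¹ = a₁ * (b * u₀ * b⁻¹) * a₁⁻¹ := by
          rw [hu₁def, hconj b hb u₀]
        rw [h] at e1
        have e2 : a₁ * (u₀ * u₁) * a₁⁻¹ = u₁ * u₀ := by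
          calc a₁ * (u₀ * u₁) * a₁⁻¹ = (a₁ * u₀ * a₁⁻¹) * (a₁ * u₁ * a₁⁻¹) := by group
            _ = u₁ * u₀ := by rw [ha₁u₁, ← hu₁def]
        rw [e2, hU₁comm u₁ hu₁ u₀ hu₀, ← h] at e1
        apply hne
        exact (mul_left_cancel (mul_right_cancel e1)).symm
    -- `|A| ≤ 4 |C|`
    have hAle : A ≤ (C ⊔ Subgroup.zpowers a₁) ⊔ Subgroup.zpowers a := by
      intro b hb
      have key : ∀ b' ∈ A, (∀ u ∈ U₁, b' * u * b'⁻¹ ∈ U₁) → b' ∈ C ⊔ Subgroup.zpowers a₁ := by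
        intro b' hb' hn'
        rcases hstar b' hb' hn' with h | h
        · exact Subgroup.mem_sup_left h
        · have h' : b' = (b' * a₁) * a₁ := by rw [mul_assoc, hAsq a₁ ha₁, mul_one]
          rw [h']
          exact Subgroup.mul_mem _ (Subgroup.mem_sup_left h)
            (Subgroup.mem_sup_right (Subgroup.mem_zpowers a₁))
      rcases hnorm b hb with h | h
      · exact Subgroup.mem_sup_left (key b hb h)
      · rw [hsplit b hb]
        exact Subgroup.mul_mem _ (Subgroup.mem_sup_left (key _ (A.mul_mem hb ha) h))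
          (Subgroup.mem_sup_right (Subgroup.mem_zpowers a))
    have hA4 : Nat.card A ≤ Nat.card C * 2 * 2 := by
      have h1 := Subgroup.card_le_of_le hAle
      have h2 := hsupcard (C ⊔ Subgroup.zpowers a₁) (Subgroup.zpowers a)
        (sup_le hCA (hzA a₁ ha₁)) (hzA a ha)
      have h3 := hsupcard C (Subgroup.zpowers a₁) hCA (hzA a₁ ha₁)
      have h4' := hz a₁ ha₁
      have h5 := hz a ha
      calc Nat.card A ≤ Nat.card ↥(C ⊔ Subgroup.zpowers a₁) * Nat.card ↥(Subgroup.zpowers a) :=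
            h1.trans h2
        _ ≤ (Nat.card C * Nat.card ↥(Subgroup.zpowers a₁)) * Nat.card ↥(Subgroup.zpowers a) :=
            Nat.mul_le_mul_right _ h3
        _ ≤ (Nat.card C * 2) * 2 := Nat.mul_le_mul (Nat.mul_le_mul_left _ h4') h5
    -- `|C ⊓ D| ≤ 2`
    have hn₁' : ∀ w ∈ U₂, a₁ * w * a₁⁻¹ ∈ U₂ := by
      intro w hw
      have hx := hn₁ _ (hs₂ w hw)
      have h1 := hs₁ _ hx
      have h2 : a * (a₁ * (a * w * a⁻¹) * a₁⁻¹) * a⁻¹ = a₁ * w * a₁⁻¹ := by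
        have hc := hAcomm a ha a₁ ha₁
        calc a * (a₁ * (a * w * a⁻¹) * a₁⁻¹) * a⁻¹
            = (a * a₁) * (a * w * a⁻¹) * (a * a₁)⁻¹ := by group
          _ = (a₁ * a) * (a * w * a⁻¹) * (a₁ * a)⁻¹ := by rw [hc]
          _ = a₁ * ((a * a) * w * (a * a)⁻¹) * a₁⁻¹ := by group
          _ = a₁ * w * a₁⁻¹ := by rw [hAsq a ha]; group
      rw [h2] at h1
      exact h1
    obtain ⟨g, hgdef⟩ : ∃ g, g = (u₀ * u₁) * (a * (u₀ * u₁) * a⁻¹) := ⟨_, rfl⟩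
    have hf : u₀ * u₁ ∈ U₁ := U₁.mul_mem hu₀ hu₁
    have hgD : g ∈ U₁ ⊔ U₂ := by
      rw [hgdef]
      exact Subgroup.mul_mem _ (Subgroup.mem_sup_left hf) (Subgroup.mem_sup_right (hs₁ _ hf))
    have hEg : C ⊓ (U₁ ⊔ U₂) ≤ Subgroup.zpowers g := by
      intro e he
      have heC : e ∈ C := (Subgroup.mem_inf.mp he).1
      have heA := hCA heC
      obtain ⟨x₁, hx₁, x₂, hx₂, rfl⟩ := mem_sup_comm hcomm (Subgroup.mem_inf.mp he).2
      -- `a₁` fixes `x₁`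
      have e1 : (a₁ * x₁ * a₁⁻¹) * (a₁ * x₂ * a₁⁻¹) = x₁ * x₂ := by
        calc (a₁ * x₁ * a₁⁻¹) * (a₁ * x₂ * a₁⁻¹) = a₁ * (x₁ * x₂) * a₁⁻¹ := by group
          _ = x₁ * x₂ := by rw [hAcomm a₁ ha₁ _ heA]; group
      have e2 := (decomp_unique hdisj (hn₁ x₁ hx₁) hx₁ (hn₁' x₂ hx₂) hx₂ e1).1
      -- `x₂ = a x₁ a⁻¹`
      have e3 : (a * x₂ * a⁻¹) * (a * x₁ * a⁻¹) = x₁ * x₂ := by
        have hcm : (a * x₂ * a⁻¹) * (a * x₁ * a⁻¹) = (a * x₁ * a⁻¹) * (a * x₂ * a⁻¹) :=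
          hcomm _ (hs₂ x₂ hx₂) _ (hs₁ x₁ hx₁)
        rw [hcm]
        calc (a * x₁ * a⁻¹) * (a * x₂ * a⁻¹) = a * (x₁ * x₂) * a⁻¹ := by group
          _ = x₁ * x₂ := by rw [hAcomm a ha _ heA]; group
      have e4 := (decomp_unique hdisj (hs₂ x₂ hx₂) hx₁ (hs₁ x₁ hx₁) hx₂ e3).2
      rcases h4 x₁ hx₁ with h | h | h | h
      · have hx₂1 : x₂ = 1 := by
          rw [← e4, h]
          group
        rw [h, hx₂1, one_mul]
        exact Subgroup.one_mem _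
      · exfalso
        rw [h] at e2
        exact hmove e2
      · exfalso
        rw [h, ha₁u₁] at e2
        exact hne e2
      · rw [← e4, h, ← hgdef]
        exact Subgroup.mem_zpowers g
    have hE2 : Nat.card ↥(C ⊓ (U₁ ⊔ U₂)) ≤ 2 := by
      have h1 := Subgroup.card_le_of_le hEg
      have h2 : Nat.card ↥(Subgroup.zpowers g) ≤ 2 := by
        rw [Nat.card_zpowers]
        exact Nat.le_of_dvd (by norm_num) (orderOf_dvd_of_pow_eq_one (hD.2 g hgD))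
      exact h1.trans h2
    have h1 : Nat.card ↥(C ⊔ (U₁ ⊔ U₂)) * Nat.card ↥(C ⊓ (U₁ ⊔ U₂)) ≤ Nat.card A * 2 :=
      Nat.mul_le_mul hXA hE2
    rw [eX] at h1
    have h2 : Nat.card A * 2 ≤ Nat.card C * 2 * 2 * 2 := Nat.mul_le_mul_right 2 hA4
    have h3 := h1.trans h2
    omega
  · -- every element of `A` normalizing `U₁` centralizes it
    push Not at hI
    have hAle : A ≤ C ⊔ Subgroup.zpowers a := by
      intro b hb
      rcases hnorm b hb with h | h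
      · exact Subgroup.mem_sup_left (hCmem b hb (hI b hb h))
      · rw [hsplit b hb]
        exact Subgroup.mul_mem _
          (Subgroup.mem_sup_left (hCmem _ (A.mul_mem hb ha) (hI _ (A.mul_mem hb ha) h)))
          (Subgroup.mem_sup_right (Subgroup.mem_zpowers a))
    have hA2 : Nat.card A ≤ Nat.card C * 2 := by
      have h1 := Subgroup.card_le_of_le hAle
      have h2 := hsupcard C (Subgroup.zpowers a) hCA (hzA a ha)
      have h3 := hz a ha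
      calc Nat.card A ≤ Nat.card C * Nat.card ↥(Subgroup.zpowers a) := h1.trans h2
        _ ≤ Nat.card C * 2 := Nat.mul_le_mul_left _ h3
    have h1 : Nat.card ↥(C ⊔ (U₁ ⊔ U₂)) * Nat.card ↥(C ⊓ (U₁ ⊔ U₂)) ≤ Nat.card A * 4 :=
      Nat.mul_le_mul hXA hE4
    rw [eX] at h1
    have h2 : Nat.card A * 4 ≤ Nat.card C * 2 * 4 := Nat.mul_le_mul_right 4 hA2
    have h3 := h1.trans h2
    omega

end Cfsg.Agent.H8.R1
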