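import Mathlib
import Cfsg.Prelude
import Cfsg.Agent.H85.RTDefs

/-!
S5046 piece VODD (and small shared lemmas on root involutions).
-/

set_option autoImplicit false

namespace Cfsg.Agent.H8.RT

open Cfsg.Agent.H85.RT Cfsg.Agent.H40.RootInv

universe u

section aux

variable {G : Type*} [Group G] {D : Set G}

/-- commuting involutions have product of order dividing 2. -/
theorem sq_mul_of_comm {a b : G} (ha : a * a = 1) (hb : b * b = 1) (hab : a * b = b * a) :
    (a * b) ^ 2 = 1 := by
  rw [pow_two]
  calc a * b * (a * b) = a * (b * a) * b := by group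
    _ = a * (a * b) * b := by rw [hab]
    _ = (a * a) * (b * b) := by group
    _ = 1 := by rw [ha, hb, one_mul]

/-- commuting involutions with product of odd order are equal. -/
theorem eq_of_comm_odd {a b : G} (ha : a * a = 1) (hb : b * b = 1) (hab : a * b = b * a)
    (hodd : Odd (orderOf (a * b))) : a = b := by
  have h1 := orderOf_dvd_of_pow_eq_one (sq_mul_of_comm ha hb hab)
  have h2 := odd_dvd_two hodd h1
  have h3 : a * b = 1 := orderOf_eq_one_iff.mp h2
  have h4 : a = b⁻¹ := eq_inv_of_mul_eq_one_left h3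
  rw [h4, inv_eq_of_mul_eq_one_left hb]

/-- a pair of members of `D` with product of order 4: the square of the product is in `D`. -/
theorem sq_mem_of_four (hD : Cfsg.IsRootInvolutionSet D) {a b : G} (ha : a ∈ D) (hb : b ∈ D)
    (h4 : orderOf (a * b) = 4) : a * b * (a * b) ∈ D := by
  rcases hD.pair a ha b hb with h | h | h
  · exfalso
    have h1 := orderOf_dvd_of_pow_eq_one (sq_mul_of_comm (sq_of_mem hD ha) (sq_of_mem hD hb) h)
    rw [h4] at h1
    omega
  · exfalso
    rw [h4] at h
    exact absurd h (by decide)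
  · have := h.2
    rwa [pow_two] at this

end aux

/-- VODD. -/
theorem v_odd : StVOdd.{u} := by
  intro G _ D hD x z y r hx hz hy hr hxz hxnz hxzD hxy4 htw hyr
  have hx2 := sq_of_mem hD hx
  have hy2 := sq_of_mem hD hy
  have hxinv : x⁻¹ = x := inv_eq_of_mul_eq_one_left hx2
  have h4 : (x * y) ^ 4 = 1 := by
    rw [← hxy4]
    exact pow_orderOf_eq_one _
  obtain ⟨-, d2, d3, d4, d5⟩ := dih8 hx2 hy2 h4
  have hsD : x * y * (x * y) ∈ D := sq_mem_of_four hD hx hy hxy4
  rw [pow_two]
  obtain ⟨s, hs⟩ : ∃ s, s = x * y * (x * y) := ⟨_, rfl⟩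
  rw [← hs] at hsD d2 d3 d4 d5 ⊢
  have hsx : s * x = x * s := by rw [d5, d4]
  have hsy : s * y = y * s := by rw [d3, d2]
  have hsyD : s * y ∈ D := by
    rw [d3]
    have := hD.conj_mem y hy x
    rwa [hxinv] at this
  have hsney : s ≠ y := by
    intro h
    have h1 : x * y * x = 1 := by rw [← d3, h, hy2]
    have h2 : y = 1 := by
      have h3 : x * (x * y * x) * x = (x * x) * y * (x * x) := by group
      rw [h1, hx2, mul_one, hx2, one_mul, mul_one] at h3
      exact h3.symm
    exact ne_one_of_mem hD hy h2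
  have hi : s ∉ Cfsg.oddPartners D z := by
    rintro ⟨-, hsz, hodd⟩
    exact hsz (Cfsg.Agent.H85.RI.b1 hD hx hz hxz hxnz hxzD hsD hsx hodd)
  have hi' : s ∉ Cfsg.oddPartners D r := by
    have htw' : Cfsg.oddPartners D z = Cfsg.oddPartners D r := htw
    rw [← htw']
    exact hi
  obtain ⟨-, hyner, hoddry⟩ := hyr
  have hii : r * s ≠ s * r := by
    intro h
    have := Cfsg.Agent.H85.RI.b1 hD hsD hy hsy hsney hsyD hr h
      (by rw [orderOf_mul_comm']; exact hoddry)
    exact hyner this.symm
  rcases hD.pair s hsD r hr with h | h | h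
  · exact absurd h.symm hii
  · exfalso
    apply hi'
    refine ⟨hsD, ?_, by rw [orderOf_mul_comm']; exact h⟩
    intro hsr
    apply hii
    rw [hsr]
  · exact h

example : Cfsg.Agent.H85.RT.StVOdd.{u} := v_odd

end Cfsg.Agent.H8.RT
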