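import Mathlib
import Cfsg.Prelude
import Cfsg.Agent.H85.RTDefs
import Cfsg.Agent.H8.RTVOdd

/-!
S5046 piece COMMCONJ.
-/

set_option autoImplicit false

namespace Cfsg.Agent.H8.RT

open Cfsg.Agent.H85.RT Cfsg.Agent.H40.RootInv

universe u

/-- the `D₈` facts for a pair `s, r ∈ D` with `o(s r) = 4`: `w = s r s` commutes with `r`,
`w r = r w = (s r)² ∈ D` commutes with `s`, and `w ≠ r`. -/
theorem d8_facts {G : Type*} [Group G] {D : Set G} (hD : Cfsg.IsRootInvolutionSet D) {s r : G}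
    (hs : s ∈ D) (hr : r ∈ D) (h4 : orderOf (s * r) = 4) :
    s * r * (s * r) ∈ D ∧ (s * r * s) * r = s * r * (s * r) ∧
      r * (s * r * s) = s * r * (s * r) ∧ s * r * (s * r) * s = s * (s * r * (s * r)) ∧
      s * r * s ≠ r := by
  have hs2 := sq_of_mem hD hs
  have hr2 := sq_of_mem hD hr
  have e4 : (s * r) ^ 4 = 1 := by
    rw [← h4]
    exact pow_orderOf_eq_one _
  obtain ⟨-, a2, -, a4, a5⟩ := dih8 hs2 hr2 e4
  have hz := sq_mem_of_four hD hs hr h4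
  have h1 : (s * r * s) * r = s * r * (s * r) := by group
  have h2 : r * (s * r * s) = s * r * (s * r) := by
    rw [← a2, ← mul_assoc, hr2, one_mul]
  refine ⟨hz, h1, h2, by rw [a5, a4], ?_⟩
  intro h
  rw [h, hr2] at h1
  exact ne_one_of_mem hD hz h1.symm

/-- COMMCONJ. -/
theorem comm_conj (h4 : St4GL.{u}) : StCommConj.{u} := by
  intro G _ _ D hD hc s y r₁ r₂ hs hy hr₁ hr₂ htw hr12 h41 h42 hsy hsycomm hsyD hyr₁
  have hs2 := sq_of_mem hD hs
  have hr₁2 := sq_of_mem hD hr₁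
  have hr₂2 := sq_of_mem hD hr₂
  have hsinv : s⁻¹ = s := inv_eq_of_mul_eq_one_left hs2
  have hr₂inv : r₂⁻¹ = r₂ := inv_eq_of_mul_eq_one_left hr₂2
  rw [hsinv]
  obtain ⟨hz₁D, hwr₁, hr₁w, hz₁s, hwne⟩ := d8_facts hD hs hr₁ h41
  obtain ⟨-, hw₂r₂, hr₂w₂, -, hw₂ne⟩ := d8_facts hD hs hr₂ h42
  have hwD : s * r₁ * s ∈ D := by
    have := hD.conj_mem r₁ hr₁ s
    rwa [hsinv] at this
  have hw₂D : s * r₂ * s ∈ D := by
    have := hD.conj_mem r₂ hr₂ s
    rwa [hsinv] at this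
  have htww : Tw D (s * r₁ * s) (s * r₂ * s) := by
    have := tw_conj hD s htw
    rwa [hsinv] at this
  obtain ⟨z₁, hz₁⟩ : ∃ z₁, z₁ = s * r₁ * (s * r₁) := ⟨_, rfl⟩
  rw [← hz₁] at hz₁D hwr₁ hr₁w hz₁s
  obtain ⟨w, hw⟩ : ∃ w, w = s * r₁ * s := ⟨_, rfl⟩
  rw [← hw] at hwD hwr₁ hr₁w hwne htww ⊢
  obtain ⟨w₂, hw₂⟩ : ∃ w₂, w₂ = s * r₂ * s := ⟨_, rfl⟩
  rw [← hw₂] at hw₂D hw₂r₂ hr₂w₂ hw₂ne htww
  have hw2 := sq_of_mem hD hwD
  have hw₂2 := sq_of_mem hD hw₂D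
  have hwinv : w⁻¹ = w := inv_eq_of_mul_eq_one_left hw2
  have hw₂comm : w₂ * r₂ = r₂ * w₂ := by rw [hw₂r₂, hr₂w₂]
  by_contra hne
  rcases hD.pair r₂ hr₂ w hwD with h | h | h
  · exact hne h.symm
  · -- odd order is impossible
    have hmem : r₂ ∈ Cfsg.oddPartners D w := by
      refine ⟨hr₂, ?_, by rw [orderOf_mul_comm']; exact h⟩
      intro he
      apply hne
      rw [he]
    have htww' : Cfsg.oddPartners D w = Cfsg.oddPartners D w₂ := htww
    rw [htww'] at hmem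
    obtain ⟨-, hne2, hodd2⟩ := hmem
    exact hw₂ne (eq_of_comm_odd hw₂2 hr₂2 hw₂comm hodd2)
  · obtain ⟨h4o, -⟩ := h
    have hcD := sq_mem_of_four hD hr₂ hwD h4o
    have e4 : (r₂ * w) ^ 4 = 1 := by
      rw [← h4o]
      exact pow_orderOf_eq_one _
    obtain ⟨-, b2, b3, b4, b5⟩ := dih8 hr₂2 hw2 e4
    obtain ⟨c, hc_def⟩ : ∃ c, c = r₂ * w * (r₂ * w) := ⟨_, rfl⟩
    rw [← hc_def] at hcD b2 b3 b4 b5
    have hc1 : c ≠ 1 := ne_one_of_mem hD hcD
    -- (a)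
    have hr₂'D : w * r₂ * w ∈ D := by
      have := hD.conj_mem r₂ hr₂ w
      rwa [hwinv] at this
    have ha1 : Tw D (w * r₂ * w) r₂ := by
      have h1 := tw_conj hD w htw.symm
      rw [hwinv] at h1
      have h2 : w * r₁ * w = r₁ := by
        rw [hwr₁, ← hr₁w, mul_assoc, hw2, mul_one]
      rw [h2] at h1
      exact h1.trans htw
    have ha2 : r₂ * (w * r₂ * w) = c := by
      rw [← b4, ← mul_assoc, hr₂2, one_mul]
    have ha3 : (w * r₂ * w) * r₂ = c := by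
      rw [← b5, mul_assoc, hr₂2, mul_one]
    have ha4 : r₂ ≠ w * r₂ * w := by
      intro he
      rw [← he, hr₂2] at ha2
      exact hc1 ha2.symm
    have hTa : Tw D c r₂ := by
      have := h4 hD hc hr₂ hr₂'D ha1.symm ha4 (by rw [ha2, ha3]) (by rw [ha2]; exact hcD)
      rwa [ha2] at this
    -- (b)
    have hw'D : r₂ * w * r₂ ∈ D := by
      have := hD.conj_mem w hwD r₂
      rwa [hr₂inv] at this
    have hb1 : Tw D (r₂ * w * r₂) w := by
      have h1 := tw_conj hD r₂ htww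
      rw [hr₂inv] at h1
      have h2 : r₂ * w₂ * r₂ = w₂ := by
        rw [← hw₂comm, mul_assoc, hr₂2, mul_one]
      rw [h2] at h1
      exact h1.trans htww.symm
    have hb2 : w * (r₂ * w * r₂) = c := by
      rw [← b2, ← mul_assoc, hw2, one_mul]
    have hb3 : (r₂ * w * r₂) * w = c := by
      rw [← b3, mul_assoc, hw2, mul_one]
    have hb4 : w ≠ r₂ * w * r₂ := by
      intro he
      rw [← he, hw2] at hb2
      exact hc1 hb2.symm
    have hTb : Tw D c w := by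
      have := h4 hD hc hwD hw'D hb1.symm hb4 (by rw [hb2, hb3]) (by rw [hb2]; exact hcD)
      rwa [hb2] at this
    -- (c)
    have hTr₁w : Tw D r₁ w := (htw.trans hTa.symm).trans hTb
    have hTc : Tw D z₁ r₁ := by
      have := h4 hD hc hr₁ hwD hTr₁w (fun he => hwne he.symm) (by rw [hr₁w, hwr₁])
        (by rw [hr₁w]; exact hz₁D)
      rwa [hr₁w] at this
    -- (d)
    have hTc' : Cfsg.oddPartners D z₁ = Cfsg.oddPartners D r₁ := hTc
    rw [← hTc'] at hyr₁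
    obtain ⟨-, hyne, hodd⟩ := hyr₁
    have := Cfsg.Agent.H85.RI.b1 hD hs hy hsycomm hsy hsyD hz₁D hz₁s
      (by rw [orderOf_mul_comm']; exact hodd)
    exact hyne this.symm

example (h4 : Cfsg.Agent.H85.RT.St4GL.{u}) : Cfsg.Agent.H85.RT.StCommConj.{u} := comm_conj h4

end Cfsg.Agent.H8.RT
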