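import Mathlib
import Cfsg.Agent.H8.SzZass

set_option autoImplicit false

namespace Cfsg.Agent.H8

open Cfsg Matrix MulAction

section

variable {F : Type*} [Field F] [Fintype F] {m : ℕ}

omit [Fintype F] in
/-- the three standard vectors are linearly independent -/
theorem sz_std_indep {x y : F} (hxy : ¬ (x = 0 ∧ y = 0)) :
    LinearIndependent F ![szInf F, szv F m 0 0, szv F m x y] := by
  rw [Fintype.linearIndependent_iff]
  intro g hg
  rw [Fin.sum_univ_three] at hg
  have h0 := congrFun hg 0
  have h1 := congrFun hg 1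
  have h2 := congrFun hg 2
  have h3 := congrFun hg 3
  simp [szInf, szv, szf_zero] at h0 h1 h2 h3
  have g2 : g 2 = 0 := by
    by_contra hne
    apply hxy
    exact ⟨h2.resolve_left hne, h1.resolve_left hne⟩
  rw [g2] at h3 h0
  have g1 : g 1 = 0 := by simpa using h3
  have g0 : g 0 = 0 := by simpa using h0
  intro i
  fin_cases i <;> assumption

theorem sz_ovoid_indep (hF : Fintype.card F = 2 ^ (2 * m + 1))
    (p : Fin 3 ↪ suzukiOvoid F m) :
    Projectivization.Independent (fun i => (p i : Projectivization F (Fin 4 → F))) := by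
  obtain ⟨qa, ha⟩ := szP_surj (p 0)
  obtain ⟨qb, hb⟩ := szP_surj (p 1)
  obtain ⟨qc, hc⟩ := szP_surj (p 2)
  have hab' : qa ≠ qb := by
    intro h
    have : p 0 = p 1 := by rw [← ha, ← hb, h]
    exact absurd (p.injective this) (by decide)
  have hac' : qa ≠ qc := by
    intro h
    have : p 0 = p 2 := by rw [← ha, ← hc, h]
    exact absurd (p.injective this) (by decide)
  have hbc' : qb ≠ qc := by
    intro h
    have : p 1 = p 2 := by rw [← hb, ← hc, h]
    exact absurd (p.injective this) (by decide)
  obtain ⟨k, hk, h1, h2⟩ := sz_exists_pair hF hab'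
  obtain ⟨q'', hq''⟩ := sz_smul_mem (Subgroup.inv_mem _ hk) qc
  have hq3 : k • szPt F m q'' = szPt F m qc := by rw [← hq'', smul_inv_smul]
  match q'', hq3 with
  | none, hq3 =>
    exfalso
    rw [h1] at hq3
    exact hac' (szPt_injective F m hq3)
  | some (x, y), hq3 =>
    have hxy : ¬ (x = 0 ∧ y = 0) := by
      rintro ⟨rfl, rfl⟩
      rw [h2] at hq3
      exact hbc' (szPt_injective F m hq3)
    have hl := sz_std_indep (m := m) hxy
    have hl2 : LinearIndependent F
        (fun i => k • (![szInf F, szv F m 0 0, szv F m x y] i)) :=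
      hl.map' (DistribSMul.toLinearMap F (Fin 4 → F) k)
        (LinearMap.ker_eq_bot.2 (MulAction.injective k))
    have hne : ∀ i, k • (![szInf F, szv F m 0 0, szv F m x y] i) ≠ 0 := fun i => hl2.ne_zero i
    have := Projectivization.Independent.mk _ hne hl2
    convert this using 2 with i
    fin_cases i
    · show (p 0 : Projectivization F (Fin 4 → F)) = _
      rw [← ha]
      exact h1.symm
    · show (p 1 : Projectivization F (Fin 4 → F)) = _
      rw [← hb]
      exact h2.symm
    · show (p 2 : Projectivization F (Fin 4 → F)) = _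
      rw [← hc]
      exact hq3.symm

end

end Cfsg.Agent.H8
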