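import Cfsg.Agent.H58.UqDefs
import Cfsg.Agent.S0617
import Cfsg.Agent.H14.TFail

set_option autoImplicit false
set_option linter.unusedVariables false

/-! Piece UQ-SABS (helper8, for helper58's UQ project, S2950): Glauberman's structure theorem
S0617, transported to the holomorph of `V` (as in helper14's `H14/SnGL.lean`), shows that a
subgroup `K ≤ J(X)` of order 3 modulo `C_X(V)` with `|[V, K]| = 4` has `[V, K]` normalized by
`J(X)`.

Proof: in the holomorph, `H = ψ(J(X))` normalizes the `E_i ≅ SL(2,2)` and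
`V = C_V(H) × Π [V, E_i]`, each `[V, E_i]` of order 4.  `Q = ψ(K)` has order 3 and does not
centralize `V`, so some `x ∈ Q` moves some `w ∈ W_i = [V, E_i]`; the three conjugates
`w, w^x, w^(x^2)` are distinct, so `1, [w, x], [w^x, x]` are three distinct elements of
`[V, Q] ∩ W_i`, which therefore has order 4 and `[V, Q] = W_i`, normalized by `H`. -/

open Cfsg
open scoped commutatorElement Pointwise

namespace Cfsg.Agent.H8.Uq

open Cfsg.Agent.H14.Holo Cfsg.Agent.H58.Uq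

universe u

/-- Commutators of the copy of `V` with the image of `X`, in the holomorph. -/
theorem comm_inl_psi {X : Type u} [Group X] (V : Subgroup X) [V.Normal] (v : ↥V) (k : X) :
    ⁅(SemidirectProduct.inl v : Hol V), psi V k⁆ =
      SemidirectProduct.inl (v * (MulAut.conjNormal k : MulAut ↥V) v⁻¹) := by
  rw [commutatorElement_def, map_mul, ← psi_conj, map_inv]
  group

/-- The commutator `[V, K]` corresponds to the commutator in the holomorph. -/
theorem comm_Vh_map {X : Type u} [Group X] (V : Subgroup X) [V.Normal] (K : Subgroup X) :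
    ⁅Vh V, K.map (psi V)⁆ =
      ((⁅V, K⁆ : Subgroup X).subgroupOf V).map (SemidirectProduct.inl : ↥V →* Hol V) := by
  have hval : ∀ (v : ↥V) (k : X),
      ((v * (MulAut.conjNormal k : MulAut ↥V) v⁻¹ : ↥V) : X) = ⁅(v : X), k⁆ := by
    intro v k
    rw [Subgroup.coe_mul, MulAut.conjNormal_apply, commutatorElement_def, Subgroup.coe_inv]
    group
  apply le_antisymm
  · rw [Subgroup.commutator_le]
    rintro _ ⟨v, rfl⟩ _ ⟨k, hk, rfl⟩
    rw [comm_inl_psi]
    refine Subgroup.mem_map_of_mem _ ?_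
    rw [Subgroup.mem_subgroupOf, hval]
    exact Subgroup.commutator_mem_commutator v.2 hk
  · rw [Subgroup.map_le_iff_le_comap]
    have h1 : (⁅V, K⁆ : Subgroup X) ≤ ((⁅Vh V, K.map (psi V)⁆ : Subgroup (Hol V)).comap
        (SemidirectProduct.inl : ↥V →* Hol V)).map V.subtype := by
      rw [Subgroup.commutator_le]
      intro v hv k hk
      refine ⟨⟨v, hv⟩ * (MulAut.conjNormal k : MulAut ↥V) ⟨v, hv⟩⁻¹, ?_, ?_⟩
      · rw [SetLike.mem_coe, Subgroup.mem_comap, ← comm_inl_psi]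
        exact Subgroup.commutator_mem_commutator ⟨_, rfl⟩ (Subgroup.mem_map_of_mem _ hk)
      · exact hval ⟨v, hv⟩ k
    intro y hy
    rw [Subgroup.mem_subgroupOf] at hy
    obtain ⟨z, hz, hzy⟩ := h1 hy
    have hzy' : z = y := Subtype.ext hzy
    rw [← hzy']
    exact hz

/-- The abstract core: in a group `Y` with a normal elementary abelian 2-subgroup `𝕍` which is
the product of `C_𝕍(H)` and subgroups `[𝕍, E i]` of order 4, the `E i` normalized by `H`, a
subgroup `Q ≤ H` of order 3 with `|[𝕍, Q]| = 4` has `[𝕍, Q]` normalized by `H`. -/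
theorem sabs_core {Y : Type u} [Group Y] [Finite Y] (𝕍 H Q : Subgroup Y) [hVn : 𝕍.Normal]
    (hV : IsElementaryAbelian 2 𝕍) (hQH : Q ≤ H) (hQ3 : Nat.card Q = 3)
    (hD : Nat.card ↥⁅𝕍, Q⁆ = 4)
    {ι : Type u} (E : ι → Subgroup Y) (hE : ∀ i, H ≤ Subgroup.normalizer (E i : Set Y))
    (hW : ∀ i, Nat.card ↥⁅𝕍, E i⁆ = 4)
    (hdec : (𝕍 ⊓ Subgroup.centralizer (H : Set Y)) ⊔ (⨆ i, ⁅𝕍, E i⁆) = 𝕍) :
    H ≤ Subgroup.normalizer ((⁅𝕍, Q⁆ : Subgroup Y) : Set Y) := by
  classical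
  have hex : ∃ i, ¬ ⁅𝕍, E i⁆ ≤ Subgroup.centralizer (Q : Set Y) := by
    by_contra hcon
    push Not at hcon
    have h1 : 𝕍 ≤ Subgroup.centralizer (Q : Set Y) := by
      calc 𝕍 = (𝕍 ⊓ Subgroup.centralizer (H : Set Y)) ⊔ (⨆ i, ⁅𝕍, E i⁆) := hdec.symm
        _ ≤ Subgroup.centralizer (Q : Set Y) := by
          refine sup_le ?_ (iSup_le hcon)
          exact inf_le_right.trans (Subgroup.centralizer_le hQH)
    have h2 : ⁅𝕍, Q⁆ = ⊥ := Subgroup.commutator_eq_bot_iff_le_centralizer.mpr h1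
    rw [h2, Subgroup.card_bot] at hD
    omega
  obtain ⟨i, hi⟩ := hex
  obtain ⟨w, hw, hwc⟩ := SetLike.not_le_iff_exists.mp hi
  rw [Subgroup.mem_centralizer_iff] at hwc
  push Not at hwc
  obtain ⟨x, hx, hxw⟩ := hwc
  have hxQ : x ∈ Q := hx
  have hxH : x ∈ H := hQH hxQ
  have hx3 : x ^ 3 = 1 := by
    have h := pow_card_eq_one' (G := ↥Q) (x := ⟨x, hxQ⟩)
    rw [hQ3] at h
    have h' := congrArg Subtype.val h
    simpa using h'
  have hWle : ⁅𝕍, E i⁆ ≤ 𝕍 := Subgroup.commutator_le_left 𝕍 (E i)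
  have hconjW : ∀ h ∈ H, ∀ y ∈ ⁅𝕍, E i⁆, h * y * h⁻¹ ∈ ⁅𝕍, E i⁆ := by
    intro h hh y hy
    have h1 : (MulAut.conj h).toMonoidHom y ∈
        (⁅𝕍, E i⁆ : Subgroup Y).map (MulAut.conj h).toMonoidHom :=
      Subgroup.mem_map_of_mem _ hy
    rw [Subgroup.map_commutator] at h1
    have hVa : 𝕍.map (MulAut.conj h).toMonoidHom ≤ 𝕍 := by
      rintro _ ⟨u, hu, rfl⟩
      exact hVn.conj_mem u hu h
    have hEa : (E i).map (MulAut.conj h).toMonoidHom ≤ E i := by
      rintro _ ⟨u, hu, rfl⟩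
      exact (Subgroup.mem_normalizer_iff.mp (hE i hh) u).mp hu
    exact Subgroup.commutator_mono hVa hEa h1
  obtain ⟨w1, hw1⟩ : ∃ w1, w1 = x * w * x⁻¹ := ⟨_, rfl⟩
  obtain ⟨w2, hw2⟩ : ∃ w2, w2 = x * w1 * x⁻¹ := ⟨_, rfl⟩
  have hw1W : w1 ∈ ⁅𝕍, E i⁆ := by rw [hw1]; exact hconjW x hxH w hw
  have hw2W : w2 ∈ ⁅𝕍, E i⁆ := by rw [hw2]; exact hconjW x hxH w1 hw1W
  have hw3 : x * w2 * x⁻¹ = w := by
    rw [hw2, hw1]
    have h : x * (x * (x * w * x⁻¹) * x⁻¹) * x⁻¹ = x ^ 3 * w * (x ^ 3)⁻¹ := by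
      simp only [pow_succ, pow_zero, one_mul, mul_inv_rev, mul_assoc]
    rw [h, hx3]
    simp
  have hsq : ∀ y ∈ 𝕍, y * y = 1 := fun y hy => by
    have h := hV.2 y hy
    rwa [pow_two] at h
  have hinv : ∀ y ∈ 𝕍, y⁻¹ = y := fun y hy => inv_eq_of_mul_eq_one_left (hsq y hy)
  have hcen : 𝕍 ≤ Subgroup.centralizer (𝕍 : Set Y) :=
    Subgroup.le_centralizer_iff_isMulCommutative.mpr hV.1
  have hcomm : ∀ a ∈ 𝕍, ∀ b ∈ 𝕍, a * b = b * a := fun a ha b hb =>
    Subgroup.mem_centralizer_iff.mp (hcen hb) a ha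
  have hwV := hWle hw
  have hw1V := hWle hw1W
  have hw2V := hWle hw2W
  have hne01 : w1 ≠ w := by
    intro h
    apply hxw
    rw [hw1] at h
    calc x * w = (x * w * x⁻¹) * x := by group
      _ = w * x := by rw [h]
  have hne12 : w2 ≠ w1 := by
    intro h
    apply hne01
    have e2 : x * w1 * x⁻¹ = x * w * x⁻¹ := by rw [← hw2, ← hw1]; exact h
    exact mul_left_cancel (mul_right_cancel e2)
  have hne20 : w ≠ w2 := by
    intro h
    apply hne01
    rw [hw1]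
    conv_lhs => rw [h]
    exact hw3
  have ha0 : ⁅w, x⁆ = w * w1 := by
    have h : ⁅w, x⁆ = w * w1⁻¹ := by rw [hw1, commutatorElement_def]; group
    rw [h, hinv w1 hw1V]
  have ha1 : ⁅w1, x⁆ = w1 * w2 := by
    have h : ⁅w1, x⁆ = w1 * w2⁻¹ := by rw [hw2, commutatorElement_def]; group
    rw [h, hinv w2 hw2V]
  have ha0D : w * w1 ∈ ⁅𝕍, Q⁆ := ha0 ▸ Subgroup.commutator_mem_commutator hwV hxQ
  have ha1D : w1 * w2 ∈ ⁅𝕍, Q⁆ := ha1 ▸ Subgroup.commutator_mem_commutator hw1V hxQ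
  have ha0W : w * w1 ∈ ⁅𝕍, E i⁆ := Subgroup.mul_mem _ hw hw1W
  have ha1W : w1 * w2 ∈ ⁅𝕍, E i⁆ := Subgroup.mul_mem _ hw1W hw2W
  have h0 : w * w1 ≠ 1 := by
    intro h
    apply hne01
    have h' := eq_inv_of_mul_eq_one_right h
    rw [hinv w hwV] at h'
    exact h'
  have h1 : w1 * w2 ≠ 1 := by
    intro h
    apply hne12
    have h' := eq_inv_of_mul_eq_one_right h
    rw [hinv w1 hw1V] at h'
    exact h'
  have h01 : w * w1 ≠ w1 * w2 := by
    intro h
    apply hne20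
    rw [hcomm w1 hw1V w2 hw2V] at h
    exact mul_right_cancel h
  have h3 : 2 < Nat.card ↥(⁅𝕍, Q⁆ ⊓ ⁅𝕍, E i⁆) := by
    haveI : Fintype ↥(⁅𝕍, Q⁆ ⊓ ⁅𝕍, E i⁆) := Fintype.ofFinite _
    rw [Nat.card_eq_fintype_card, Fintype.two_lt_card_iff]
    refine ⟨1, ⟨w * w1, Subgroup.mem_inf.mpr ⟨ha0D, ha0W⟩⟩,
      ⟨w1 * w2, Subgroup.mem_inf.mpr ⟨ha1D, ha1W⟩⟩, ?_, ?_, ?_⟩
    · intro h
      exact h0 (congrArg Subtype.val h).symm
    · intro h
      exact h1 (congrArg Subtype.val h).symm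
    · intro h
      exact h01 (congrArg Subtype.val h)
  have hdvdD : Nat.card ↥(⁅𝕍, Q⁆ ⊓ ⁅𝕍, E i⁆) ∣ 4 := hD ▸ Subgroup.card_dvd_of_le inf_le_left
  have hF4 : Nat.card ↥(⁅𝕍, Q⁆ ⊓ ⁅𝕍, E i⁆) = 4 := by
    have h5 := Nat.le_of_dvd (by norm_num) hdvdD
    have h6 : Nat.card ↥(⁅𝕍, Q⁆ ⊓ ⁅𝕍, E i⁆) ≠ 3 := by
      intro h
      rw [h] at hdvdD
      omega
    omega
  have hFD : ⁅𝕍, Q⁆ ⊓ ⁅𝕍, E i⁆ = ⁅𝕍, Q⁆ :=
    Subgroup.eq_of_le_of_card_ge inf_le_left (by rw [hF4, hD])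
  have hFW : ⁅𝕍, Q⁆ ⊓ ⁅𝕍, E i⁆ = ⁅𝕍, E i⁆ :=
    Subgroup.eq_of_le_of_card_ge inf_le_right (by rw [hF4, hW i])
  have hDW : ⁅𝕍, Q⁆ = ⁅𝕍, E i⁆ := hFD.symm.trans hFW
  rw [hDW]
  intro h hh
  rw [Subgroup.mem_normalizer_iff]
  intro y
  constructor
  · exact hconjW h hh y
  · intro hy
    have h' := hconjW h⁻¹ (H.inv_mem hh) _ hy
    simpa [mul_assoc] using h'

theorem sAbs : StSAbs.{u} := by
  intro X _ _ V _ hV hsep hO K O hKJ hOK hOC hidx hcard
  haveI : Fact (Nat.Prime 2) := ⟨Nat.prime_two⟩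
  haveI hJn := thompsonSubgroup_normal 2 X
  haveI hVhn := Vh_normal V
  have hV' := Vh_elemAb V hV
  have hHV : (thompsonSubgroup 2 X).map (psi V) ≤
      Subgroup.normalizer ((Vh V : Subgroup (Hol V)) : Set (Hol V)) := by
    rw [Subgroup.normalizer_eq_top]
    exact le_top
  have hHR : (thompsonSubgroup 2 X).map (psi V) ≤ (psi V).range := by
    rintro _ ⟨j, -, rfl⟩
    exact ⟨j, rfl⟩
  have hf : (thompsonSubgroup 2 X).map (psi V) ⊓
      Subgroup.centralizer ((Vh V : Subgroup (Hol V)) : Set (Hol V)) = ⊥ := by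
    rw [eq_bot_iff, ← range_faithful V]
    exact inf_le_inf_right _ hHR
  have hnorm : (psi V).range ≤
      Subgroup.normalizer (((thompsonSubgroup 2 X).map (psi V) : Subgroup (Hol V)) :
        Set (Hol V)) := by
    rintro _ ⟨g, rfl⟩
    rw [Subgroup.mem_normalizer_iff]
    intro h
    constructor
    · rintro ⟨j, hj, rfl⟩
      refine ⟨g * j * g⁻¹, hJn.conj_mem j hj g, ?_⟩
      simp
    · rintro ⟨j, hj, hjh⟩
      refine ⟨g⁻¹ * j * g, ?_, ?_⟩
      · have := hJn.conj_mem j hj g⁻¹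
        simpa using this
      · rw [map_mul, map_mul, hjh, map_inv]
        group
  have hS1 := hS1_of_normal (p := 2) (psi V).range ((thompsonSubgroup 2 X).map (psi V)) hHR
    hnorm (range_isPSolvable V hsep) (range_pCore_eq_bot V hO)
  have hS3 : (thompsonSubgroup 2 X).map (psi V) = ⨆ A : {A : Subgroup (Hol V) //
      A ≤ (thompsonSubgroup 2 X).map (psi V) ∧ IsBestOffenderOn 2 (Vh V) A},
      (A : Subgroup (Hol V)) := by
    apply le_antisymm
    · conv_lhs => unfold Cfsg.thompsonSubgroup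
      rw [Subgroup.map_le_iff_le_comap]
      apply sSup_le
      intro A hA
      rw [← Subgroup.map_le_iff_le_comap]
      exact le_iSup (fun A : {A : Subgroup (Hol V) //
        A ≤ (thompsonSubgroup 2 X).map (psi V) ∧ IsBestOffenderOn 2 (Vh V) A} =>
          (A : Subgroup (Hol V)))
        ⟨A.map (psi V), Subgroup.map_mono (le_sSup hA), bestOffender_map V hV hA⟩
    · exact iSup_le fun A => A.2.1
  have hcardD : Nat.card ↥⁅Vh V, K.map (psi V)⁆ = 4 := by
    rw [comm_Vh_map, Subgroup.card_map_of_injective SemidirectProduct.inl_injective, ← hcard]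
    exact Nat.card_congr (Subgroup.subgroupOfEquivOfLe (Subgroup.commutator_le_left V K)).toEquiv
  have hQ3 : Nat.card ↥(K.map (psi V)) = 3 := by
    have e1 := card_map_psi V K
    have e2 : O.relIndex K * Nat.card O = Nat.card K := Cfsg.Agent.H14.relIndex_mul_card' hOK
    rw [hidx] at e2
    have hle : O ≤ K ⊓ Subgroup.centralizer (V : Set X) := le_inf hOK hOC
    obtain ⟨m, hm⟩ := Subgroup.card_dvd_of_le hle
    have hOpos : 0 < Nat.card O := Nat.card_pos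
    rw [hm, ← e2] at e1
    have e3 : Nat.card ↥(K.map (psi V)) * m = 3 := by
      have h : Nat.card O * (Nat.card ↥(K.map (psi V)) * m) = Nat.card O * 3 := by
        calc Nat.card O * (Nat.card ↥(K.map (psi V)) * m)
            = Nat.card ↥(K.map (psi V)) * (Nat.card O * m) := by ring
          _ = 3 * Nat.card O := e1
          _ = Nat.card O * 3 := by ring
      exact Nat.eq_of_mul_eq_mul_left hOpos h
    have hdvd : Nat.card ↥(K.map (psi V)) ∣ 3 := ⟨m, e3.symm⟩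
    rcases (Nat.dvd_prime Nat.prime_three).mp hdvd with h1 | h3
    · exfalso
      have hbot : K.map (psi V) = ⊥ := Subgroup.card_eq_one.mp h1
      rw [hbot, Subgroup.commutator_bot_right, Subgroup.card_bot] at hcardD
      omega
    · exact h3
  by_cases hH1 : (thompsonSubgroup 2 X).map (psi V) = ⊥
  · exfalso
    have hbot : K.map (psi V) = ⊥ := eq_bot_iff.mpr (hH1 ▸ Subgroup.map_mono hKJ)
    rw [hbot, Subgroup.card_bot] at hQ3
    omega
  · obtain ⟨-, hE, -, -, -, hdec⟩ :=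
      Cfsg.Agent.S0617.result _ _ hV' hHV hf hS1 hS3 hH1
    have hmain := sabs_core (Vh V) ((thompsonSubgroup 2 X).map (psi V)) (K.map (psi V)) hV'
      (Subgroup.map_mono hKJ) hQ3 hcardD (E := Subtype.val)
      (fun i => (hE i).1) (fun i => (hE i).2.2.trans (by norm_num)) hdec
    have key : ∀ j ∈ thompsonSubgroup 2 X, ∀ n ∈ ⁅V, K⁆, j * n * j⁻¹ ∈ ⁅V, K⁆ := by
      intro j hj n hn
      have hnV : n ∈ V := Subgroup.commutator_le_left V K hn
      have h1 : psi V j ∈ Subgroup.normalizer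
          ((⁅Vh V, K.map (psi V)⁆ : Subgroup (Hol V)) : Set (Hol V)) :=
        hmain (Subgroup.mem_map_of_mem _ hj)
      have h2 : (SemidirectProduct.inl (⟨n, hnV⟩ : ↥V) : Hol V) ∈ ⁅Vh V, K.map (psi V)⁆ := by
        rw [comm_Vh_map]
        exact Subgroup.mem_map_of_mem _ (Subgroup.mem_subgroupOf.mpr hn)
      have h3 := (Subgroup.mem_normalizer_iff.mp h1 _).mp h2
      rw [psi_conj, comm_Vh_map] at h3
      obtain ⟨z, hz, hzz⟩ := h3
      have h4 := SemidirectProduct.inl_injective hzz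
      rw [SetLike.mem_coe, Subgroup.mem_subgroupOf, h4, MulAut.conjNormal_apply] at hz
      exact hz
    intro j hj
    rw [Subgroup.mem_normalizer_iff]
    intro n
    constructor
    · exact key j hj n
    · intro hn
      have h' := key j⁻¹ (Subgroup.inv_mem _ hj) _ hn
      simpa [mul_assoc] using h'

example : Cfsg.Agent.H58.Uq.StSAbs.{u} := sAbs

end Cfsg.Agent.H8.Uq
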